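import Cfsg.Agent.Lib.Jk.XS

set_option autoImplicit false
set_option maxRecDepth 100000

/-! # Involutions inverting an element of class `3A` -/

namespace Cfsg.Agent.Lib.Jk

open Subgroup Cfsg.Agent.Lib.Core
open Cfsg.Agent.Lib.Root.J1 hiding Emb t0 v0 x0 T

variable {G : Type*} [Group G] [Finite G]

theorem exists_iv_pow {y : G} (h : Even (orderOf y)) : ∃ z ∈ zpowers y, Iv z :=
  ⟨_, pow_mem (mem_zpowers y) _, (Invol.orderOf_two_iff.1
    (Invol.orderOf_half_pow (orderOf_pos y).ne' h)).symm⟩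

theorem exists_iv_pow' {y : G} {j : ℕ} (h : y ^ 2 ^ j = 1) (h1 : y ≠ 1) : ∃ z ∈ zpowers y, Iv z := by
  obtain ⟨k, -, hk⟩ := (Nat.dvd_prime_pow Nat.prime_two).1 (orderOf_dvd_of_pow_eq_one h)
  refine exists_iv_pow ?_
  rcases k with _ | k
  · exact absurd (orderOf_eq_one_iff.1 hk) h1
  · rw [hk]; exact ⟨2 ^ k, by ring⟩

theorem odd_of_no_iv {y : G} (h : ∀ z ∈ zpowers y, ¬ Iv z) : Odd (orderOf y) := by
  by_contra e
  obtain ⟨z, hz, h2⟩ := exists_iv_pow (Nat.not_odd_iff_even.1 e)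
  exact h z hz h2

theorem two_part {n x : G} (h : n * x * n⁻¹ = x⁻¹) :
    ∃ m ∈ zpowers n, m * x * m⁻¹ = x⁻¹ ∧ ∃ j, m ^ 2 ^ j = 1 := by
  obtain ⟨j, _, ⟨k, rfl⟩, e⟩ := Nat.exists_eq_two_pow_mul_odd (orderOf_pos n).ne'
  have h2 : Commute (n ^ 2) x := (comm_of_conj (by
    calc n ^ 2 * x * (n ^ 2)⁻¹ = n * (n * x * n⁻¹) * n⁻¹ := by rw [pow_two]; group
      _ = x := by rw [h, ← conj_inv, h, inv_inv])).symm
  refine ⟨n ^ (2 * k + 1), pow_mem (mem_zpowers n) _, ?_, j, by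
    rw [← pow_mul, mul_comm, ← e, pow_orderOf_eq_one]⟩
  rw [pow_succ', pow_mul, mul_assoc n, (h2.pow_left k).eq, ← h]; group

omit [Finite G] in
theorem sq_comm_of_inv {n x : G} (h : n * x * n⁻¹ = x⁻¹) : n * n * x = x * (n * n) :=
  (comm_of_conj (by
    calc n * n * x * (n * n)⁻¹ = n * (n * x * n⁻¹) * n⁻¹ := by group
      _ = x := by rw [h, ← conj_inv, h, inv_inv])).symm

theorem sylow_count {p : ℕ} [Fact p.Prime] {P H : Subgroup G} (h : IsSyl p P H) :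
    ∃ n, n * Nat.card (H ⊓ normalizer (P : Set G) : Subgroup G) = Nat.card H ∧ n % p = 1 % p := by
  obtain ⟨S, hS⟩ := h.exists_sylow
  refine ⟨_, ?_, card_sylow_modEq_one p H⟩
  rw [S.card_eq_index_normalizer, ← S.coe_coe, hS, ← subgroupOf_normalizer_eq h.le, inf_comm,
    ← card_subgroupOf (inf_le_right : _ ⊓ H ≤ H), inf_subgroupOf_right, index_mul_card]

omit [Finite G] in
theorem conj_iter {m f : G} {i : ℕ} (h : m * f * m⁻¹ = f ^ i) (k : ℕ) :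
    m ^ k * f * (m ^ k)⁻¹ = f ^ i ^ k := by
  induction k with
  | zero => simp
  | succ k ih =>
    calc m ^ (k + 1) * f * (m ^ (k + 1))⁻¹ = m * (m ^ k * f * (m ^ k)⁻¹) * m⁻¹ := by
          rw [pow_succ']; group
      _ = _ := by rw [ih, ← conj_pow, h, ← pow_mul, pow_succ']

theorem five_act {m f : G} (hf : orderOf f = 5) (h : m * f * m⁻¹ ∈ zpowers f) :
    m ^ 4 * f = f * m ^ 4 ∧ (m * m = 1 → m * f * m⁻¹ = f ∨ m * f * m⁻¹ = f⁻¹) := by
  classical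
  obtain ⟨i, hi, e⟩ := Finset.mem_image.1 (mem_zpowers_iff_mem_range_orderOf.1 h)
  rw [hf, Finset.mem_range] at hi
  have f1 : f ≠ 1 := by rintro rfl; simp at hf
  have i0 : i ≠ 0 := by rintro rfl; exact f1 (by simpa using e.symm)
  have md : ∀ a b, a % 5 = b % 5 → f ^ a = f ^ b := fun a b e => pow_eq_pow_iff_modEq.2 (hf ▸ e)
  refine ⟨(comm_of_conj ?_).symm, fun h2 => ?_⟩
  · rw [conj_iter e.symm, md _ 1 (by interval_cases i <;> simp_all), pow_one]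
  · have := conj_iter e.symm 2
    rw [pow_two, h2, one_mul, inv_one, mul_one, ← pow_one f, ← pow_mul, pow_eq_pow_iff_modEq, hf] at this
    rw [← e]
    interval_cases i
    · exact absurd rfl i0
    · simp
    · exact absurd this (by decide)
    · exact absurd this (by decide)
    · exact .inr (eq_inv_of_mul_eq_one_left (by rw [← pow_succ, md 5 0 rfl, pow_zero]))

theorem semi0 {K Z : Subgroup G} {u : G} (hu : Iv u) (hK : ∀ k ∈ K, u * k * u⁻¹ ∈ K)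
    (ho : ∀ k ∈ K, Odd (orderOf k)) (hZ : ∀ k ∈ K, k * u = u * k → k ∈ Z)
    (hc : ∀ z ∈ Z, ∀ k ∈ K, k * z = z * k) {k : G} (hk : k ∈ K) : u * k * u⁻¹ * k ∈ Z := by
  have h1 := mul_mem (inv_mem hk) (hK k hk)
  obtain ⟨r, hr, h2, h3⟩ := decomp hu (ho _ h1)
  have h4 := zpowers_le.2 h1 hr
  have h5 := hZ _ (mul_mem hk (inv_mem h4)) h3
  have e : k = k * r⁻¹ * r := by group
  generalize k * r⁻¹ = c at h3 h5 e
  rw [e, ← conj_mul, h2, conj_comm' h3, mul_assoc c, ← mul_assoc r⁻¹, hc c h5 _ (inv_mem h4)]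
  simpa using mul_mem h5 h5

theorem semi {K Z : Subgroup G} {u : G} (hu : Iv u) (hK : ∀ k ∈ K, u * k * u⁻¹ ∈ K)
    (ho : ∀ k ∈ K, Odd (orderOf k)) (hZ : ∀ k ∈ K, k * u = u * k → k ∈ Z)
    (hc : ∀ z ∈ Z, ∀ k ∈ K, k * z = z * k) {a b : G} (ha : a ∈ K) (hb : b ∈ K) :
    a * b * a⁻¹ * b⁻¹ ∈ Z := by
  have z1 := semi0 hu hK ho hZ hc (inv_mem ha)
  have z2 := semi0 hu hK ho hZ hc (inv_mem hb)
  have z3 := semi0 hu hK ho hZ hc (mul_mem (inv_mem ha) (inv_mem hb))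
  have e := hc _ z2 a ha
  have := mul_mem (inv_mem (mul_mem z1 z2)) z3
  rwa [show (u * a⁻¹ * u⁻¹ * a⁻¹ * (u * b⁻¹ * u⁻¹ * b⁻¹))⁻¹ * (u * (a⁻¹ * b⁻¹) * u⁻¹ * (a⁻¹ * b⁻¹)) =
    (u * b⁻¹ * u⁻¹ * b⁻¹)⁻¹ * (a * (u * b⁻¹ * u⁻¹ * b⁻¹)) * b * a⁻¹ * b⁻¹ by group, e,
    inv_mul_cancel_left] at this

/-- the class `3A` -/
def IsA (φ : M →* G) (z : G) : Prop := ∃ g, g * φ sg * g⁻¹ = z

omit [Finite G] in
theorem IsA.conj {φ : M →* G} {z : G} (h : IsA φ z) (g : G) : IsA φ (g * z * g⁻¹) := by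
  obtain ⟨k, rfl⟩ := h
  exact ⟨g * k, by group⟩

omit [Finite G] in
theorem IsA.of_conj {φ : M →* G} {z g : G} (h : IsA φ (g * z * g⁻¹)) : IsA φ z := by
  simpa [mul_assoc] using h.conj g⁻¹

namespace D3
variable {t : G} {φ : M →* G} {r u w : G} (h : D3 t φ r u w)
include h

omit [Finite G] in
theorem n0s : φ n0 * φ sg * (φ n0)⁻¹ = (φ sg)⁻¹ := by
  rw [← map_inv φ sg, h.emb.conj_iff]; decide +kernel

omit [Finite G] in
theorem isA_inv {z : G} (hz : IsA φ z) : IsA φ z⁻¹ := by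
  obtain ⟨g, rfl⟩ := hz
  exact ⟨g * φ n0, by rw [conj_inv, ← h.n0s]; group⟩

omit [Finite G] in
theorem isA_of {s y : G} (hs : Iv s) (h3 : y * y * y = 1) (h1 : y ≠ 1) (hc : y * s = s * y) :
    IsA φ y := (h.threeA hs h3 h1 hc).imp fun _ e => e.2

omit [Finite G] in
theorem s_inv_ne : (φ sg)⁻¹ ≠ φ sg := by rw [← map_inv, Ne, h.emb.eq_iff]; decide +kernel

theorem ncard_IX : {s | Iv s ∧ s * φ sg = φ sg * s}.ncard = 45 := by
  have := card_eq_orbit_mul (centralizer ({φ sg} : Set G)) t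
  have e : ((centralizer ({φ sg} : Set G) ⊓ centralizer ({t} : Set G) : Subgroup G) : Set G).ncard = 24 :=
    h.emb.ncard_list _ SL (by decide +kernel) (fun g hg => mc.1 hg.2) fun a =>
      ⟨fun ha => mem_SL a (h.emb.comm_iff.1 (mc.1 ha.1)), fun ha => ⟨mc.2 (h.emb.comm_iff.2
        ((by decide +kernel : ∀ a ∈ SL, a * sg = sg * a) a ha)), mc.2 (h.emb.comm a)⟩⟩
  rw [h.card_X.1, card_eq_ncard, show {y | ∃ k ∈ centralizer ({φ sg} : Set G), k * t * k⁻¹ = y} =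
    {s | Iv s ∧ s * φ sg = φ sg * s} from ?_, e] at this
  · omega
  ext s
  constructor
  · rintro ⟨k, hk, rfl⟩
    have := comm_conj k (h.emb.comm sg)
    rw [conj_comm' (mc.1 hk).symm] at this
    exact ⟨h.emb.iv.conj k, this.symm⟩
  · rintro ⟨h1, h2⟩
    obtain ⟨g, g1, g2⟩ := h.threeA h1 h.s3 h.s1 h2.symm
    exact ⟨g, mc.2 (comm_of_conj g2).symm, g1⟩

omit [Finite G] in
theorem inv_red {n s : G} (hn : n * φ sg * n⁻¹ = (φ sg)⁻¹) (hs : Iv s) (h1 : s * φ sg = φ sg * s)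
    (h2 : n * s = s * n) : ∃ g a, g * φ sg * g⁻¹ = φ sg ∧ g * t * g⁻¹ = s ∧ n = g * φ a * g⁻¹ ∧
      a * sg * a⁻¹ = sg⁻¹ := by
  obtain ⟨g, rfl, g2⟩ := h.threeA hs h.s3 h.s1 h1.symm
  obtain ⟨a, ha⟩ := h.emb.surj _ (back h2)
  refine ⟨g, a, g2, rfl, by rw [ha]; group, h.emb.conj_iff.1 ?_⟩
  rw [ha, map_inv, ← conj_inj (g := g), ← conj_inv (a := φ sg), g2, ← hn]
  nth_rewrite 2 [← g2]; group

theorem inv_conj {n : G} (hn : n * φ sg * n⁻¹ = (φ sg)⁻¹) (hi : Iv n) :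
    ∃ g, g * φ sg * g⁻¹ = φ sg ∧ g * φ n0 * g⁻¹ = n := by
  obtain ⟨s, ⟨hs, h1⟩, h2⟩ := exists_fixed Nat.prime_two hi.orderOf {s | Iv s ∧ s * φ sg = φ sg * s}
    (fun x hx => ⟨hx.1.conj n, mc.1 (cent_inv hn (mc.2 hx.2))⟩) (by rw [h.ncard_IX]; decide)
  obtain ⟨g, a, g1, -, rfl, ha⟩ := h.inv_red hn hs h1 h2.symm
  obtain ⟨c, hc, rfl⟩ := (inv_sg a ha).2 (h.emb.iv_iff.1 (by simpa [mul_assoc] using hi.conj g⁻¹)).2
  refine ⟨g * φ c, ?_, by simp [mul_assoc]⟩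
  rw [mul_assoc g, h.emb.comm_iff.2 ((by decide +kernel : ∀ a ∈ SL, a * sg = sg * a) c hc), ← g1]
  nth_rewrite 1 [g1]; group

omit [Finite G] in
theorem no_four {n : G} (hn : n * φ sg * n⁻¹ = (φ sg)⁻¹) (hi : Iv (n * n)) : False := by
  obtain ⟨g, a, -, g2, rfl, ha⟩ := h.inv_red hn hi (sq_comm_of_inv hn) (mul_assoc _ _ _).symm
  rw [conj_mul, conj_inj, ← map_mul, ← h.emb.map_t, h.emb.eq_iff] at g2
  exact (inv_sg a ha).1 g2.symm

theorem no_two {x y : G} (hx : x * φ sg = φ sg * x) (hx1 : x ∉ zpowers (φ sg)) (ho : Odd (orderOf x))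
    (hy : y * φ sg = φ sg * y) (hxy : x * y = y * x) {j : ℕ} (hj : y ^ 2 ^ j = 1) : y = 1 := by
  by_contra e
  obtain ⟨z, hz, h2⟩ := exists_iv_pow' hj e
  exact hx1 (h.odd_mem h2 (comm_of_mem_zpowers hz hy.symm).symm hx (comm_of_mem_zpowers hz hxy) ho)

theorem five_notMem {f : G} (hf : orderOf f = 5) : f ∉ zpowers (φ sg) := fun e => by
  have := orderOf_dvd_of_mem_zpowers e
  rw [hf, h.s_ord] at this
  omega

theorem exists_f : ∃ f, orderOf f = 5 ∧ f * φ sg = φ sg * f ∧ f * φ n0 = φ n0 * f := by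
  haveI : Fact (Nat.Prime 5) := ⟨Nat.prime_five⟩
  obtain ⟨⟨f, hf⟩, f5⟩ := exists_prime_orderOf_dvd_card' 5 h.five
  rw [← Subgroup.orderOf_coe] at f5
  dsimp only at f5
  have fo : Odd (orderOf f) := by rw [f5]; decide
  suffices ∃ n, Iv n ∧ n * φ sg * n⁻¹ = (φ sg)⁻¹ ∧ f * n = n * f by
    obtain ⟨n, n1, n2, n3⟩ := this
    obtain ⟨g, g1, rfl⟩ := h.inv_conj n2 n1
    exact ⟨g⁻¹ * f * g, by simpa using (Invol.orderOf_conj' g⁻¹ f).trans f5,
      back (by rw [g1]; exact mc.1 hf), back n3⟩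
  have fin : ∀ n, n * φ sg * n⁻¹ = (φ sg)⁻¹ → f * n = n * f →
      ∃ n, Iv n ∧ n * φ sg * n⁻¹ = (φ sg)⁻¹ ∧ f * n = n * f := fun n n1 n2 => by
    obtain ⟨m, hm, m1, j, m2⟩ := two_part n1
    have m3 := comm_of_mem_zpowers hm n2
    exact ⟨m, ⟨by rintro rfl; exact h.s_inv_ne (by simpa using m1.symm),
      h.no_two (mc.1 hf) (h.five_notMem f5) fo (sq_comm_of_inv m1) (Commute.mul_right m3 m3 :)
        (j := j) (by rw [← pow_two, ← pow_mul, mul_comm, pow_mul, m2, one_pow])⟩, m1, m3⟩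
  have hF : IsSyl 5 (zpowers f) (centralizer ({φ sg} : Set G)) := ⟨zpowers_le.2 hf,
    Invol.isPGroup_zpowers_of_orderOf (k := 1) f5, by
      have := card_mul_relIndex (zpowers_le.2 hf)
      rw [h.card_X.1, Nat.card_zpowers, f5] at this
      omega⟩
  obtain ⟨x, hx, m, hm, e⟩ := hF.frattini le_rfl (h := φ n0)
    (mem_normalizer_of_conj_mem fun _ => cent_inv h.n0s)
  have m0 : m * φ sg * m⁻¹ = (φ sg)⁻¹ := by
    calc m * φ sg * m⁻¹ = x⁻¹ * (φ n0 * φ sg * (φ n0)⁻¹) * x⁻¹⁻¹ := by rw [e]; group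
      _ = _ := by rw [h.n0s, ← conj_inv, conj_comm' (mc.1 (inv_mem hx)).symm]
  obtain ⟨n, hn, n1, j, n2⟩ := two_part m0
  obtain ⟨a1, a2⟩ := five_act f5 (conj_mem_of_mem_normalizer (zpowers_le.2 hm hn) (mem_zpowers f))
  have a3 : n * n * (n * n) = 1 := h.no_two (mc.1 hf) (h.five_notMem f5) fo
    (Commute.mul_left (sq_comm_of_inv n1) (sq_comm_of_inv n1) :)
    (by rw [show n * n * (n * n) = n ^ 4 by simp [pow_succ, mul_assoc], a1]) (j := j)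
    (by rw [← pow_two, ← pow_two, ← pow_mul n 2 2, ← pow_mul, mul_comm, pow_mul, n2, one_pow])
  have a4 : n * n = 1 := by by_contra e; exact h.no_four n1 ⟨e, a3⟩
  rcases a2 a4 with e1 | e1
  · exact fin n n1 (comm_of_conj e1)
  obtain ⟨k, k1, k2⟩ := sylow_count hF
  have d3 : 3 ∣ Nat.card (centralizer ({φ sg} : Set G) ⊓ normalizer (zpowers f : Set G) : Subgroup G) :=
    h.s_ord ▸ orderOf_dvd_natCard _ ⟨mc.2 rfl, centralizer_le_normalizer _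
      (by rw [centralizer_zpowers]; exact mc.2 (mc.1 hf).symm)⟩
  have d5 : 5 ∣ Nat.card (centralizer ({φ sg} : Set G) ⊓ normalizer (zpowers f : Set G) : Subgroup G) :=
    f5 ▸ orderOf_dvd_natCard _ ⟨hf, le_normalizer (mem_zpowers f)⟩
  rw [h.card_X.1] at k1
  obtain ⟨s, hs, s2⟩ := Invol.exists_involution_mem_of_even
    (H := centralizer ({φ sg} : Set G) ⊓ normalizer (zpowers f : Set G)) (by
      generalize Nat.card _ = d at k1 d3 d5
      obtain ⟨c, rfl⟩ : 15 ∣ d := by omega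
      have : c ∣ 72 := ⟨k, by nlinarith⟩
      have := Nat.le_of_dvd (by decide) this
      rw [Nat.even_iff]
      interval_cases c <;> omega)
  have is : Iv s := (Invol.orderOf_two_iff.1 s2).symm
  rcases (five_act f5 (conj_mem_of_mem_normalizer hs.2 (mem_zpowers f))).2 is.2 with e2 | e2
  · exact absurd (h.odd_mem is (mc.1 hs.1) (mc.1 hf) (comm_of_conj e2) fo) (h.five_notMem f5)
  · refine fin (n * s) ?_ (comm_of_conj ?_)
    · rw [mul_assoc n, mc.1 hs.1, ← n1]; group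
    · calc _ = n * (s * f * s⁻¹) * n⁻¹ := by group
        _ = f := by rw [e2, ← conj_inv, e1, inv_inv]

theorem no_three0 {y : G} (h1 : y * φ sg = φ sg * y) (h2 : y * φ n0 = φ n0 * y)
    (h3 : y * y * y = 1) : y = 1 := by
  by_contra y1
  obtain ⟨f, f5, f1, f2⟩ := h.exists_f
  have i0 : Iv (φ n0) := h.emb.iv_iff.2 (by decide +kernel)
  have key : ∀ d ∈ centralizer ({φ sg} : Set G) ⊓ centralizer ({φ n0} : Set G), d * t = t * d →
      d = 1 ∨ d = t := fun d hd e => by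
    obtain ⟨a, ha, rfl⟩ := h.emb.memS e (mc.1 hd.1)
    rcases (by decide +kernel : ∀ a ∈ SL, a * n0 = n0 * a → a = 1 ∨ a = t0) a ha
      (h.emb.comm_iff.1 (mc.1 hd.2)) with rfl | rfl
    exacts [.inl (map_one φ), .inr h.emb.map_t]
  have tK : t ∈ centralizer ({φ sg} : Set G) ⊓ centralizer ({φ n0} : Set G) :=
    ⟨mc.2 (h.emb.comm _).symm, mc.2 (h.emb.comm _).symm⟩
  obtain ⟨N, hN, -⟩ := cyc2 h.emb.iv tK fun d hd e _ _ => key d hd e
  haveI : Fact (Nat.Prime 3) := ⟨Nat.prime_three⟩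
  have e := fpf_comm (K := N) h.emb.iv.2 (fun k hk => (hN _).2 ⟨mul_mem (mul_mem tK ((hN k).1 hk).1)
      (inv_mem tK), odd_conj _ ((hN k).1 hk).2⟩)
    (fun k hk e => (key k ((hN k).1 hk).1 e).resolve_right fun e1 => by
      have := ((hN k).1 hk).2
      rw [e1, h.emb.iv.orderOf] at this
      exact absurd this (by decide))
    ((hN f).2 ⟨⟨mc.2 f1, mc.2 f2⟩, by rw [f5]; decide⟩)
    ((hN y).2 ⟨⟨mc.2 h1, mc.2 h2⟩, by
      rw [orderOf_eq_prime (p := 3) (by rw [pow_three', h3]) y1]; decide⟩)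
  obtain ⟨g, g1, rfl⟩ := h.threeA i0 h3 y1 h2
  have f5' : orderOf (g⁻¹ * f * g) = 5 := by simpa using (Invol.orderOf_conj' g⁻¹ f).trans f5
  exact h.five_notMem f5' (h.odd_mem h.emb.iv (h.emb.comm _).symm (back e) (back (g1 ▸ f2))
    (by rw [f5']; decide))

theorem no_three {z n y : G} (hz : IsA φ z) (hn : n * z * n⁻¹ = z⁻¹) (hi : Iv n)
    (h1 : y * z = z * y) (h2 : y * n = n * y) (h3 : y * y * y = 1) : y = 1 := by
  obtain ⟨g, rfl⟩ := hz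
  obtain ⟨k, k1, k2⟩ := h.inv_conj (n := g⁻¹ * n * g) (by
    rw [← conj_inj (g := g), ← conj_inv (a := φ sg), ← hn]; group) (by simpa using hi.conj g⁻¹)
  have := h.no_three0 (y := k⁻¹ * (g⁻¹ * y * g) * k) (back (by rw [k1]; exact back h1))
    (back (by rw [k2]; simpa using comm_conj g⁻¹ h2)) (by
      calc _ = (g * k)⁻¹ * (y * y * y) * (g * k) := by group
        _ = 1 := by rw [h3]; simp)
  calc y = g * k * (k⁻¹ * (g⁻¹ * y * g) * k) * (g * k)⁻¹ := by group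
    _ = 1 := by rw [this]; simp

end D3

end Cfsg.Agent.Lib.Jk
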