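import Cfsg.Agent.Lib.Jk.Emb
import Cfsg.Agent.Lib.Jk.F
import Cfsg.Agent.Lib.Jk.Cnt

set_option autoImplicit false
set_option maxRecDepth 100000

/-! # Fusion of involutions and the element `ρ` -/

namespace Cfsg.Agent.Lib.Jk

open Subgroup Cfsg.Agent.Lib.Core
open Cfsg.Agent.Lib.Root.J1 hiding Emb t0 v0 x0 T

variable {G : Type*} [Group G]

namespace Emb
variable {w : G} {φ : M →* G} (h : Emb w φ)
include h

theorem eq_iff {a b : M} : φ a = φ b ↔ a = b := h.inj.eq_iff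

theorem eq_one {a : M} : φ a = 1 ↔ a = 1 := by rw [← map_one φ, h.eq_iff]

theorem comm (a : M) : φ a * w = w * φ a := by rw [← h.map_t, ← map_mul, t_comm, map_mul]

theorem iv_iff {a : M} : Iv (φ a) ↔ a ≠ 1 ∧ a * a = 1 := by simp [Iv, ← map_mul, h.eq_one]

theorem comm_iff {a b : M} : φ a * φ b = φ b * φ a ↔ a * b = b * a := by
  rw [← map_mul, ← map_mul, h.eq_iff]

theorem conj_iff {a b c : M} : φ a * φ b * (φ a)⁻¹ = φ c ↔ a * b * a⁻¹ = c := by
  rw [← map_inv, ← map_mul, ← map_mul, h.eq_iff]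

theorem iv : Iv w := h.map_t ▸ h.iv_iff.2 (by decide +kernel)

theorem conj (g : G) : Emb (g * w * g⁻¹) ((MulAut.conj g).toMonoidHom.comp φ) where
  inj := (MulAut.conj g).injective.comp h.inj
  map_t := by simp [h.map_t]
  surj := fun y hy => by
    obtain ⟨a, ha⟩ := h.surj (g⁻¹ * y * g) (back hy)
    exact ⟨a, by simp [ha, mul_assoc]⟩

theorem ncard (P : G → Prop) (Q : M → Prop) [DecidablePred Q] (hP : ∀ g, P g → g * w = w * g)
    (hQ : ∀ a, P (φ a) ↔ Q a) : {g | P g}.ncard = (Finset.univ.filter Q).card := by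
  have : {g | P g} = φ '' (Finset.univ.filter Q : Finset M) := by
    ext g
    constructor
    · intro hg
      obtain ⟨a, rfl⟩ := h.surj g (hP g hg)
      exact ⟨a, by simpa using (hQ a).1 hg, rfl⟩
    · rintro ⟨a, ha, rfl⟩
      exact (hQ a).2 (by simpa using ha)
  rw [this, Set.ncard_image_of_injective _ h.inj, Set.ncard_coe_finset]

theorem ncard_list (P : G → Prop) (l : List M) (hl : l.Nodup) (hP : ∀ g, P g → g * w = w * g)
    (hQ : ∀ a, P (φ a) ↔ a ∈ l) : {g | P g}.ncard = l.length := by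
  rw [h.ncard P (· ∈ l) hP hQ, ← List.toFinset_card_of_nodup hl]
  congr 1; ext; simp

theorem card_cent : Nat.card (centralizer ({w} : Set G)) = 1920 := by
  have := h.ncard (fun g => g * w = w * g) (fun _ => True) (fun _ h => h) (fun a => by simp [h.comm])
  rw [Finset.filter_true, Finset.card_univ, ← Nat.card_eq_fintype_card, card_M] at this
  rw [← this, card_eq_ncard]
  congr 1; ext; exact mc

theorem memA {y : G} (h1 : y * w = w * y) (h2 : y * φ v1 = φ v1 * y) : ∃ a ∈ AL, φ a = y := by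
  obtain ⟨a, rfl⟩ := h.surj y h1
  exact ⟨a, mem_AL a (h.comm_iff.1 h2), rfl⟩

theorem memS {y : G} (h1 : y * w = w * y) (h2 : y * φ sg = φ sg * y) : ∃ a ∈ SL, φ a = y := by
  obtain ⟨a, rfl⟩ := h.surj y h1
  exact ⟨a, mem_SL a (h.comm_iff.1 h2), rfl⟩

theorem iv_cases {y : G} (hy : Iv y) (h1 : y * w = w * y) : y = w ∨
    (∃ c, φ c * φ x4 * (φ c)⁻¹ = y) ∨ ∃ c, φ c * φ v1 * (φ c)⁻¹ = y := by
  obtain ⟨a, rfl⟩ := h.surj y h1
  obtain ⟨h2, h3⟩ := h.iv_iff.1 hy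
  rcases inv_cases a h3 with e | e | ⟨c, -, e⟩ | ⟨c, -, e⟩
  · exact absurd e h2
  · exact .inl (e ▸ h.map_t)
  · exact .inr (.inl ⟨c, h.conj_iff.2 e⟩)
  · exact .inr (.inr ⟨c, h.conj_iff.2 e⟩)

theorem pre_swap {g : G} {s : M} (hs : s ≠ t0) (hg : g * w * g⁻¹ = φ s) :
    ∃ n, n * w * n⁻¹ = φ s ∧ (n * φ x4 * n⁻¹ = w ∨ n * φ v1 * n⁻¹ = w) := by
  have key : ∀ c a, φ c * φ a * (φ c)⁻¹ = g⁻¹ * w * g →
      g * φ c * w * (g * φ c)⁻¹ = φ s ∧ g * φ c * φ a * (g * φ c)⁻¹ = w := fun c a e =>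
    ⟨by rw [← hg, mul_assoc g, h.comm]; group, by
      calc _ = g * (φ c * φ a * (φ c)⁻¹) * g⁻¹ := by group
        _ = w := by rw [e]; group⟩
  rcases h.iv_cases (y := g⁻¹ * w * g) (by simpa using h.iv.conj g⁻¹)
    (back (by rw [hg, h.comm])) with e | ⟨c, e⟩ | ⟨c, e⟩
  · refine absurd (h.inj ?_) hs
    rw [← hg, h.map_t]
    calc g * w * g⁻¹ = g * (g⁻¹ * w * g) * g⁻¹ := by rw [e]
      _ = w := by group
  · exact ⟨_, (key c _ e).1, .inl (key c _ e).2⟩
  · exact ⟨_, (key c _ e).1, .inr (key c _ e).2⟩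

theorem sqA {y : G} (h1 : y * w = w * y) (h2 : y * φ v1 = φ v1 * y) : y * y = 1 := by
  obtain ⟨a, ha, rfl⟩ := h.memA h1 h2
  rw [← map_mul, (AL_comm a ha).1, map_one]

theorem sg_sq (n : G) : n * φ sg * n⁻¹ * (n * φ sg * n⁻¹) ≠ 1 := by
  rw [conj_mul, ← map_mul]
  simp only [ne_eq, conj_eq_one_iff, h.eq_one]
  decide +kernel

theorem swap_x {g : G} (hg : g * w * g⁻¹ = φ x4) :
    ∃ n, n * w * n⁻¹ = φ x4 ∧ n * φ x4 * n⁻¹ = w := by
  obtain ⟨n, h1, h2 | h2⟩ := h.pre_swap (by decide +kernel) hg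
  · exact ⟨n, h1, h2⟩
  · refine absurd (h.sqA ?_ ?_) (h.sg_sq n⁻¹) <;> rw [inv_inv] <;> apply back
    · rw [h1, h.comm_iff]; decide +kernel
    · rw [h2, h.comm]

theorem swap_v {g : G} (hg : g * w * g⁻¹ = φ v1) :
    ∃ n, n * w * n⁻¹ = φ v1 ∧ n * φ v1 * n⁻¹ = w := by
  obtain ⟨n, h1, h2 | h2⟩ := h.pre_swap (by decide +kernel) hg
  · refine absurd (h.sqA ?_ ?_) (h.sg_sq n)
    · rw [← h2]; exact comm_conj n (h.comm_iff.2 (by decide +kernel))
    · rw [← h1]; exact comm_conj n (h.comm _)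
  · exact ⟨n, h1, h2⟩

theorem fuse_x {g : G} (h1 : g * w * g⁻¹ ≠ w) (h2 : g * w * g⁻¹ * w = w * (g * w * g⁻¹)) :
    IsConj w (φ x4) := by
  have cj : ∀ {a b c : G}, c * a * c⁻¹ = b → IsConj a b := fun e => isConj_iff.2 ⟨_, e⟩
  rcases h.iv_cases (h.iv.conj g) h2 with e | ⟨c, e⟩ | ⟨c, e⟩
  · exact absurd e h1
  · exact (cj rfl).trans (cj e).symm
  have hv : IsConj w (φ v1) := (cj rfl).trans (cj e).symm
  obtain ⟨k, hk⟩ := isConj_iff.1 hv
  obtain ⟨n, n1, n2⟩ := h.swap_v hk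
  obtain ⟨a, ha, e⟩ := h.memA (y := n * φ x4 * n⁻¹)
    (by rw [← n2]; exact comm_conj n (h.comm_iff.2 (by decide +kernel)))
    (by rw [← n1]; exact comm_conj n (h.comm _))
  have e2 : n * φ tx * n⁻¹ = φ (v1 * a) := by
    rw [map_mul, e, ← n1, conj_mul, ← h.map_t, ← map_mul]; rfl
  have h3 : IsConj (φ x4) (φ tx) := cj (c := φ x0) (h.conj_iff.2 (by decide +kernel))
  rcases AL_cases a ha with h4 | ⟨c, -, -, h4⟩
  · have : ∀ a ∈ UL, a = 1 ∨ a = t0 ∨ ∃ g ∈ W12, g * v1 * g⁻¹ = v1 * a := by decide +kernel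
    rcases this a h4 with rfl | rfl | ⟨c, -, h5⟩
    · simp only [map_one] at e
      exact absurd (h.eq_one.1 (conj_eq_one_iff.1 e.symm)) (by decide +kernel)
    · exact h.map_t ▸ (cj e.symm).symm
    · exact ((hv.trans (cj (h.conj_iff.2 h5))).trans (cj e2).symm).trans h3.symm
  · exact (hv.trans (cj (h.conj_iff.2 h4))).trans (cj e.symm).symm

theorem cxv (hx : IsConj w (φ x4)) {y : G} (h1 : y * φ x4 = φ x4 * y) (h2 : y * φ v1 = φ v1 * y) :
    y * w = w * y := by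
  obtain ⟨k, hk⟩ := isConj_iff.1 hx
  obtain ⟨n, n1, n2⟩ := h.swap_x hk
  have n3 : n * φ tx * n⁻¹ = φ tx := by
    rw [show tx = t0 * x4 by decide +kernel, map_mul, h.map_t, ← conj_mul, n1, n2, h.comm]
  obtain ⟨b, hb⟩ := h.surj (n * φ v1 * n⁻¹)
    (by rw [← n2]; exact comm_conj n (h.comm_iff.2 (by decide +kernel)))
  obtain ⟨a, ha⟩ := h.surj (n * y * n⁻¹) (by rw [← n2]; exact comm_conj n h1)
  have hab : a * b = b * a := h.comm_iff.1 (by rw [ha, hb]; exact comm_conj n h2)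
  have b2 := h.iv_iff.1 (hb ▸ (h.iv_iff.2 (by decide +kernel : v1 ≠ 1 ∧ v1 * v1 = 1)).conj n)
  have key : a * x4 = x4 * a := by
    rcases cx_inv b b2.2 (h.comm_iff.1 (by rw [hb, ← n1]; exact comm_conj n (h.comm _))) with
      e | ⟨c, -, rfl, e⟩
    · exfalso
      simp only [UL, List.mem_cons, List.not_mem_nil, or_false] at e
      rcases e with rfl | rfl | rfl | rfl
      · exact b2.1 rfl
      · rw [h.map_t, ← n2, conj_inj, h.eq_iff] at hb; exact absurd hb (by decide +kernel)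
      · rw [← n1, conj_inj, ← h.map_t, h.eq_iff] at hb; exact absurd hb (by decide +kernel)
      · rw [← n3, conj_inj, h.eq_iff] at hb; exact absurd hb (by decide +kernel)
    · have := comm_conj c (AL_comm _ (mem_AL _ (back hab))).2.1
      rw [show c * (c⁻¹ * a * c) * c⁻¹ = a by group] at this
      rcases e with e | e <;> rw [e] at this
      · exact this
      · rw [show tx = t0 * x4 by decide +kernel, ← mul_assoc, t_comm, mul_assoc, mul_assoc] at this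
        exact mul_left_cancel this
  have := h.comm_iff.2 key
  rw [ha, ← n1, conj_mul, conj_mul, conj_inj] at this
  exact this

end Emb

/-- the basic configuration -/
structure Base (t : G) (φ : M →* G) (r : G) : Prop where
  emb : Emb t φ
  r3 : r * r * r = 1
  rt : r * t * r⁻¹ = φ x4
  rx : r * φ x4 * r⁻¹ = φ tx
  rs : r * φ sg = φ sg * r
  rv : r * φ v1 = φ v1 * r

theorem Emb.exists_base {t : G} {φ : M →* G} (h : Emb t φ) (hx : IsConj t (φ x4)) :
    ∃ r, Base t φ r := by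
  obtain ⟨k, hk⟩ := isConj_iff.1 hx
  obtain ⟨n, n1, n2⟩ := h.swap_x hk
  have etx : φ tx = t * φ x4 := by rw [← h.map_t, ← map_mul]; rfl
  have ext : φ tx = φ x4 * t := by rw [etx, h.comm]
  have third : ∀ {r : G}, r * t * r⁻¹ = φ x4 → r * φ x4 * r⁻¹ = φ tx → r * φ tx * r⁻¹ = t :=
    fun {r} e1 e2 => by
      rw [etx, ← conj_mul, e1, e2, ← map_mul, ← h.map_t]; congr 1
  have adj : ∀ {r : G} (c : M), c * x4 = x4 * c → r * t * r⁻¹ = φ x4 → r * φ x4 * r⁻¹ = φ tx →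
      φ c * r * t * (φ c * r)⁻¹ = φ x4 ∧ φ c * r * φ x4 * (φ c * r)⁻¹ = φ tx := fun {r} c hc e1 e2 => by
    have e3 := conj_comm' (h.comm_iff.2 hc).symm
    constructor
    · rw [← e3, ← e1]; group
    · calc _ = φ c * (r * φ x4 * r⁻¹) * (φ c)⁻¹ := by group
        _ = _ := by rw [e2, etx, ← conj_mul, e3, conj_comm' (h.comm c).symm]
  have cU : ∀ {r y : G}, r * t * r⁻¹ = φ x4 → r * φ x4 * r⁻¹ = φ tx → y * t = t * y →
      y * φ x4 = φ x4 * y → ∃ b, φ b = r * y * r⁻¹ ∧ b * x4 = x4 * b := fun {r y} e1 e2 e3 e4 => by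
    obtain ⟨b, hb⟩ := h.surj (r * y * r⁻¹) (by
      rw [← third e1 e2, etx]; exact comm_conj r (Commute.mul_right e3 e4))
    exact ⟨b, hb, h.comm_iff.1 (by rw [hb, ← e1]; exact comm_conj r e3)⟩
  have a1 : n * φ x0 * t * (n * φ x0)⁻¹ = φ x4 := by rw [← n1, mul_assoc n, h.comm]; group
  have a2 : n * φ x0 * φ x4 * (n * φ x0)⁻¹ = φ tx := by
    calc _ = n * (φ x0 * φ x4 * (φ x0)⁻¹) * n⁻¹ := by group
      _ = _ := by rw [h.conj_iff.2 (by decide +kernel : x0 * x4 * x0⁻¹ = tx), etx, ← conj_mul, n1, n2,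
        h.comm]
  generalize n * φ x0 = r at a1 a2
  obtain ⟨y, hy, y1⟩ := cU a1 a2 (h.comm sg) (h.comm_iff.2 (by decide +kernel))
  have y3 : y * y * y = 1 := h.eq_one.1 (by
    rw [map_mul, map_mul, hy, conj_mul, conj_mul, ← map_mul, ← map_mul,
      show sg * sg * sg = 1 by decide +kernel]; simp)
  obtain ⟨s, s1, s2, s3⟩ : ∃ s, s * t * s⁻¹ = φ x4 ∧ s * φ x4 * s⁻¹ = φ tx ∧
      s * φ sg * s⁻¹ = φ sg := by
    rcases cx_three y y1 y3 with rfl | ⟨c, -, hc, e⟩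
    · exact absurd (by rw [← hy]; simp) (h.sg_sq r)
    obtain ⟨b1, b2⟩ := adj c hc a1 a2
    have b3 := third b1 b2
    have b4 : φ c * r * φ sg * (φ c * r)⁻¹ = φ (c * y * c⁻¹) := by simp [hy, mul_assoc]
    generalize φ c * r = s at b1 b2 b3 b4
    rcases e with e | e <;> rw [e] at b4
    · exact ⟨s, b1, b2, b4⟩
    · refine ⟨s⁻¹ * s⁻¹, ?_, ?_, ?_⟩
      · rw [← b3, ← b2]; group
      · rw [← b1]; nth_rewrite 1 [← b3]; group
      · nth_rewrite 1 [← inv_inv (φ sg), ← map_inv, ← b4, conj_inv, ← map_inv, ← b4]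
        group
  obtain ⟨b, hb, b1⟩ := cU s1 s2 (h.comm v1) (h.comm_iff.2 (by decide +kernel))
  have b2 := h.iv_iff.1 (hb ▸ (h.iv_iff.2 (by decide +kernel : v1 ≠ 1 ∧ v1 * v1 = 1)).conj s)
  have hi : ∀ i ∈ [1, sg, sg⁻¹], i * x4 = x4 * i ∧ i * sg = sg * i ∧
      i * x3 * x4 * (i * x3)⁻¹ = tx ∧ i * x3 * tx * (i * x3)⁻¹ = x4 := by decide +kernel
  rcases trace_zero b b2.2 b1 (h.eq_one.1 (by
    simp only [map_mul, map_inv, hb]
    rw [← s3, conj_inv, conj_mul, conj_mul, conj_mul, conj_mul, conj_mul, conj_mul, ← map_inv]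
    simp only [← map_mul, conj_eq_one_iff, h.eq_one]
    decide +kernel)) with e | ⟨i, i1, e | e⟩
  · exact absurd e b2.1
  · obtain ⟨b3, b4⟩ := adj i (hi i i1).1 s1 s2
    have b5 : φ i * s * φ sg = φ sg * (φ i * s) := by
      rw [mul_assoc, ← comm_of_conj s3, ← mul_assoc, h.comm_iff.2 (hi i i1).2.1, mul_assoc]
    have b6 : φ i * s * φ v1 = φ v1 * (φ i * s) := (comm_of_conj (by
      conv_rhs => rw [← h.conj_iff.2 e, hb]
      group)).symm
    generalize φ i * s = r at b3 b4 b5 b6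
    refine ⟨r, h, ?_, b3, b4, b5, b6⟩
    obtain ⟨a, ha, ea⟩ := h.memA (y := r * r * r) (comm_of_conj (by
      conv_rhs => rw [← third b3 b4, ← b4, ← b3]
      group)).symm
      ((Commute.mul_left (Commute.mul_left b6 b6) b6 :))
    have a1 : a * sg = sg * a := h.comm_iff.1 (by
      rw [ea]; exact (Commute.mul_left (Commute.mul_left b5 b5) b5 :))
    have a2 : r * φ a * r⁻¹ = φ a := by rw [ea]; group
    have : ∀ a ∈ AL, a * sg = sg * a → a = 1 ∨ a = t0 ∨ a = x4 ∨ a = tx := by decide +kernel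
    rcases this a ha a1 with rfl | rfl | rfl | rfl
    · rw [← ea, map_one]
    · rw [h.map_t, b3, ← h.map_t, h.eq_iff] at a2; exact absurd a2 (by decide +kernel)
    · rw [b4, h.eq_iff] at a2; exact absurd a2 (by decide +kernel)
    · rw [third b3 b4, ← h.map_t, h.eq_iff] at a2; exact absurd a2 (by decide +kernel)
  · exfalso
    have := h.cxv hx (y := φ (i * x3) * s) (comm_of_conj (by
      calc _ = φ (i * x3) * (s * φ x4 * s⁻¹) * (φ (i * x3))⁻¹ := by group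
        _ = _ := by rw [s2, h.conj_iff.2 (hi i i1).2.2.2])).symm (comm_of_conj (by
      conv_rhs => rw [← h.conj_iff.2 e, hb]
      group)).symm
    have e2 : φ (i * x3) * (s * t * s⁻¹) * (φ (i * x3))⁻¹ = t := by
      conv_rhs => rw [← conj_comm' this.symm]
      group
    rw [s1, h.conj_iff.2 (hi i i1).2.2.1, ← h.map_t, h.eq_iff] at e2
    exact absurd e2 (by decide +kernel)

end Cfsg.Agent.Lib.Jk
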