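import Cfsg.Agent.Lib.Jk.PS

set_option autoImplicit false
set_option maxRecDepth 100000

/-! # Centralisers of elements of order 5 -/

namespace Cfsg.Agent.Lib.Jk

open Subgroup Cfsg.Agent.Lib.Core
open Cfsg.Agent.Lib.Root.J1 hiding Emb t0 v0 x0 T

variable {G : Type*} [Group G] [Finite G]

theorem J3.card_G {t : G} {φ : M →* G} {r : G} (h : J3 t φ r) :
    {u : G | Iv u}.ncard * 1920 = Nat.card G := by
  rw [← h.emb.card_cent, ← Invol.card_conj_mul_card_centralizer t, ← Nat.card_coe_set_eq]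
  congr 1
  refine Nat.card_congr (Equiv.subtypeEquivRight fun u => ⟨h.one u, fun e => ?_⟩)
  obtain ⟨g, rfl⟩ := isConj_iff.1 e
  exact h.emb.iv.conj g

omit [Finite G] in
theorem J3.cent5 {t : G} {φ : M →* G} {r : G} (h : J3 t φ r) {s f d : G} (hs : Iv s)
    (hf : orderOf f = 5) (h1 : f * s = s * f) (h2 : d * s = s * d) (h3 : d * f = f * d) :
    d ∈ zpowers f ∨ s * d ∈ zpowers f := by
  obtain ⟨g, rfl⟩ := h.ex_conj hs
  have e := h.emb.conj g
  generalize (MulAut.conj g).toMonoidHom.comp φ = ψ at e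
  obtain ⟨b, rfl⟩ := e.surj f h1
  obtain ⟨a, rfl⟩ := e.surj d h2
  rw [← e.map_t]
  rcases five_cases b (e.eq_one.1 (by
    rw [← pow_orderOf_eq_one (ψ b), hf]; simp [pow_succ])) with rfl | ⟨c, -, hc⟩
  · simp at hf
  obtain ⟨k, hk⟩ := (by decide +kernel : ∀ b ∈ [f0, ⟨32, 0⟩, ⟨48, 0⟩, ⟨45, 0⟩], ∃ k : Fin 5,
    f0 = b ^ k.val) _ hc
  have e1 := comm_conj c (e.comm_iff.1 h3)
  obtain ⟨i, hi⟩ := (by decide +kernel : ∀ d ∈ FL, ∃ i : Fin 5, d = f0 ^ i.val ∨ t0 * d = f0 ^ i.val)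
    _ (mem_FL (c * a * c⁻¹) (by rw [hk]; exact (Commute.pow_right e1 _ :)))
  rw [hk, ← pow_mul, conj_pow, conj_inj, ← conj_comm' (t_comm c).symm, conj_mul, conj_inj] at hi
  refine hi.imp (fun e2 => ?_) fun e2 => ?_
  · rw [e2, map_pow]; exact pow_mem (mem_zpowers _) _
  · rw [← map_mul, e2, map_pow]; exact pow_mem (mem_zpowers _) _

namespace D3
variable {t : G} {φ : M →* G} {r u w : G} (h : D3 t φ r u w)
include h

theorem no15 {x f : G} {k : ℕ} (hx : x * φ sg = φ sg * x) (h3 : x ^ 3 ^ k = 1) (hf : orderOf f = 5)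
    (f1 : f * φ sg = φ sg * f) (e : f * x = x * f) : x ∈ zpowers (φ sg) := by
  haveI : Fact (Nat.Prime 3) := ⟨Nat.prime_three⟩
  by_contra x1
  obtain ⟨g, hg, e1⟩ := h.T_syl.exists_conj_le (isPGroup_zpowers h3) (zpowers_le.2 (mc.2 hx))
  have g1 := conj_comm' (mc.1 hg).symm
  refine h.five_T ((Invol.orderOf_conj' g f).trans hf) (h.CT' (e1 ⟨x, mem_zpowers x, rfl⟩)
    (fun e2 => x1 ?_) (by simpa [g1] using comm_conj g f1) (comm_conj g e))
  simpa [mul_assoc] using conj_mem_of_mem_normalizer' (h.normS' (.inl g1)) e2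

theorem cf : ∃ f, orderOf f = 5 ∧ Nat.card (centralizer ({f} : Set G)) = 30 ∧
    {s | Iv s ∧ s * f = f * s}.ncard = 3 ∧ ∀ x, x * f = f * x → x * x * x = 1 → x ≠ 1 → IsA φ x := by
  haveI : Fact (Nat.Prime 3) := ⟨Nat.prime_three⟩
  obtain ⟨f, f5, f1, f2⟩ := h.exists_f
  have i0 : Iv (φ n0) := h.emb.iv_iff.2 (by decide +kernel)
  have n0s := h.n0s
  generalize φ n0 = n at f2 i0 n0s
  have fo : ∀ z ∈ zpowers f, Odd (orderOf z) := fun z hz =>
    Odd.of_dvd_nat (by rw [f5]; decide) (orderOf_dvd_of_mem_zpowers hz)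
  have two : ∀ {z : G} {j : ℕ}, z ∈ zpowers f → z ^ 2 ^ j = 1 → z = 1 := fun {z j} hz e => by
    have := mem_zp_odd (fo z hz) j
    rwa [e, zpowers_one_eq_bot, mem_bot] at this
  have key : ∀ d ∈ centralizer ({f} : Set G), d * n = n * d → ∀ j, d ^ 2 ^ j = 1 → d = 1 ∨ d = n :=
    fun d hd e j hj => by
      rcases h.cent5 i0 f5 f2 e (mc.1 hd) with e1 | e1
      · exact .inl (two e1 hj)
      · have := two (j := j + 1) e1 (by
          rw [(Commute.symm e).mul_pow, pow_succ 2, pow_mul d, hj, one_pow, mul_one, mul_comm, pow_mul,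
            pow_two, i0.2, one_pow])
        exact .inr (by rw [← i0.cancel d, this, mul_one])
  have nK : n ∈ centralizer ({f} : Set G) := mc.2 f2.symm
  obtain ⟨N, hN, cN⟩ := cyc2 i0 nK key
  have sN : φ sg ∈ N := (hN _).2 ⟨mc.2 f1.symm, by rw [h.s_ord]; decide⟩
  have NX : ∀ k ∈ N, k * φ sg = φ sg * k := fun k hk => by
    have hz := semi (Z := zpowers f) i0 (fun k hk => (hN _).2 ⟨mul_mem (mul_mem nK ((hN k).1 hk).1)
      (inv_mem nK), odd_conj _ ((hN k).1 hk).2⟩) (fun k hk => ((hN k).1 hk).2) (fun k hk e => by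
        rcases h.cent5 i0 f5 f2 e (mc.1 ((hN k).1 hk).1) with e1 | e1
        · exact e1
        · refine zpowers_le.2 ?_ (mem_zp_odd ((hN k).1 hk).2 1)
          have := mul_mem e1 e1
          rwa [mul_assoc, ← mul_assoc k, e, mul_assoc, i0.cancel, ← pow_two] at this)
      (fun z hz k hk => comm_of_mem_zpowers hz (mc.1 ((hN k).1 hk).1)) hk sN
    have c : Commute (k * φ sg * k⁻¹ * (φ sg)⁻¹) (φ sg) := (comm_of_mem_zpowers hz f1.symm).symm
    have e3 := c.mul_pow 3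
    rw [inv_mul_cancel_right, conj_pow, pow_three' (φ sg), h.s3, mul_one, mul_inv_cancel, mul_one] at e3
    have e5 : (k * φ sg * k⁻¹ * (φ sg)⁻¹) ^ 5 = 1 :=
      orderOf_dvd_iff_pow_eq_one.1 (f5 ▸ orderOf_dvd_of_mem_zpowers hz)
    have := pow_gcd_eq_one.2 ⟨e3.symm, e5⟩
    rw [show Nat.gcd 3 5 = 1 from rfl, pow_one, mul_inv_eq_one] at this
    exact (comm_of_conj this).symm
  have hS : IsSyl 3 (zpowers (φ sg)) N := isSyl_of_maximal (zpowers_le.2 sN)
    (Invol.isPGroup_zpowers_of_orderOf (k := 1) h.s_ord) fun Q hQ h1 h2 =>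
      le_antisymm (fun x hx => by
        obtain ⟨k, hk⟩ := pow_eq_one_of_isPGroup hQ hx
        exact h.no15 (NX x (h2 hx)) hk f5 f1 (mc.1 ((hN x).1 (h2 hx)).1).symm) h1
  have c15 : Nat.card N = 15 := by
    have d1 := card_mul_relIndex hS.le
    have d2 := hS.not_dvd
    have d3 := card_dvd_of_le (show N ≤ centralizer {φ sg} from fun k hk => mc.2 (NX k hk))
    have d4 := orderOf_dvd_natCard N ((hN f).2 ⟨mc.2 rfl, fo f (mem_zpowers f)⟩)
    have d5 : Odd (Nat.card N) := Invol.odd_card_iff_no_involution.2 fun s hs e => by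
      have := ((hN s).1 hs).2
      rw [e] at this; exact absurd this (by decide)
    rw [Nat.card_zpowers, h.s_ord] at d1
    rw [h.card_X.1] at d3
    rw [f5] at d4
    rw [Nat.odd_iff] at d5
    generalize Nat.card N = d at *
    obtain ⟨c, rfl⟩ : 15 ∣ d := by omega
    have : c ∣ 72 := Nat.dvd_of_mul_dvd_mul_left (by decide : 0 < 15) d3
    have := Nat.le_of_dvd (by decide) this
    interval_cases c <;> omega
  rw [c15] at cN
  refine ⟨f, f5, cN, ?_, fun x x1 x3 x0 => ?_⟩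
  · have e := card_eq_orbit_mul (centralizer ({f} : Set G)) n
    have c : Commute n f := f2.symm
    have m1 : f ∈ zpowers (n * f) := ⟨(6 : ℕ), by
      simp only [zpow_natCast]
      rw [c.mul_pow, show 6 = 2 * 3 from rfl, pow_mul, pow_two, i0.2, one_pow, one_mul,
        show 2 * 3 = 5 + 1 from rfl, pow_succ, ← f5, pow_orderOf_eq_one, one_mul]⟩
    have m2 : n ∈ zpowers (n * f) := (mul_mem_cancel_right m1).1 (mem_zpowers _)
    rw [cN, show centralizer {f} ⊓ centralizer {n} = zpowers (n * f) from le_antisymm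
      (fun d hd => by
        rcases h.cent5 i0 f5 f2 (mc.1 hd.2) (mc.1 hd.1) with e1 | e1
        · exact zpowers_le.2 m1 e1
        · exact (mul_mem_cancel_left m2).1 (zpowers_le.2 m1 e1))
      (zpowers_le.2 ⟨mc.2 (c.mul_left (Commute.refl f)), mc.2 ((Commute.refl n).mul_left c.symm)⟩),
      Nat.card_zpowers, c.orderOf_mul_eq_mul_orderOf_of_coprime (by rw [i0.orderOf, f5]; decide),
      i0.orderOf, f5, show {y | ∃ k ∈ centralizer ({f} : Set G), k * n * k⁻¹ = y} =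
        {s | Iv s ∧ s * f = f * s} from ?_] at e
    · omega
    have hP : IsSyl 2 (zpowers n) (centralizer ({f} : Set G)) := ⟨zpowers_le.2 nK,
      Invol.isPGroup_zpowers_of_involution i0.orderOf, by
        have := card_mul_relIndex (zpowers_le.2 nK)
        rw [cN, Nat.card_zpowers, i0.orderOf] at this
        omega⟩
    ext s
    constructor
    · rintro ⟨k, hk, rfl⟩
      exact ⟨i0.conj k, mc.1 (mul_mem (mul_mem hk nK) (inv_mem hk))⟩
    · rintro ⟨s1, s2⟩
      obtain ⟨k, hk, e1⟩ := hP.exists_conj_le (Invol.isPGroup_zpowers_of_involution s1.orderOf)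
        (zpowers_le.2 (mc.2 s2))
      have e2 : k * s * k⁻¹ ∈ zpowers n := e1 ⟨s, mem_zpowers s, rfl⟩
      refine ⟨k⁻¹, inv_mem hk, ?_⟩
      rw [← (key _ (mul_mem (mul_mem hk (mc.2 s2)) (inv_mem hk)) (comm_of_mem_zpowers e2 rfl).symm 1
        (by rw [pow_one, pow_two, (s1.conj k).2])).resolve_left (s1.conj k).1]
      group
  · have x2 := h.no15 (k := 1) (NX x ((hN x).2 ⟨mc.2 x1, by
      rw [orderOf_eq_prime (p := 3) (by rw [pow_three', x3]) x0]; decide⟩))
      (by rw [pow_one, pow_three', x3]) f5 f1 x1.symm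
    rcases (mem_zp3 h.s3).1 x2 with rfl | rfl | rfl
    exacts [absurd rfl x0, ⟨1, by simp⟩, ⟨φ n0, h.n0s⟩]

theorem five_all {y : G} (hy : orderOf y = 5) : Nat.card (centralizer ({y} : Set G)) = 30 ∧
    {s | Iv s ∧ s * y = y * s}.ncard = 3 ∧ ∀ x, x * y = y * x → x * x * x = 1 → x ≠ 1 → IsA φ x := by
  haveI : Fact (Nat.Prime 5) := ⟨Nat.prime_five⟩
  obtain ⟨f, f5, f1, f2, f3⟩ := h.cf
  have m := ncard_modEq_prime Nat.prime_five f5 {s | Iv s} fun x hx => Iv.conj hx f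
  simp only [Set.mem_ofPred_eq] at m
  rw [f2, Nat.ModEq] at m
  obtain ⟨P, hP⟩ := sylow_zpowers f5 (by rw [← h.card_G]; omega)
  obtain ⟨g, hg⟩ := Invol.exists_conj_mem_sylow P (k := 1) hy
  have g1 : g * y * g⁻¹ ∈ zpowers f := hP ▸ hg
  have g2 := mem_zpowers_of_prime Nat.prime_five f5 g1 (by rintro e; simp at e; simp [e] at hy)
  have key : ∀ x, x * y = y * x ↔ g * x * g⁻¹ * f = f * (g * x * g⁻¹) := fun x =>
    ⟨fun e => comm_of_mem_zpowers g2 (comm_conj g e), fun e => by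
      have := comm_of_mem_zpowers g1 e
      rwa [conj_mul, conj_mul, conj_inj] at this⟩
  refine ⟨?_, ?_, fun x x1 x3 x0 => IsA.of_conj (f3 _ ((key x).1 x1) (by
    rw [conj_mul, conj_mul, x3]; simp) (by simpa using x0))⟩
  · rw [← f1, card_eq_ncard, card_eq_ncard]
    exact ncard_conj g _ _ fun x => mc.trans ((key x).trans mc.symm)
  · rw [← f2]
    exact ncard_conj g _ _ fun x => and_congr ⟨fun e => e.conj g, fun e => by
      simpa [mul_assoc] using e.conj g⁻¹⟩ (key x)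

end D3

end Cfsg.Agent.Lib.Jk
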