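import Cfsg.Agent.Lib.Jk.CF
import Cfsg.Agent.Lib.Core.PSolv
import Cfsg.Agent.S0205

set_option autoImplicit false
set_option maxRecDepth 100000

/-! # The centraliser of an element of class `3B` -/

namespace Cfsg.Agent.Lib.Jk

open Subgroup Cfsg.Agent.Lib.Core
open Cfsg.Agent.Lib.Root.J1 hiding Emb t0 v0 x0 T

variable {G : Type*} [Group G] [Finite G]

theorem cent_of_mod {D B : Subgroup G} {g : G} {q : ℕ} (hq : q.Prime) (h5 : 5 ≤ q)
    (hg : orderOf g = q) (hn : g ∈ normalizer (D : Set G)) (hD : IsPGroup 3 D)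
    (hB : B ≤ D ⊓ centralizer {g}) (h9 : Nat.card D ≤ 9 * Nat.card B) : D ≤ centralizer {g} := by
  haveI : Fact (Nat.Prime 3) := ⟨Nat.prime_three⟩
  have m := ncard_modEq_prime hq hg D fun x hx => conj_mem_of_mem_normalizer hn hx
  rw [← card_eq_ncard, show {x | x ∈ (D : Set G) ∧ x * g = g * x} = (D ⊓ centralizer {g} : Subgroup G)
    by ext; simp [mc], ← card_eq_ncard] at m
  have e := card_mul_relIndex (inf_le_left : D ⊓ centralizer {g} ≤ D)
  have le := card_le_of_le hB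
  obtain ⟨a, ha⟩ := hD.exists_card_eq
  obtain ⟨b, -, hb⟩ := (Nat.dvd_prime_pow Nat.prime_three).1 (ha ▸ Dvd.intro _ e)
  obtain ⟨c, -, hc⟩ := (Nat.dvd_prime_pow Nat.prime_three).1 (ha ▸ Dvd.intro_left _ e)
  have pos : 0 < Nat.card (D ⊓ centralizer {g} : Subgroup G) := Nat.card_pos
  have h1 : (D ⊓ centralizer {g}).relIndex D ≤ 9 := by nlinarith
  have h2 := (Nat.modEq_iff_dvd' (card_le_of_le inf_le_left)).1 m.symm
  rw [← e, ← Nat.mul_sub_one, hb] at h2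
  have h3 := (Nat.Coprime.dvd_of_dvd_mul_left (Nat.Coprime.pow_right b ((Nat.coprime_primes hq
    Nat.prime_three).2 (by omega))) h2)
  rw [hc] at h1 h3
  rcases c with _ | _ | _ | c
  · exact inf_eq_left.1 (le_antisymm inf_le_left (relIndex_eq_one.1 hc))
  · have := Nat.le_of_dvd (by decide) h3; omega
  · have := (Nat.prime_dvd_prime_iff_eq hq Nat.prime_two).1 (hq.dvd_of_dvd_pow (n := 3) h3); omega
  · have : 0 < 3 ^ c := by positivity
    rw [pow_succ, pow_succ, pow_succ] at h1; omega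

namespace D3
variable {t : G} {φ : M →* G} {r u w : G} (h : D3 t φ r u w)
include h

theorem Cw_odd : Odd (Nat.card (centralizer ({w} : Set G))) :=
  Invol.odd_card_iff_no_involution.2 fun _ hs s2 => h.notA_w
    (h.isA_of (Invol.orderOf_two_iff.1 s2).symm h.w3 h.w1 (mc.1 hs).symm)

theorem P_sylK : IsSyl 3 (PP φ w) (centralizer ({w} : Set G)) :=
  haveI : Fact (Nat.Prime 3) := ⟨Nat.prime_three⟩
  h.P_syl.mono inf_le_right le_top

theorem caseA (hL : OppOf 3 (centralizer ({w} : Set G)) = ⊥) :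
    centralizer ({w} : Set G) = PP φ w := by
  haveI : Fact (Nat.Prime 3) := ⟨Nat.prime_three⟩
  have hC := (psolv_of_isSolvable (p := 3) (S0205.result h.Cw_odd)).inf_centralizer_OpOf_le hL
  have hF := OpOf_le_of_isSyl h.P_sylK
  have hN := le_normalizer_OpOf (p := 3) (H := centralizer ({w} : Set G)) le_normalizer
  have hp := OpOf_isPGroup (p := 3) (centralizer ({w} : Set G))
  generalize OpOf 3 (centralizer ({w} : Set G)) = F at *
  have WF : h.W ≤ F := fun y hy => hC ⟨hy.1.2, mem_centralizer_iff.2 fun p hp => h.P_W (hF hp) hy⟩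
  have cj : ∀ k ∈ centralizer ({w} : Set G), ∀ x ∈ F, x ∈ TT φ w → k * x * k⁻¹ ∈ TT φ w :=
    fun k hk x hx hT => h.cube_ne (hF (conj_mem_of_mem_normalizer (hN hk) hx)) (by
      rw [conj_mul, conj_mul, h.T3 hT]; simp)
  by_cases hs : φ sg ∈ F
  · refine le_antisymm (fun k hk => ⟨mem_normalizer_of_conj_mem fun x hx => cj k hk x ?_ hx, hk⟩)
      inf_le_right
    obtain ⟨z, hz, y, hy, rfl⟩ := h.T_dec hx
    exact mul_mem (zpowers_le.2 hs hz) (WF hy)
  have FW : ∀ x ∈ F, x ∈ TT φ w → x ∈ h.W := fun x hx hT => by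
    obtain ⟨z, hz, y, hy, rfl⟩ := h.T_dec hT
    have := (mul_mem_cancel_right (WF hy)).1 hx
    rcases (mem_zp3 h.s3).1 hz with rfl | rfl | rfl
    · simpa using hy
    · exact absurd this hs
    · exact absurd (inv_mem_iff.1 this) hs
  refine h.P_sylK.eq_of_le ?_ inf_le_right le_rfl
  by_contra hK
  obtain ⟨q, hq, q1, q3⟩ : ∃ q, q.Prime ∧ q ∣ Nat.card (centralizer ({w} : Set G)) ∧ q ≠ 3 := by
    by_contra e
    push Not at e
    exact hK (IsPGroup.iff_card.2 ⟨_, Nat.eq_prime_pow_of_unique_prime_dvd Nat.card_pos.ne'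
      fun hd e1 => e _ hd e1⟩)
  haveI := Fact.mk hq
  obtain ⟨⟨g, hg⟩, go⟩ := exists_prime_orderOf_dvd_card' q q1
  rw [← Subgroup.orderOf_coe] at go
  have q5 : 5 ≤ q := hq.five_le_of_ne_two_of_ne_three (by
    rintro rfl; exact (Nat.not_even_iff_odd.2 h.Cw_odd) (even_iff_two_dvd.2 q1)) q3
  have a1 := cent_of_mod (B := zpowers w) hq q5 go (mem_normalizer_of_conj_mem fun x hx =>
    FW _ (conj_mem_of_mem_normalizer (hN hg) (WF hx)) (cj g hg x (WF hx) hx.1))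
    (h.T_pg.to_le h.W_le) (zpowers_le.2 ⟨h.wW, mc.2 (mc.1 hg).symm⟩)
    (by rw [h.card_W, Nat.card_zpowers, h.w_ord]; decide)
  have a2 := cent_of_mod (B := h.W) hq q5 go (hN hg) hp (le_inf WF a1) (by
    have h1 := card_lt_of_lt (lt_of_le_of_ne hF fun e => hs (e ▸ T_le_P h.sT))
    have h2 := card_dvd_of_le hF
    rw [h.card_P] at h1 h2
    rw [h.card_W]
    obtain ⟨k, hk⟩ := h2
    rcases k with _ | _ | _ | k <;> [omega; omega; omega; nlinarith])
  have a3 := orderOf_dvd_natCard _ (hF (hC ⟨hg, mem_centralizer_iff.2 fun x hx => mc.1 (a2 hx)⟩))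
  rw [go, h.card_P] at a3
  exact q3 ((Nat.prime_dvd_prime_iff_eq hq Nat.prime_three).1 (hq.dvd_of_dvd_pow (n := 5) a3))

theorem uP {p : G} (hp : p ∈ PP φ w) : u * p * u⁻¹ ∈ PP φ w :=
  ⟨(normalizer _).mul_mem (mul_mem h.uNT hp.1) (inv_mem h.uNT), cent_inv h.uw hp.2⟩

theorem uPT {p : G} (hp : p ∈ PP φ w) : u * p * u⁻¹ * p ∈ TT φ w := by
  obtain ⟨y, hy, e⟩ := h.P_s hp
  refine ⟨mc.2 (comm_of_conj ?_).symm, (mul_mem (h.uP hp) hp).2⟩
  calc _ = u * p * (u⁻¹ * (p * φ sg * p⁻¹) * u⁻¹⁻¹) * p⁻¹ * u⁻¹ := by group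
    _ = u * (p * φ sg * p⁻¹ * (p * y⁻¹ * p⁻¹)) * u⁻¹ := by
      rw [e, ← conj_mul, h.u_iv.inv, h.u_iv.inv]
      nth_rewrite 3 5 [← h.u_iv.inv]
      rw [hy.2, conj_comm' h.us.symm, ← e]; group
    _ = _ := by rw [e, conj_comm' (h.P_W hp (inv_mem hy)).symm, mul_inv_cancel_right,
      conj_comm' h.us.symm]

theorem cube_mem {p : G} (hp : p ∈ PP φ w) : p * p * p ∈ TT φ w := by
  obtain ⟨y, hy, e⟩ := h.P_s hp
  have c := conj_comm' (h.P_W hp hy).symm
  refine ⟨mc.2 (comm_of_conj ?_).symm, (mul_mem (mul_mem hp hp) hp).2⟩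
  calc _ = p * (p * (p * φ sg * p⁻¹) * p⁻¹) * p⁻¹ := by group
    _ = _ := by
      rw [e, ← conj_mul (a := φ sg) (c := y), e, c, ← conj_mul (a := φ sg * y), ← conj_mul (a := φ sg),
        e, c, mul_assoc, mul_assoc, ← mul_assoc y, h.W3 hy, mul_one]

theorem cube_eq {p q : G} (hp : p ∈ PP φ w) (hq : q ∈ PP φ w)
    (e : p * φ sg * p⁻¹ = q * φ sg * q⁻¹) : p * p * p = q * q * q := by
  have := h.cube_T hq (x := q⁻¹ * p) ⟨mc.2 (comm_of_conj (by
    calc _ = q⁻¹ * (p * φ sg * p⁻¹) * q := by group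
      _ = _ := by rw [e]; group)).symm, (mul_mem (inv_mem hq) hp).2⟩
  rwa [mul_inv_cancel_left] at this

theorem orbit_m : ∃ m ∈ normalizer (TT φ w : Set G), m * φ sg * m⁻¹ = (φ sg)⁻¹ ∧
    ∀ y ∈ h.W, y ≠ 1 → ∃ k : ℕ, m ^ k * w * (m ^ k)⁻¹ = y := by
  obtain ⟨n, hn, n1⟩ := h.exists_m
  obtain ⟨m, hm, m1, j, m2⟩ := two_part n1
  replace hm := zpowers_le.2 hn hm
  have nT : ∀ {x}, x * φ sg * x⁻¹ = (φ sg)⁻¹ → x ∉ TT φ w := fun e hx =>
    h.s_inv_ne (by rw [← e, conj_comm' (mem_TT.1 hx).1.symm])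
  have m3 : m * m ≠ 1 := fun e => by
    have := fpf_inv e (fun k => h.normW hm) (fun k hk e1 => by
      by_contra k1; exact nT m1 (h.reg (.inr m1) hk k1 e1.symm)) h.wW
    have e2 : u * m * φ sg * (u * m)⁻¹ = (φ sg)⁻¹ := by
      calc _ = u * (m * φ sg * m⁻¹) * u⁻¹ := by group
        _ = _ := by rw [m1, ← conj_inv, conj_comm' h.us.symm]
    refine nT e2 (h.reg (.inr e2) h.wW h.w1 (comm_of_conj ?_).symm)
    calc _ = u * (m * w * m⁻¹) * u⁻¹ := by group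
      _ = w := by rw [this, ← conj_inv, h.uw, inv_inv]
  have m4 : m ^ 2 ^ 2 ≠ 1 := fun e => h.no_four m1 ⟨m3, by rw [← e]; simp [pow_succ, mul_assoc]⟩
  have o8 : 8 ≤ orderOf m := by
    obtain ⟨k, -, hk⟩ := (Nat.dvd_prime_pow Nat.prime_two).1 (orderOf_dvd_of_pow_eq_one m2)
    by_cases k2 : k ≤ 2
    · exact absurd (orderOf_dvd_iff_pow_eq_one.1 (hk ▸ pow_dvd_pow 2 k2)) m4
    · exact hk ▸ Nat.pow_le_pow_right (n := 2) (by decide) (by omega : 3 ≤ k)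
  have c := card_eq_orbit_mul (zpowers m) w
  rw [show zpowers m ⊓ centralizer {w} = ⊥ from eq_bot_iff.2 fun x hx => h.T_two (j := j)
    (h.reg (h.normS (zpowers_le.2 (h.normS' (.inr m1)) hx.1)) h.wW h.w1 (mc.1 hx.2))
    (orderOf_dvd_iff_pow_eq_one.1 ((orderOf_dvd_of_mem_zpowers hx.1).trans
      (orderOf_dvd_of_pow_eq_one m2))), card_bot, mul_one, Nat.card_zpowers] at c
  have c3 : {y | ∃ k ∈ zpowers m, k * w * k⁻¹ = y} = (h.W : Set G) \ {1} :=
    Set.eq_of_subset_of_ncard_le (by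
      rintro _ ⟨k, hk, rfl⟩
      exact ⟨h.normW (zpowers_le.2 hm hk) h.wW, by simpa using h.w1⟩) (by
      rw [Set.ncard_sdiff_singleton_of_mem (one_mem _), ← card_eq_ncard, h.card_W]; omega)
  refine ⟨m, hm, m1, fun y hy y1 => ?_⟩
  obtain ⟨k, hk, e⟩ : y ∈ {y | ∃ k ∈ zpowers m, k * w * k⁻¹ = y} := c3 ▸ ⟨hy, y1⟩
  obtain ⟨i, rfl⟩ := (mem_powers_iff_mem_zpowers.2 hk :)
  exact ⟨i, e⟩

theorem no_hom (hW : ∀ p ∈ PP φ w, p * p * p ∈ h.W) (hh : ∀ p ∈ PP φ w, ∀ q ∈ PP φ w,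
    p * q * (p * q) * (p * q) = p * p * p * (q * q * q)) : False := by
  obtain ⟨m, hm, m1, m2⟩ := h.orbit_m
  have step : ∀ {p y c}, p ∈ PP φ w → y ∈ h.W → p * φ sg * p⁻¹ = φ sg * y → p * p * p = c →
      m * p * m⁻¹ ∈ PP φ w ∧ m * p * m⁻¹ * φ sg * (m * p * m⁻¹)⁻¹ = φ sg * (m * y * m⁻¹)⁻¹ ∧
        m * p * m⁻¹ * (m * p * m⁻¹) * (m * p * m⁻¹) = m * c * m⁻¹ := fun {p y c} hp hy e1 e2 => by
    refine ⟨⟨(normalizer _).mul_mem (mul_mem hm hp.1) (inv_mem hm), mc.2 ?_⟩, ?_,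
      by rw [conj_mul, conj_mul, e2]⟩
    · simpa [mul_assoc] using comm_conj m (h.P_W hp (h.normW (inv_mem hm) h.wW))
    · have e3 : φ sg = m * (φ sg)⁻¹ * m⁻¹ := by rw [← conj_inv, m1, inv_inv]
      calc _ = m * (p * φ sg * p⁻¹)⁻¹ * m⁻¹ := by nth_rewrite 1 [e3]; group
        _ = _ := by
          rw [e1, ← conj_inv, ← conj_mul, m1, mul_inv_rev, inv_inv,
            h.T_comm (inv_mem (h.normW hm hy).1) h.sT]
  have invp : ∀ {p y}, p ∈ PP φ w → y ∈ h.W → p * φ sg * p⁻¹ = φ sg * y →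
      p⁻¹ * φ sg * p⁻¹⁻¹ = φ sg * y⁻¹ := fun {p y} hp hy e => by
    rw [← conj_inj (g := p), ← conj_mul (a := φ sg) (b := p), e,
      conj_comm' (h.P_W hp (inv_mem hy)).symm]; group
  obtain ⟨p, hp, e⟩ := h.P_surj h.wW
  have c1 : p * p * p ≠ 1 := fun e1 => h.w1 (by
    rwa [conj_comm' (mem_TT.1 (h.cube_ne hp e1)).1.symm, left_eq_mul] at e)
  obtain ⟨s, hs⟩ := m2 _ (hW p hp) c1
  have ind : ∀ k : ℕ, ∃ q ∈ PP φ w, q * φ sg * q⁻¹ = φ sg * (m ^ k * w * (m ^ k)⁻¹) ∧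
      (q * q * q = m ^ k * (p * p * p) * (m ^ k)⁻¹ ∨
        q * q * q = (m ^ k * (p * p * p) * (m ^ k)⁻¹)⁻¹) := fun k => by
    induction k with
    | zero => exact ⟨p, hp, by simpa using e, by simp⟩
    | succ k ih =>
      obtain ⟨q, hq, q1, q2⟩ := ih
      have hy := h.normW (pow_mem hm k) h.wW
      obtain ⟨a1, a2, a3⟩ := step hq hy q1 rfl
      refine ⟨_, inv_mem a1, (invp a1 (inv_mem (h.normW hm hy)) a2).trans (by rw [pow_succ']; group), ?_⟩
      rw [← mul_inv_rev, ← mul_inv_rev, ← mul_assoc, a3]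
      generalize p * p * p = c at q2 ⊢
      rcases q2 with q2 | q2 <;> rw [q2, pow_succ']
      · right; group
      · left; group
  obtain ⟨a1, a2, a3⟩ := step hp h.wW e rfl
  have gw := h.normW hm h.wW
  have ne : m * w * m⁻¹ ≠ w := fun e1 => h.s_inv_ne (by
    rw [← m1, conj_comm' (mem_TT.1 (h.reg (.inr m1) h.wW h.w1 (comm_of_conj e1).symm)).1.symm])
  obtain ⟨a, ha⟩ := m2 _ (mul_mem h.wW (inv_mem gw)) fun e1 => ne (mul_inv_eq_one.1 e1).symm
  obtain ⟨q, hq, q1, q2⟩ := ind a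
  have b1 := h.cube_eq (mul_mem hp a1) hq (by
    calc _ = p * (m * p * m⁻¹ * φ sg * (m * p * m⁻¹)⁻¹) * p⁻¹ := by group
      _ = _ := by rw [a2, ← conj_mul (a := φ sg), e, conj_comm' (h.P_W hp (inv_mem gw)).symm, q1, ha,
        mul_assoc])
  rw [hh p hp _ a1, a3] at b1
  have b2 : m ^ a * (p * p * p) * (m ^ a)⁻¹ = m ^ s * (w * (m * w * m⁻¹)⁻¹) * (m ^ s)⁻¹ := by
    rw [← ha, ← hs]; group
  have b3 : p * p * p * (m * (p * p * p) * m⁻¹) = m ^ s * (w * (m * w * m⁻¹)) * (m ^ s)⁻¹ := by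
    rw [← hs]; group
  rw [b3] at b1
  rw [b2, ← b1, conj_inv (b := m ^ s), conj_inj, conj_inj, mul_right_inj, mul_inv_rev w, inv_inv,
    h.T_comm gw.1 (inv_mem h.wT), mul_left_inj] at q2
  rcases q2 with q2 | q2
  · exact h.w1 (by simpa using eq_one_of_odd (h.T_odd gw.1) (mul_eq_one_iff_eq_inv.2 q2))
  · exact h.w1 (eq_one_of_odd (h.T_odd h.wT) (mul_eq_one_iff_eq_inv.2 q2))

theorem TW_cent {x v y : G} (hx : x ∈ TT φ w) (hW : x ∉ h.W) (hv : v ∈ h.W) (v1 : v ≠ 1)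
    (h1 : y * x = x * y) (h2 : y * v = v * y) : y ∈ TT φ w := by
  obtain ⟨g, hg, rfl⟩ := h.transA hx hW
  have := conj_mem_of_mem_normalizer hg (h.CT (h.normW (inv_mem hg) hv)
    (fun e => v1 (conj_eq_one_iff.1 e)) (back h1)
    (by simpa using comm_conj g⁻¹ h2))
  simpa [mul_assoc] using this

theorem caseB (hL : OppOf 3 (centralizer ({w} : Set G)) ≠ ⊥) : False := by
  haveI : Fact (Nat.Prime 3) := ⟨Nat.prime_three⟩
  have L1 := OppOf_le (p := 3) (centralizer ({w} : Set G))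
  have L2 := OppOf_not_dvd (p := 3) (centralizer ({w} : Set G))
  have L3 := le_normalizer_OppOf (p := 3) (H := centralizer ({w} : Set G)) le_rfl
  generalize OppOf 3 (centralizer ({w} : Set G)) = L at *
  have uL := L3 (mem_normalizer_of_conj_mem fun _ => cent_inv h.uw)
  have inv : ∀ y ∈ L, u * y * u⁻¹ = y⁻¹ := fun y => fpf_inv h.u_iv.2
    (fun k => conj_mem_of_mem_normalizer uL) fun k hk e => by
      by_contra k1
      obtain ⟨q, hq, q1⟩ := Nat.exists_prime_and_dvd (orderOf_eq_one_iff.not.2 k1)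
      haveI := Fact.mk hq
      obtain ⟨⟨x, hx⟩, xo⟩ := exists_prime_orderOf_dvd_card' (G := zpowers k) q (by rwa [Nat.card_zpowers])
      rw [← Subgroup.orderOf_coe] at xo
      have xL := zpowers_le.2 hk hx
      obtain ⟨g, e1⟩ := h.ex_conj h.u_iv
      have d1 := orderOf_dvd_natCard (centralizer {u}) (mc.2 (comm_of_mem_zpowers hx e.symm).symm)
      have d2 := orderOf_dvd_natCard _ (L1 xL)
      have d3 := orderOf_dvd_natCard _ xL
      rw [← e1, card_cent_conj, h.emb.card_cent] at d1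
      dsimp only at xo
      rw [xo] at d1 d2 d3
      rcases (Nat.Prime.dvd_mul hq (m := 2 ^ 7 * 3) (n := 5)).1 d1 with d | d
      · rcases (Nat.Prime.dvd_mul hq).1 d with d | d
        · rw [(Nat.prime_dvd_prime_iff_eq hq Nat.prime_two).1 (hq.dvd_of_dvd_pow d)] at d2
          exact (Nat.not_even_iff_odd.2 h.Cw_odd) (even_iff_two_dvd.2 d2)
        · exact L2 ((Nat.prime_dvd_prime_iff_eq hq Nat.prime_three).1 d ▸ d3)
      · rw [(Nat.prime_dvd_prime_iff_eq hq Nat.prime_five).1 d] at xo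
        exact h.notA_w ((h.five_all xo).2.2 w (mc.1 (L1 xL)).symm h.w3 h.w1)
  obtain ⟨⟨y, hy⟩, y0⟩ := ne_bot_iff_exists_ne_one.1 hL
  have PW : ∀ x ∈ PP φ w ⊓ centralizer (L : Set G), x ∈ TT φ w → x ∈ h.W := fun x hx hT => by
    by_contra e
    obtain ⟨z, hz, z3, z1⟩ := h.exists_three (h.TW_cent hT e h.wW h.w1
      (mem_centralizer_iff.1 hx.2 y hy) (mc.1 (L1 hy))) fun e => y0 (Subtype.ext e)
    exact L2 (orderOf_eq_prime (p := 3) (by rw [pow_three', z3]) z1 ▸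
      orderOf_dvd_natCard _ (zpowers_le.2 hy hz))
  have rep : ∀ p ∈ PP φ w, ∃ x ∈ TT φ w, p * x ∈ PP φ w ⊓ centralizer (L : Set G) := fun p hp => by
    refine ⟨p⁻¹ * (u * p * u⁻¹ * p) * p⁻¹⁻¹ * (p * p * p)⁻¹, (TT φ w).mul_mem (conj_mem_of_mem_normalizer
      (inv_mem hp).1 (h.uPT hp)) (inv_mem (h.cube_mem hp)), ?_⟩
    rw [show p * (p⁻¹ * (u * p * u⁻¹ * p) * p⁻¹⁻¹ * (p * p * p)⁻¹) = u * p * u⁻¹ * p⁻¹ by group]
    refine ⟨(PP φ w).mul_mem (h.uP hp) ((PP φ w).inv_mem hp), mem_centralizer_iff.2 fun x hx => comm_of_conj ?_⟩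
    have e1 := inv _ (conj_mem_of_mem_normalizer' (L3 (le_normalizer hp.2)) hx)
    rw [h.u_iv.inv] at e1 ⊢
    calc _ = u * p * (u * (p⁻¹ * x * p) * u) * p⁻¹ * u⁻¹ := by
          simp only [mul_inv_rev, h.u_iv.inv, inv_inv, mul_assoc]
      _ = u * x⁻¹ * u⁻¹ := by rw [e1]; group
      _ = x := by rw [inv _ (inv_mem hx), inv_inv]
  have ab : ∀ a ∈ PP φ w ⊓ centralizer (L : Set G), ∀ b ∈ PP φ w ⊓ centralizer (L : Set G),
      a * b = b * a := fun a ha b hb => fpf_comm (K := PP φ w ⊓ centralizer (L : Set G)) h.u_iv.2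
      (fun k hk => ⟨h.uP hk.1,
        conj_mem_of_mem_normalizer (normalizer_le_normalizer_centralizer _ uL) hk.2⟩)
      (fun k hk e => by
        have k2 := h.uPT hk.1
        rw [conj_comm' e] at k2
        have kT := zpowers_le.2 k2 (by simpa [pow_two] using mem_zp_odd (h.P_odd hk.1) 1)
        have := (PW k hk kT).2
        rw [conj_comm' e] at this
        exact eq_one_of_odd (h.T_odd kT) (mul_eq_one_iff_eq_inv.2 this)) ha hb
  refine h.no_hom (fun p hp => ?_) fun p hp q hq => ?_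
  · obtain ⟨x, hx, e⟩ := rep p hp
    rw [← h.cube_T hp hx]
    exact PW _ (mul_mem (mul_mem e e) e) (h.cube_mem e.1)
  · obtain ⟨x, hx, e⟩ := rep p hp
    obtain ⟨z, hz, e'⟩ := rep q hq
    have := (show Commute _ _ from ab _ e _ e').mul_pow 3
    rw [pow_three', pow_three', pow_three', h.cube_T hp hx, h.cube_T hq hz,
      show p * x * (q * z) = p * q * (q⁻¹ * x * q * z) by group, h.cube_T (mul_mem hp hq)
        (mul_mem (conj_mem_of_mem_normalizer' hq.1 hx) hz)] at this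
    exact this

theorem Cw : centralizer ({w} : Set G) = PP φ w := by
  by_cases e : OppOf 3 (centralizer ({w} : Set G)) = ⊥
  exacts [h.caseA e, (h.caseB e).elim]

end D3

end Cfsg.Agent.Lib.Jk
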