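import Cfsg.Agent.Lib.Jk.M

set_option autoImplicit false
set_option maxRecDepth 100000

/-! # Clifford generators and the embedding of the model -/

namespace Cfsg.Agent.Lib.Jk

variable {G : Type*} [Group G]

/-- five anticommuting involutions with product one -/
structure Cl (t : G) (X : Fin 5 → G) : Prop where
  tt : t * t = 1
  tne : t ≠ 1
  tc : ∀ i, X i * t = t * X i
  sq : ∀ i, X i * X i = 1
  anti : ∀ i j, i ≠ j → X j * X i = t * (X i * X j)
  pr : X 4 = X 0 * (X 1 * (X 2 * X 3))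

def bt (e : Fin 32) (k : ℕ) : Bool := e.val.testBit k

def evB (t : G) (X : Fin 5 → G) (s a b c d : Bool) : G :=
  cond s t 1 * (cond a (X 0) 1 * (cond b (X 1) 1 * (cond c (X 2) 1 * cond d (X 3) 1)))

def ev (t : G) (X : Fin 5 → G) (e : Fin 32) : G :=
  evB t X (bt e 4) (bt e 0) (bt e 1) (bt e 2) (bt e 3)

theorem bt_em1 : ∀ a, bt (em a 1) 4 = (bt a 4 ^^ (bt a 1 ^^ (bt a 2 ^^ bt a 3))) ∧
    bt (em a 1) 0 = !bt a 0 ∧ bt (em a 1) 1 = bt a 1 ∧ bt (em a 1) 2 = bt a 2 ∧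
    bt (em a 1) 3 = bt a 3 := by decide +kernel
theorem bt_em2 : ∀ a, bt (em a 2) 4 = (bt a 4 ^^ (bt a 2 ^^ bt a 3)) ∧
    bt (em a 2) 0 = bt a 0 ∧ bt (em a 2) 1 = !bt a 1 ∧ bt (em a 2) 2 = bt a 2 ∧
    bt (em a 2) 3 = bt a 3 := by decide +kernel
theorem bt_em4 : ∀ a, bt (em a 4) 4 = (bt a 4 ^^ bt a 3) ∧
    bt (em a 4) 0 = bt a 0 ∧ bt (em a 4) 1 = bt a 1 ∧ bt (em a 4) 2 = !bt a 2 ∧
    bt (em a 4) 3 = bt a 3 := by decide +kernel
theorem bt_em8 : ∀ a, bt (em a 8) 4 = bt a 4 ∧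
    bt (em a 8) 0 = bt a 0 ∧ bt (em a 8) 1 = bt a 1 ∧ bt (em a 8) 2 = bt a 2 ∧
    bt (em a 8) 3 = !bt a 3 := by decide +kernel
theorem bt_em16 : ∀ a, bt (em a 16) 4 = !bt a 4 ∧
    bt (em a 16) 0 = bt a 0 ∧ bt (em a 16) 1 = bt a 1 ∧ bt (em a 16) 2 = bt a 2 ∧
    bt (em a 16) 3 = bt a 3 := by decide +kernel

theorem em_decomp : ∀ b : Fin 32, ∃ s ∈ [0, 16], ∃ a ∈ [0, 1], ∃ c ∈ [0, 2], ∃ d ∈ [0, 4],
    ∃ f ∈ [0, 8], b = em (em (em (em s a) c) d) f := by decide +kernel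

theorem em_zero : ∀ a, em a 0 = a := by decide +kernel

namespace Cl
variable {t : G} {X : Fin 5 → G} (h : Cl t X)
include h

theorem tt' (y : G) : t * (t * y) = y := by rw [← mul_assoc, h.tt, one_mul]
theorem tc' (i : Fin 5) (y : G) : X i * (t * y) = t * (X i * y) := by
  rw [← mul_assoc, h.tc, mul_assoc]
theorem sq' (i : Fin 5) (y : G) : X i * (X i * y) = y := by rw [← mul_assoc, h.sq, one_mul]
theorem anti' (i j : Fin 5) (hij : i ≠ j) (y : G) : X j * (X i * y) = t * (X i * (X j * y)) := by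
  rw [← mul_assoc, h.anti i j hij]; simp only [mul_assoc]

omit h in
theorem ev_zero : ev t X 0 = 1 := by simp [ev, evB, bt]
omit h in
theorem ev_1 : ev t X 1 = X 0 := by
  have : ev t X 1 = evB t X false true false false false := rfl
  simp [this, evB]
omit h in
theorem ev_2 : ev t X 2 = X 1 := by
  have : ev t X 2 = evB t X false false true false false := rfl
  simp [this, evB]
omit h in
theorem ev_4 : ev t X 4 = X 2 := by
  have : ev t X 4 = evB t X false false false true false := rfl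
  simp [this, evB]
omit h in
theorem ev_8 : ev t X 8 = X 3 := by
  have : ev t X 8 = evB t X false false false false true := rfl
  simp [this, evB]
omit h in
theorem ev_16 : ev t X 16 = t := by
  have : ev t X 16 = evB t X true false false false false := rfl
  simp [this, evB]
theorem ev_15 : ev t X 15 = X 4 := by
  have : ev t X 15 = evB t X false true true true true := rfl
  simp [this, evB, h.pr]

theorem ev_xc (i : Fin 5) : ev t X (xc i) = X i := by
  fin_cases i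
  exacts [ev_1, ev_2, ev_4, ev_8, h.ev_15]

theorem ev_gen (g : Fin 32) (hg : g ∈ [0, 1, 2, 4, 8, 16]) (a : Fin 32) :
    ev t X (em a g) = ev t X a * ev t X g := by
  have r10 := h.anti 0 1 (by decide)
  have r20 := h.anti 0 2 (by decide)
  have r30 := h.anti 0 3 (by decide)
  have r21 := h.anti 1 2 (by decide)
  have r31 := h.anti 1 3 (by decide)
  have r32 := h.anti 2 3 (by decide)
  have s10 := h.anti' 0 1 (by decide)
  have s20 := h.anti' 0 2 (by decide)
  have s30 := h.anti' 0 3 (by decide)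
  have s21 := h.anti' 1 2 (by decide)
  have s31 := h.anti' 1 3 (by decide)
  have s32 := h.anti' 2 3 (by decide)
  simp only [List.mem_cons, List.not_mem_nil, or_false] at hg
  rcases hg with rfl | rfl | rfl | rfl | rfl | rfl
  · rw [em_zero, ev_zero, mul_one]
  · obtain ⟨e1, e2, e3, e4, e5⟩ := bt_em1 a
    rw [ev_1, ev, ev, e1, e2, e3, e4, e5]
    cases bt a 4 <;> cases bt a 0 <;> cases bt a 1 <;> cases bt a 2 <;> cases bt a 3 <;>
      simp [evB, mul_assoc, r10, r20, r30, r21, r31, r32, s10, s20, s30, s21, s31, s32, h.tt,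
        h.tt', h.tc, h.tc', h.sq, h.sq']
  · obtain ⟨e1, e2, e3, e4, e5⟩ := bt_em2 a
    rw [ev_2, ev, ev, e1, e2, e3, e4, e5]
    cases bt a 4 <;> cases bt a 0 <;> cases bt a 1 <;> cases bt a 2 <;> cases bt a 3 <;>
      simp [evB, mul_assoc, r10, r20, r30, r21, r31, r32, s10, s20, s30, s21, s31, s32, h.tt,
        h.tt', h.tc, h.tc', h.sq, h.sq']
  · obtain ⟨e1, e2, e3, e4, e5⟩ := bt_em4 a
    rw [ev_4, ev, ev, e1, e2, e3, e4, e5]
    cases bt a 4 <;> cases bt a 0 <;> cases bt a 1 <;> cases bt a 2 <;> cases bt a 3 <;>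
      simp [evB, mul_assoc, r10, r20, r30, r21, r31, r32, s10, s20, s30, s21, s31, s32, h.tt,
        h.tt', h.tc, h.tc', h.sq, h.sq']
  · obtain ⟨e1, e2, e3, e4, e5⟩ := bt_em8 a
    rw [ev_8, ev, ev, e1, e2, e3, e4, e5]
    cases bt a 4 <;> cases bt a 0 <;> cases bt a 1 <;> cases bt a 2 <;> cases bt a 3 <;>
      simp [evB, mul_assoc, r10, r20, r30, r21, r31, r32, s10, s20, s30, s21, s31, s32, h.tt,
        h.tt', h.tc, h.tc', h.sq, h.sq']
  · obtain ⟨e1, e2, e3, e4, e5⟩ := bt_em16 a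
    rw [ev_16, ev, ev, e1, e2, e3, e4, e5]
    cases bt a 4 <;> cases bt a 0 <;> cases bt a 1 <;> cases bt a 2 <;> cases bt a 3 <;>
      simp [evB, mul_assoc, r10, r20, r30, r21, r31, r32, s10, s20, s30, s21, s31, s32, h.tt,
        h.tt', h.tc, h.tc', h.sq, h.sq']

theorem ev_em (a b : Fin 32) : ev t X (em a b) = ev t X a * ev t X b := by
  obtain ⟨s, hs, g1, h1, g2, h2, g3, h3, g4, h4, rfl⟩ := em_decomp b
  have m : ∀ g : Fin 32, (g ∈ [0, 16] ∨ g ∈ [0, 1] ∨ g ∈ [0, 2] ∨ g ∈ [0, 4] ∨ g ∈ [0, 8]) →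
      g ∈ [0, 1, 2, 4, 8, 16] := by decide
  have e0 := h.ev_gen s (m _ (.inl hs))
  have e1 := h.ev_gen g1 (m _ (.inr (.inl h1)))
  have e2 := h.ev_gen g2 (m _ (.inr (.inr (.inl h2))))
  have e3 := h.ev_gen g3 (m _ (.inr (.inr (.inr (.inl h3)))))
  have e4 := h.ev_gen g4 (m _ (.inr (.inr (.inr (.inr h4)))))
  simp only [← em_assoc, e0, e1, e2, e3, e4, mul_assoc]

theorem ev_eq_one {a : Fin 32} (ha : ev t X a = 1) : a = 0 := by
  have : ∀ a : Fin 32, a = 0 ∨ a = 16 ∨ ∃ b, em a b = em 16 (em b a) := by decide +kernel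
  rcases this a with h0 | rfl | ⟨b, hb⟩
  · exact h0
  · exact absurd (ev_16.symm.trans ha) h.tne
  · have := congrArg (ev t X) hb
    rw [h.ev_em, h.ev_em, h.ev_em, ha, ev_16, one_mul, mul_one] at this
    exact absurd (by simpa using this.symm) h.tne

theorem ev_inj {a b : Fin 32} (hab : ev t X a = ev t X b) : a = b := by
  have h1 : ev t X (em (ei b) a) = 1 := by
    rw [h.ev_em, hab, ← h.ev_em, ei_em, ev_zero]
  have : ∀ a b : Fin 32, em (ei b) a = 0 → a = b := by decide +kernel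
  exact this _ _ (h.ev_eq_one h1)

theorem ev_ei (a : Fin 32) : ev t X (ei a) = (ev t X a)⁻¹ :=
  eq_inv_of_mul_eq_one_left (by rw [← h.ev_em, ei_em, ev_zero])

theorem ev_t (a : Fin 32) : ev t X a * t = t * ev t X a := by
  have : ∀ a, em a 16 = em 16 a := by decide +kernel
  have e := congrArg (ev t X) (this a)
  rwa [h.ev_em, h.ev_em, ev_16] at e

/-- conjugation acting on the generators by an even permutation -/
theorem conj_ev {k : G} {p : Fin 60} (ht : k * t = t * k)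
    (hk : ∀ i, k * X i * k⁻¹ = X (pa p i)) (a : Fin 32) :
    k * ev t X a * k⁻¹ = ev t X (ac p a) := by
  have hg : ∀ g : Fin 32, g ∈ [0, 1, 2, 4, 8, 16] → k * ev t X g * k⁻¹ = ev t X (ac p g) := by
    have f : ∀ p i, ac p (xc i) = xc (pa p i) := by decide +kernel
    have f16 : ∀ p, ac p 16 = 16 := by decide +kernel
    intro g hg
    simp only [List.mem_cons, List.not_mem_nil, or_false] at hg
    rcases hg with rfl | rfl | rfl | rfl | rfl | rfl
    · rw [ac_zero', ev_zero]; simp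
    · exact (congrArg (fun y => k * y * k⁻¹) ev_1).trans
        ((hk 0).trans ((h.ev_xc _).symm.trans (congrArg _ (f p 0).symm)))
    · exact (congrArg (fun y => k * y * k⁻¹) ev_2).trans
        ((hk 1).trans ((h.ev_xc _).symm.trans (congrArg _ (f p 1).symm)))
    · exact (congrArg (fun y => k * y * k⁻¹) ev_4).trans
        ((hk 2).trans ((h.ev_xc _).symm.trans (congrArg _ (f p 2).symm)))
    · exact (congrArg (fun y => k * y * k⁻¹) ev_8).trans
        ((hk 3).trans ((h.ev_xc _).symm.trans (congrArg _ (f p 3).symm)))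
    · rw [f16, ev_16, ht]; simp
  obtain ⟨s, hs, g1, h1, g2, h2, g3, h3, g4, h4, rfl⟩ := em_decomp a
  have m : ∀ g : Fin 32, (g ∈ [0, 16] ∨ g ∈ [0, 1] ∨ g ∈ [0, 2] ∨ g ∈ [0, 4] ∨ g ∈ [0, 8]) →
      g ∈ [0, 1, 2, 4, 8, 16] := by decide
  simp only [ac_em, h.ev_em, ← hg s (m _ (.inl hs)), ← hg g1 (m _ (.inr (.inl h1))),
    ← hg g2 (m _ (.inr (.inr (.inl h2)))), ← hg g3 (m _ (.inr (.inr (.inr (.inl h3))))),
    ← hg g4 (m _ (.inr (.inr (.inr (.inr h4)))))]
  group

end Cl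

end Cfsg.Agent.Lib.Jk
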