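import Cfsg.Agent.Lib.Jk.Pre3
import Cfsg.Agent.Lib.Root.J1d
import Cfsg.Agent.S0215

set_option autoImplicit false
set_option maxRecDepth 100000

/-! # The centraliser of the involution is the split extension -/

namespace Cfsg.Agent.Lib.Jk

open Subgroup Cfsg.Agent.Lib.Core
open Cfsg.Agent.Lib.Root.J1 (Iv)

theorem ns_inv : ∀ p : Fin 60, p ≠ 0 → pm p p = 0 → ∀ a, em (em a (ac p a)) 16 ≠ 0 := by
  decide +kernel
theorem ns_sq : ∀ p : Fin 60, pm p p = 0 → ∀ a, em (em a (ac p a)) 16 = 15 →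
    p = 13 ∨ p = 30 ∨ p = 43 := by decide +kernel
theorem ns_pair : ∀ p ∈ [13, 30, 43], ∀ a b, em (em a (ac p a)) 16 = 15 →
    em (em b (ac p b)) 16 = 15 → em (em a (ei b)) (em a (ei b)) = 0 := by decide +kernel
theorem e_sq : ∀ a, em a a ≠ 15 := by decide +kernel
theorem ex_pa4 : ∀ j, ∃ p, pa p j = 4 := by decide +kernel

section C
variable {C : Type*} [Group C] {t : C} {X : Fin 5 → C}

theorem Str.sq_eq (h : Str t X) {k : C} {p : Fin 60} (hk : Act X k p) (a : Fin 32) :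
    ev t X a * k * (ev t X a * k) = ev t X (em a (ac p a)) * (k * k) := by
  rw [h.cl.ev_em, mul_assoc, ← mul_assoc k, h.conj hk]; group

theorem Str.ev_t' (h : Str t X) (a : Fin 32) : ev t X a * t = ev t X (em a 16) := by
  rw [h.cl.ev_em, Cl.ev_16]

theorem Str.sq_p (h : Str t X) {k : C} {p : Fin 60} (hk : Act X k p) {a b : Fin 32}
    (e : ev t X a * k * (ev t X a * k) = ev t X b) : pm p p = 0 := by
  rw [h.sq_eq hk] at e
  have : k * k = ev t X (em (ei (em a (ac p a))) b) := by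
    rw [h.cl.ev_em, h.cl.ev_ei, ← e]; group
  exact h.p_zero (this ▸ hk.mul hk)

theorem Str.ker_ev (h : Str t X) {k : C} (hk : Act X k 0) (a : Fin 32) :
    ∃ b, ev t X a * k = ev t X b := by
  rcases h.ker k hk with rfl | rfl
  · exact ⟨a, mul_one _⟩
  · exact ⟨em a 16, by rw [h.cl.ev_em, Cl.ev_16]⟩

theorem Str.ns_conj (h : Str t X) (hs : ∀ k p, Act X k p → p ≠ 0 → pm p p = 0 → k * k = t)
    {c : C} (hc : c * c = 1) (h1 : c ≠ 1) (ht : c ≠ t) : ∃ k, k * c * k⁻¹ = X 4 := by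
  obtain ⟨a, p, k, hk, rfl⟩ := h.dec c
  have h2 := h.sq_p hk (b := 0) (by rw [hc, Cl.ev_zero])
  by_cases hp : p = 0
  · subst hp
    obtain ⟨b, hb⟩ := h.ker_ev hk a
    rw [hb] at hc h1 ht ⊢
    rw [← h.cl.ev_em] at hc
    rcases e_inv b (h.cl.ev_eq_one hc) with rfl | rfl | ⟨j, hj⟩
    · exact absurd Cl.ev_zero h1
    · exact absurd Cl.ev_16 ht
    obtain ⟨q, hq⟩ := ex_pa4 j
    obtain ⟨l, hl⟩ := h.ex q
    have e1 : l * X j * l⁻¹ = X 4 := hq ▸ hl j
    rcases hj with rfl | rfl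
    · exact ⟨l, by rw [h.cl.ev_xc, e1]⟩
    · refine ⟨X 0 * l, ?_⟩
      rw [h.cl.ev_em, h.cl.ev_xc, Cl.ev_16]
      calc X 0 * l * (t * X j) * (X 0 * l)⁻¹ = X 0 * (l * t) * l⁻¹ * (l * X j * l⁻¹) * (X 0)⁻¹ := by
            group
        _ = t * (X 0 * X 4) * (X 0)⁻¹ := by
            rw [e1, h.cen l, mul_assoc (X 0), mul_inv_cancel_right, h.cen (X 0)]; group
        _ = X 4 := by rw [← h.cl.anti 0 4 (by decide)]; group
  · rw [h.sq_eq hk, hs k p hk hp h2, h.ev_t'] at hc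
    exact absurd (h.cl.ev_eq_one hc) (ns_inv p hp h2 a)

theorem Str.ns_root (h : Str t X) (hs : ∀ k p, Act X k p → p ≠ 0 → pm p p = 0 → k * k = t)
    {c : C} (hc : c * c = X 4) : ∃ a p k, Act X k p ∧ c = ev t X a * k ∧
      em (em a (ac p a)) 16 = 15 ∧ (p = 13 ∨ p = 30 ∨ p = 43) := by
  obtain ⟨a, p, k, hk, rfl⟩ := h.dec c
  rw [← h.cl.ev_15] at hc
  have h2 := h.sq_p hk hc
  by_cases hp : p = 0
  · subst hp
    obtain ⟨b, hb⟩ := h.ker_ev hk a
    rw [hb, ← h.cl.ev_em] at hc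
    exact absurd (h.cl.ev_inj hc) (e_sq b)
  · rw [h.sq_eq hk, hs k p hk hp h2, h.ev_t'] at hc
    exact ⟨a, p, k, hk, rfl, h.cl.ev_inj hc, ns_sq p h2 a (h.cl.ev_inj hc)⟩

theorem Str.ns_pair (h : Str t X) {a b : Fin 32} {p : Fin 60} {k l : C} (hk : Act X k p)
    (hl : Act X l p) (ha : em (em a (ac p a)) 16 = 15) (hb : em (em b (ac p b)) 16 = 15)
    (hp : p = 13 ∨ p = 30 ∨ p = 43) :
    ev t X a * k * (ev t X b * l)⁻¹ * (ev t X a * k * (ev t X b * l)⁻¹) = 1 := by
  have h1 := Jk.ns_pair p (by simpa using hp) a b ha hb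
  have h2 : ev t X a * (ev t X b)⁻¹ * (ev t X a * (ev t X b)⁻¹) = 1 := by
    rw [← h.cl.ev_ei, ← h.cl.ev_em, ← h.cl.ev_em, h1, Cl.ev_zero]
  rcases h.uniq hk hl with rfl | rfl
  · rw [← h2]; group
  · rw [← h2, ← h.tk_sq (ev t X a * (ev t X b)⁻¹), ← mul_assoc t, ← h.cen (ev t X a)]; group

/-- four elements of square `t` commuting with `X 4` -/
theorem Str.ns_four (h : Str t X) (hs : ∀ k p, Act X k p → p ≠ 0 → pm p p = 0 → k * k = t) :
    ∃ y : Fin 4 → C, (∀ i, y i * y i = t ∧ y i * X 4 = X 4 * y i) ∧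
      ∀ i j, i < j → y j * (y i)⁻¹ * (y j * (y i)⁻¹) ≠ 1 := by
  obtain ⟨k, hk⟩ := h.ex 13
  have k2 := hs k 13 hk (by decide) (by decide +kernel)
  have e1 : ∀ a, em a a = 16 → em a 15 = em 15 a →
      ev t X a * ev t X a = t ∧ ev t X a * X 4 = X 4 * ev t X a := fun a h1 h2 => by
    rw [← h.cl.ev_15, ← h.cl.ev_em, ← h.cl.ev_em, ← h.cl.ev_em, h1, h2, Cl.ev_16]; simp
  have e2 : ∀ a b, em (em a (ei b)) (em a (ei b)) ≠ 0 →
      ev t X a * (ev t X b)⁻¹ * (ev t X a * (ev t X b)⁻¹) ≠ 1 := fun a b h1 h2 => by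
    rw [← h.cl.ev_ei, ← h.cl.ev_em, ← h.cl.ev_em] at h2
    exact h1 (h.cl.ev_eq_one h2)
  have e3 : ∀ b, k * (ev t X b)⁻¹ * (k * (ev t X b)⁻¹) ≠ 1 := fun b h2 => by
    rw [← h.cl.ev_ei, h.conj hk, h.sq_eq hk, k2, h.ev_t'] at h2
    exact ns_inv 13 (by decide) (by decide +kernel) _ (h.cl.ev_eq_one h2)
  refine ⟨![ev t X 3, ev t X 5, ev t X 9, k], fun i => ?_, fun i j hij => ?_⟩
  · fin_cases i
    · exact e1 3 (by decide +kernel) (by decide +kernel)
    · exact e1 5 (by decide +kernel) (by decide +kernel)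
    · exact e1 9 (by decide +kernel) (by decide +kernel)
    · refine ⟨k2, ?_⟩
      have := hk 4
      rw [show pa 13 4 = 4 by decide +kernel] at this
      exact mul_inv_eq_iff_eq_mul.1 this
  · fin_cases i <;> fin_cases j <;> first | exact absurd hij (by decide) | exact e3 _ |
      exact e2 _ _ (by decide +kernel)

/-- no abelian subgroup of index `≤ 2` -/
theorem Pre.not_ab [Finite C] {E : Subgroup C} (h : Pre t E) {u : C}
    (hu : ∀ y ∈ E, u * y * u⁻¹ = y ∨ u * y * u⁻¹ = t * y)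
    (hab : ∀ a ∈ E, ∀ b ∈ E, u * a * u⁻¹ = a → u * b * u⁻¹ = b → b * a = a * b) : False := by
  by_cases hz : ∃ z ∈ E, u * z * u⁻¹ = t * z
  swap
  · obtain ⟨y, hy, h1⟩ := h.exists_notMem [1, t] (by simp)
    have h2 : ∀ y ∈ E, u * y * u⁻¹ = y := fun y hy => (hu y hy).resolve_right fun e => hz ⟨y, hy, e⟩
    exact h1 (by simpa using h.cen' y hy fun x hx => hab x hx y hy (h2 x hx) (h2 y hy))
  obtain ⟨z, hz, e⟩ := hz
  have h1 : ∀ y ∈ E, u * y * u⁻¹ = y ∨ u * (y * z) * u⁻¹ = y * z := fun y hy =>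
    (hu y hy).imp id fun e' => by
      rw [← conj_mul, e, e', h.tc', mul_assoc t y, h.tt']
  have h2 : ∀ a ∈ E, u * a * u⁻¹ = a → z * a = a * z → a = 1 ∨ a = t := fun a ha ea ez =>
    h.cen' a ha fun y hy => by
      rcases h1 y hy with e1 | e1
      · exact hab y hy a ha e1 ea
      · have := hab _ (mul_mem hy hz) a ha e1 ea
        rw [mul_assoc, ez, ← mul_assoc, ← mul_assoc] at this
        exact mul_right_cancel this
  have h3 : ∀ l : List C, l.length < 16 → ∃ a ∈ E, u * a * u⁻¹ = a ∧ a ∉ l := fun l hl => by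
    obtain ⟨y, hy, h4⟩ := h.exists_notMem (l ++ l.map (· * z⁻¹)) (by simp; omega)
    rw [List.mem_append, not_or] at h4
    rcases h1 y hy with e1 | e1
    · exact ⟨y, hy, e1, h4.1⟩
    · exact ⟨y * z, mul_mem hy hz, e1, fun e2 => h4.2 (List.mem_map.2 ⟨_, e2, by simp⟩)⟩
  obtain ⟨a, ha, ea, na⟩ := h3 [1, t] (by simp)
  obtain ⟨b, hb, eb, nb⟩ := h3 [1, t, a⁻¹, a⁻¹ * t] (by simp)
  simp only [List.mem_cons, List.not_mem_nil, or_false, not_or] at na nb
  have fa := (h.comm a ha z hz).resolve_left fun e => by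
    rcases h2 a ha ea e with e | e
    exacts [na.1 e, na.2 e]
  have fb := (h.comm b hb z hz).resolve_left fun e => by
    rcases h2 b hb eb e with e | e
    exacts [nb.1 e, nb.2.1 e]
  rcases h2 (a * b) (mul_mem ha hb) (by rw [← conj_mul, ea, eb]) (by
    rw [← mul_assoc, fa, mul_assoc, mul_assoc, fb, h.tc' a, h.tt', mul_assoc]) with e | e
  · exact nb.2.2.1 (eq_inv_of_mul_eq_one_right e)
  · exact nb.2.2.2 (by rw [← e]; group)

end C

variable {G : Type*} [Group G]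

/-- `φ` is an isomorphism of the model onto the centraliser of `w`. -/
structure Emb (w : G) (φ : M →* G) : Prop where
  inj : Function.Injective φ
  map_t : φ t0 = w
  surj : ∀ g, g * w = w * g → ∃ a, φ a = g

theorem exists_other [Finite G] [IsSimpleGroup G] {t : G} (ht : IsTwoCentralInvolution t)
    (hc : Nat.card (centralizer ({t} : Set G)) = 1920) :
    ∃ g : G, g * t * g⁻¹ ≠ t ∧ g * t * g⁻¹ * t = t * (g * t * g⁻¹) := by
  obtain ⟨h2, P, hP, hcP⟩ := ht
  by_contra hn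
  push Not at hn
  obtain ⟨N, hN, h1, h3⟩ := S0215.result P t h2 hP fun g hg => by
    by_contra e; exact hn g e (hcP _ hg)
  rcases hN.eq_bot_or_eq_top with rfl | rfl
  · have h4 : t ∈ center G := mem_center_iff.2 fun g => by
      have := mem_bot.1 (h3 g)
      calc g * t = (t * g * t⁻¹ * g⁻¹) * (g * t) := by rw [this, one_mul]
        _ = t * g := by group
    rcases (inferInstance : (center G).Normal).eq_bot_or_eq_top with e | e
    · rw [e, mem_bot] at h4; simp [h4] at h2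
    · have h5 : (zpowers t).Normal := ⟨fun n hn g => by
        rw [mem_center_iff.1 (e ▸ mem_top n) g]; simpa using hn⟩
      rcases h5.eq_bot_or_eq_top with e1 | e1
      · rw [zpowers_eq_bot] at e1; simp [e1] at h2
      · have := card_le_card_group (centralizer ({t} : Set G))
        rw [hc, ← card_top, ← e1, Nat.card_zpowers, h2] at this
        omega
  · rw [card_top] at h1
    have := orderOf_dvd_natCard t
    rw [h2] at this
    exact (Nat.not_even_iff_odd.2 h1) (even_iff_two_dvd.2 this)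

theorem exists_emb [Finite G] [IsSimpleGroup G] {t : G} (ht : IsTwoCentralInvolution t)
    (E : Subgroup (centralizer ({t} : Set G))) [E.Normal] (hE : Nat.card E = 32)
    (hX : IsExtraspecial 2 E) (e : (centralizer ({t} : Set G)) ⧸ E ≃* alternatingGroup (Fin 5)) :
    ∃ φ, Emb t φ ∧ ∃ g : G, g * t * g⁻¹ ≠ t ∧ g * t * g⁻¹ * t = t * (g * t * g⁻¹) := by
  have mc : ∀ {y : G}, y ∈ centralizer ({t} : Set G) ↔ y * t = t * y :=
    mem_centralizer_singleton_iff
  let t' : centralizer ({t} : Set G) := ⟨t, mc.2 rfl⟩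
  have h : Pre t' E := pre_of t' (by rw [← ht.1]; exact (Subgroup.orderOf_coe t').symm)
    (fun c => Subtype.ext (mc.1 c.2)) E hE hX e
  obtain ⟨g, g1, g2⟩ := exists_other ht h.card_C
  have tt : t * t = 1 := congrArg Subtype.val h.tt
  have t1 : t ≠ 1 := fun e => h.tne (Subtype.ext e)
  have back : ∀ {y g : G}, y * (g * t * g⁻¹) = g * t * g⁻¹ * y → g⁻¹ * y * g * t = t * (g⁻¹ * y * g) :=
    fun {y g} e => by
      calc g⁻¹ * y * g * t = g⁻¹ * (y * (g * t * g⁻¹)) * g := by group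
        _ = _ := by rw [e]; group
  rcases h.NN_cases with hN | hN
  · exfalso
    let u : centralizer ({t} : Set G) := ⟨_, mc.2 g2⟩
    have p4 : ∀ a ∈ E, a * a * (a * a) = 1 := fun a ha => by
      rcases h.sq a ha with e | e <;> rw [e]
      exacts [mul_one _, h.tt]
    refine h.not_ab (u := u) (hN ▸ mem_top u : u ∈ h.NN) fun a ha b hb ea eb => ?_
    have ca : ∀ {a : centralizer ({t} : Set G)}, u * a * u⁻¹ = a →
        g⁻¹ * a * g ∈ centralizer ({t} : Set G) := fun {a} ea =>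
      mc.2 (back (congrArg Subtype.val (mul_inv_eq_iff_eq_mul.1 ea)).symm)
    have p4' : ∀ a ∈ E, g⁻¹ * (a : G) * g * (g⁻¹ * a * g) * (g⁻¹ * a * g * (g⁻¹ * a * g)) = 1 :=
      fun a ha => by
        calc _ = g⁻¹ * ((a : G) * a * (a * a)) * g := by group
          _ = 1 := by rw [show (a : G) * a * (a * a) = 1 from congrArg Subtype.val (p4 a ha)]; simp
    rcases h.comm a ha b hb with e1 | e1
    · exact e1
    rcases h.two_comm hN ⟨_, ca ea⟩ ⟨_, ca eb⟩ (Subtype.ext (p4' a ha)) (Subtype.ext (p4' b hb))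
      (Subtype.ext (by
        refine Eq.trans ?_ (p4' _ (mul_mem ha hb))
        simp only [coe_mul]; group)) with e2 | e2
    · have e3 := congrArg Subtype.val e2
      simp only [coe_mul] at e3
      refine Subtype.ext ?_
      calc (b : G) * a = g * (g⁻¹ * b * g * (g⁻¹ * a * g)) * g⁻¹ := by group
        _ = a * b := by rw [e3]; group
    · exfalso
      have e3 := congrArg Subtype.val e2
      have e4 := congrArg Subtype.val e1
      simp only [coe_mul] at e3 e4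
      apply g1
      calc g * t * g⁻¹ = g * (t * (g⁻¹ * a * g * (g⁻¹ * b * g))) * g⁻¹ * ((a : G) * b)⁻¹ := by group
        _ = b * a * ((a : G) * b)⁻¹ := by rw [← e3]; group
        _ = t := by rw [e4, mul_inv_cancel_right]
  obtain ⟨X, hX⟩ := h.str hN
  rcases hX.split_or with hs | hs
  · obtain ⟨φ, hφ, h0⟩ := hX.exists_hom hs
    refine ⟨(centralizer ({t} : Set G)).subtype.comp φ, ⟨Subtype.val_injective.comp hφ.1, ?_,
      fun y hy => ?_⟩, g, g1, g2⟩
    · simp [h0, t']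
    · obtain ⟨a, ha⟩ := hφ.2 ⟨y, mc.2 hy⟩
      exact ⟨a, by simp [ha]⟩
  exfalso
  have key : ∀ {c : G} (hc : c * t = t * c), c * c = 1 → c ≠ 1 → c ≠ t →
      ∃ k : G, k * t = t * k ∧ k * c * k⁻¹ = X 4 := fun {c} hc h1 h2 h3 => by
    obtain ⟨k, hk⟩ := hX.ns_conj hs (c := ⟨c, mc.2 hc⟩) (Subtype.ext h1)
      (fun e => h2 (congrArg Subtype.val e)) (fun e => h3 (congrArg Subtype.val e))
    exact ⟨k, mc.1 k.2, congrArg Subtype.val hk⟩
  obtain ⟨k, k1, k2⟩ := key g2 (by rw [conj_mul, tt]; simp) (by simpa using t1) g1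
  have x4t : (X 4 : G) * t = t * X 4 := mc.1 (X 4).2
  have e1 : k * g * t * (k * g)⁻¹ = X 4 := by rw [← k2]; group
  obtain ⟨l, l1, l2⟩ := key (c := (k * g)⁻¹ * t * (k * g)) (back (by rw [e1, x4t]))
    (by calc _ = (k * g)⁻¹ * (t * t) * (k * g) := by group
          _ = 1 := by rw [tt]; simp)
    (fun e => t1 (by
      calc t = k * g * ((k * g)⁻¹ * t * (k * g)) * (k * g)⁻¹ := by group
        _ = 1 := by rw [e]; simp)) (fun e => g1 (by
      calc g * t * g⁻¹ = g * ((k * g)⁻¹ * t * (k * g)) * g⁻¹ := by rw [e]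
        _ = k⁻¹ * (t * k) := by group
        _ = t := by rw [← k1]; group))
  -- `n = k g l⁻¹` swaps `t` and `X 4`
  have n1 : k * g * l⁻¹ * t * (k * g * l⁻¹)⁻¹ = X 4 := by
    rw [← e1]
    calc _ = k * g * (l⁻¹ * (t * l)) * (k * g)⁻¹ := by group
      _ = _ := by rw [← l1]; group
  have n2 : k * g * l⁻¹ * X 4 * (k * g * l⁻¹)⁻¹ = t := by rw [← l2]; group
  generalize k * g * l⁻¹ = n at n1 n2
  obtain ⟨y, hy, hy'⟩ := hX.ns_four hs
  have cy : ∀ i, n * y i * n⁻¹ ∈ centralizer ({t} : Set G) := fun i => mc.2 (by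
    have := congrArg (fun z => n * z * n⁻¹) (congrArg Subtype.val (hy i).2)
    simp only [coe_mul] at this
    rwa [← conj_mul, ← conj_mul, n2] at this)
  have ry := fun i => hX.ns_root hs (c := ⟨_, cy i⟩) (Subtype.ext (by
    show n * y i * n⁻¹ * (n * y i * n⁻¹) = X 4
    rw [conj_mul, ← n1]
    exact congrArg (fun z => n * z * n⁻¹) (congrArg Subtype.val (hy i).1)))
  choose a p k hk ek ha hp using ry
  have ne : ∀ i j, i < j → p j ≠ p i := fun i j hij e => hy' i j hij (by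
    have := hX.ns_pair (hk j) (e ▸ hk i) (ha j) (e ▸ ha i) (hp j)
    rw [← ek, ← ek] at this
    have e3 := congrArg Subtype.val this
    simp only [coe_mul, coe_inv, coe_one] at e3
    refine Subtype.ext ?_
    calc (y j : G) * (y i : G)⁻¹ * (y j * (y i : G)⁻¹) = n⁻¹ * (n * y j * n⁻¹ * (n * y i * n⁻¹)⁻¹ *
        (n * y j * n⁻¹ * (n * y i * n⁻¹)⁻¹)) * n := by group
      _ = 1 := by rw [e3]; simp)
  have := ne 0 1 (by decide); have := ne 0 2 (by decide); have := ne 0 3 (by decide)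
  have := ne 1 2 (by decide); have := ne 1 3 (by decide); have := ne 2 3 (by decide)
  have := hp 0; have := hp 1; have := hp 2; have := hp 3
  grind

end Cfsg.Agent.Lib.Jk
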