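import Cfsg.Agent.Lib.Jk.CW

set_option autoImplicit false
set_option maxRecDepth 100000

/-! # The order of `J₃` -/

namespace Cfsg.Agent.Lib.Jk

open Subgroup Cfsg.Agent.Lib.Core
open Cfsg.Agent.Lib.Root.J1 hiding Emb t0 v0 x0 T

def QQ : Subgroup M where
  carrier := {a | a.p ∈ [0, 13, 30, 43]}
  one_mem' := by decide +kernel
  mul_mem' := fun {a b} ha hb => (by decide +kernel : ∀ p ∈ [0, 13, 30, 43], ∀ q ∈ [0, 13, 30, 43],
    pm p q ∈ [0, 13, 30, 43]) _ ha _ hb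
  inv_mem' := fun {a} ha => (by decide +kernel : ∀ p ∈ [0, 13, 30, 43], pi p ∈ [0, 13, 30, 43]) _ ha

instance : DecidablePred (· ∈ QQ) := fun a => inferInstanceAs (Decidable (a.p ∈ [0, 13, 30, 43]))

def FQ (a : M) : ℕ := if a = 1 then 0 else if a * a = 1 then 131 else if a * a * (a * a) = 1 then 7 else 1

theorem QQ_card : (Finset.univ.filter (· ∈ QQ)).card = 128 := by decide +kernel
theorem QQ_sum : ∑ a ∈ Finset.univ.filter (· ∈ QQ), FQ a = 4941 := by decide +kernel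
theorem QQ_eight : ∀ a : M, a ∈ QQ → a * a * (a * a) * (a * a * (a * a)) = 1 := by decide +kernel
theorem cnt4 : ∀ a : M, a * a = t0 → (IL.filter fun b => b * a = a * b).length = 7 := by decide +kernel
theorem cnt8 : ∀ a : M, a * a * (a * a) = t0 → (IL.filter fun b => b * a = a * b).length = 1 := by
  decide +kernel

variable {G : Type*} [Group G] [Finite G]

theorem burnside {A : Type*} [Group A] [Fintype A] (ψ : A →* G) (X : Set G)
    (hX : ∀ g, ∀ x ∈ X, g * x * g⁻¹ ∈ X) :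
    Fintype.card A ∣ ∑ a, {x | x ∈ X ∧ x * ψ a = ψ a * x}.ncard := by
  classical
  letI : MulAction A X :=
    { smul := fun s u => ⟨ψ s * u.1 * (ψ s)⁻¹, hX _ u u.2⟩
      one_smul := fun u => Subtype.ext (by change ψ 1 * u.1 * (ψ 1)⁻¹ = _; simp)
      mul_smul := fun a b u => Subtype.ext (by
        change ψ (a * b) * u.1 * (ψ (a * b))⁻¹ = ψ a * (ψ b * u.1 * (ψ b)⁻¹) * (ψ a)⁻¹
        simp [mul_assoc]) }
  have hs : ∀ (s : A) (u : X), (s • u).1 = ψ s * u.1 * (ψ s)⁻¹ := fun _ _ => rfl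
  have := Fintype.ofFinite X
  have : Fintype (Quotient (MulAction.orbitRel A X)) := Fintype.ofFinite _
  have h1 := MulAction.sum_card_fixedBy_eq_card_orbits_mul_card_group A X
  rw [Finset.sum_congr rfl (g := fun a => {x | x ∈ X ∧ x * ψ a = ψ a * x}.ncard)] at h1
  · exact ⟨_, by rw [h1, mul_comm]⟩
  intro s _
  rw [← Nat.card_coe_set_eq, ← Nat.card_eq_fintype_card]
  exact Nat.card_congr ⟨fun u => ⟨u.1.1, u.1.2, comm_of_conj (congrArg Subtype.val u.2)⟩,
    fun u => ⟨⟨u.1, u.2.1⟩, Subtype.ext (conj_comm' u.2.2)⟩, fun _ => rfl, fun _ => rfl⟩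

theorem dvd_ncard (K : Subgroup G) (d : ℕ) (X : Set G) (hX : ∀ k ∈ K, ∀ x ∈ X, k * x * k⁻¹ ∈ X)
    (hd : ∀ x ∈ X, d ∣ {y | ∃ k ∈ K, k * x * k⁻¹ = y}.ncard) : d ∣ X.ncard := by
  induction hn : X.ncard using Nat.strong_induction_on generalizing X with
  | _ n ih =>
    rcases X.eq_empty_or_nonempty with rfl | ⟨x, hx⟩
    · simp [← hn]
    have hO : {y | ∃ k ∈ K, k * x * k⁻¹ = y} ⊆ X := by rintro _ ⟨k, hk, rfl⟩; exact hX k hk x hx
    have e := Set.ncard_sdiff_add_ncard_of_subset hO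
    have pos : 0 < {y | ∃ k ∈ K, k * x * k⁻¹ = y}.ncard :=
      (Set.ncard_pos).2 ⟨x, 1, one_mem _, by simp⟩
    rw [← hn, ← e]
    refine dvd_add (ih _ (by omega) (X \ {y | ∃ k ∈ K, k * x * k⁻¹ = y}) (fun k hk y hy => And.intro (hX k hk y hy.1) ?_)
      (fun y hy => hd y hy.1) rfl) (hd x hx)
    rintro ⟨l, hl, e1⟩
    exact hy.2 ⟨k⁻¹ * l, mul_mem (inv_mem hk) hl, by
      calc _ = k⁻¹ * (l * x * l⁻¹) * k := by group
        _ = y := by rw [e1]; group⟩

namespace J3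
variable {t : G} {φ : M →* G} {r : G} (h : J3 t φ r)
include h

omit [Finite G] in
theorem fix_eq {y s : G} (hs : Iv s) (hy : ∀ x, x * y = y * x → x * s = s * x) :
    ∃ g a, g * t * g⁻¹ = s ∧ y = g * φ a * g⁻¹ ∧
      {x | Iv x ∧ x * y = y * x}.ncard = (IL.filter fun b => b * a = a * b).length := by
  obtain ⟨g, rfl⟩ := h.ex_conj hs
  have e := h.emb.conj g
  obtain ⟨a, rfl⟩ := e.surj y (hy y rfl)
  refine ⟨g, a, rfl, rfl, e.ncard_list _ _ (nodup_IL.filter _) (fun x hx => hy x hx.2) fun b => ?_⟩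
  rw [e.iv_iff, e.comm_iff, List.mem_filter, decide_eq_true_eq]
  exact and_congr_left' ⟨fun hb => (mem_IL b hb.2).resolve_left hb.1, IL_iv b⟩

omit [Finite G] in
theorem fix2 {y : G} (hy : Iv y) : {x | Iv x ∧ x * y = y * x}.ncard = 131 := by
  obtain ⟨g, a, e1, e2, e3⟩ := h.fix_eq hy fun _ e => e
  rw [e2, conj_inj, ← h.emb.map_t, h.emb.eq_iff] at e1
  rw [e3, ← e1]; decide +kernel

theorem mod128 : ({u : G | Iv u}.ncard + 4941) % 128 = 0 := by
  have := burnside (φ.comp QQ.subtype) {u | Iv u} fun g x hx => Iv.conj hx g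
  rw [Finset.sum_congr rfl (g := fun a : QQ => (if (a : M) = 1 then {u : G | Iv u}.ncard else 0) + FQ a),
    ← Finset.sum_subtype (Finset.univ.filter (· ∈ QQ)) (by simp)
      (fun a => (if a = 1 then {u : G | Iv u}.ncard else 0) + FQ a), Finset.sum_add_distrib, QQ_sum,
    Finset.sum_ite_eq', if_pos (by simp), Fintype.card_subtype, QQ_card] at this
  · omega
  rintro ⟨a, ha⟩ -
  simp only [MonoidHom.comp_apply, subtype_apply, Set.mem_ofPred_eq, FQ]
  split_ifs with h1 h2 h3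
  · simp [h1]
  · rw [h.fix2 (h.emb.iv_iff.2 ⟨h1, h2⟩)]
  · obtain ⟨g, b, e1, e2, e3⟩ := h.fix_eq (y := φ a) (h.emb.iv_iff.2 ⟨h2, h3⟩) fun x e => by
      rw [map_mul]; exact Commute.mul_right e e
    rw [map_mul, e2, conj_mul, conj_inj, ← map_mul, ← h.emb.map_t, h.emb.eq_iff] at e1
    rw [e3, cnt4 b e1.symm]
  · obtain ⟨g, b, e1, e2, e3⟩ := h.fix_eq (y := φ a) (h.emb.iv_iff.2 ⟨h3, QQ_eight a ha⟩) fun x e => by
      rw [map_mul, map_mul]; exact Commute.mul_right (Commute.mul_right e e) (Commute.mul_right e e)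
    rw [map_mul, map_mul, e2, conj_mul, conj_mul, conj_inj, ← map_mul, ← map_mul, ← h.emb.map_t,
      h.emb.eq_iff] at e1
    rw [e3, cnt8 b e1.symm]

end J3

namespace D3
variable {t : G} {φ : M →* G} {r u w : G} (h : D3 t φ r u w)
include h

theorem Cv {v x : G} (hv : v ∈ h.W) (v1 : v ≠ 1) (e : x * v = v * x) : x ∈ PP φ w := by
  obtain ⟨n, hn, -, rfl⟩ := h.trans hv v1
  have h1 : n⁻¹ * x * n ∈ PP φ w := h.Cw ▸ mc.2 (back e)
  refine ⟨by simpa [mul_assoc] using mul_mem (mul_mem hn h1.1) (inv_mem hn), mc.2 ?_⟩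
  simpa [mul_assoc] using comm_conj n (h.P_W h1 (h.normW (inv_mem hn) h.wW))

theorem mod81 : ∃ m, m * 243 = Nat.card G ∧ m % 81 = 8 := by
  have sub : (h.W : Set G) \ {1} ⊆ {y | IsConj w y} := fun y hy => by
    obtain ⟨n, -, -, e⟩ := h.trans hy.1 hy.2
    exact isConj_iff.2 ⟨n, e⟩
  refine ⟨{y | IsConj w y}.ncard, by
    rw [← h.card_P, ← h.Cw, ← Invol.card_conj_mul_card_centralizer w, ← Nat.card_coe_set_eq]; rfl, ?_⟩
  have e := Set.ncard_sdiff_add_ncard_of_subset sub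
  rw [Set.ncard_sdiff_singleton_of_mem (one_mem _), ← card_eq_ncard, h.card_W] at e
  have := dvd_ncard (PP φ w) 81 ({y | IsConj w y} \ ((h.W : Set G) \ {1}))
    (fun k hk x hx => ⟨IsConj.trans hx.1 (isConj_iff.2 ⟨k, rfl⟩), fun e => hx.2 ⟨by
      simpa [mul_assoc] using h.normW (inv_mem hk.1) e.1, fun e1 => e.2 (by simp [show x = 1 from e1])⟩⟩)
    fun x hx => ?_
  · omega
  obtain ⟨g, rfl⟩ := isConj_iff.1 hx.1
  have k1 : ∀ v ∈ h.W, g * w * g⁻¹ * v = v * (g * w * g⁻¹) → v = 1 := fun v hv e => by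
    by_contra v1
    have := h.cube_ne (h.Cv hv v1 e) (by rw [conj_mul, conj_mul, h.w3]; simp)
    refine hx.2 ⟨?_, by simpa using h.w1⟩
    by_contra e1
    exact h.notA_w ((h.isA_iff this).2 e1).of_conj
  have k2 : PP φ w ⊓ centralizer {g * w * g⁻¹} ≤ TT φ w := fun p hp => by
    by_cases e : p * p * p ∈ h.W
    · exact h.cube_ne hp.1 (k1 _ e (mc.1 (mul_mem (mul_mem hp.2 hp.2) hp.2)).symm)
    · exact h.TW_cent (h.cube_mem hp.1) e h.wW h.w1 (by group) (mc.1 hp.1.2)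
  have hn : PP φ w ⊓ centralizer {g * w * g⁻¹} ≤ normalizer (h.W : Set G) :=
    fun p hp => mem_normalizer_of_conj_mem fun _ => h.normW hp.1.1
  have c1 := card_sup_mul_card_inf hn
  have c2 := card_le_of_le (sup_le k2 h.W_le)
  have c3 := card_eq_orbit_mul (PP φ w) (g * w * g⁻¹)
  have c4 := dvd27 (h.card_T ▸ card_dvd_of_le k2)
  rw [show PP φ w ⊓ centralizer {g * w * g⁻¹} ⊓ h.W = ⊥ from eq_bot_iff.2 fun v hv =>
    k1 v hv.2 (mc.1 hv.1.2).symm, card_bot, h.card_W] at c1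
  rw [h.card_T] at c2
  rw [h.card_P] at c3
  rcases c4 with e | e | e | e <;> rw [e] at c1 c3 <;> omega

theorem inv_le {y : G} (y1 : y ≠ 1) (hy : orderOf y ∣ 2880) :
    {s | Iv s ∧ s * y * s⁻¹ = y⁻¹}.ncard ≤ 360 * orderOf y := by
  obtain ⟨q, hq, k, hk⟩ := Nat.exists_prime_and_dvd (orderOf_eq_one_iff.not.2 y1)
  have pos := orderOf_pos y
  have k0 : 0 < k := Nat.pos_of_ne_zero (by rintro rfl; omega)
  have o : orderOf (y ^ k) = q := by
    rw [orderOf_pow' y k0.ne', hk, Nat.gcd_mul_left_left, Nat.mul_div_cancel _ k0]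
  have le : {s | Iv s ∧ s * y * s⁻¹ = y⁻¹}.ncard ≤ {s | Iv s ∧ s * y ^ k * s⁻¹ = (y ^ k)⁻¹}.ncard :=
    Set.ncard_le_ncard fun s hs => ⟨hs.1, Invol.conj_pow_of_inverts hs.2 k⟩
  have le2 := ncard_inv_le (y ^ k)
  have le3 : q ≤ orderOf y := hk ▸ Nat.le_mul_of_pos_right q k0
  generalize y ^ k = z at o le le2
  have d : q ∣ 2 ^ 6 * 3 ^ 2 * 5 := Dvd.dvd.trans ⟨k, hk⟩ hy
  rcases (Nat.Prime.dvd_mul hq).1 d with d | d
  · rcases (Nat.Prime.dvd_mul hq).1 d with d | d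
    · obtain rfl := (Nat.prime_dvd_prime_iff_eq hq Nat.prime_two).1 (hq.dvd_of_dvd_pow d)
      have iz : Iv z := (Invol.orderOf_two_iff.1 o).symm
      have := h.fix2 iz
      rw [show {s | Iv s ∧ s * z * s⁻¹ = z⁻¹} = {s | Iv s ∧ s * z = z * s} by
        simp only [iz.inv, mul_inv_eq_iff_eq_mul]] at le
      omega
    · obtain rfl := (Nat.prime_dvd_prime_iff_eq hq Nat.prime_three).1 (hq.dvd_of_dvd_pow d)
      rcases h.three_class (y := z) (by rw [← pow_three', ← o, pow_orderOf_eq_one])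
        (by rintro rfl; simp at o) with ⟨g, rfl⟩ | ⟨g, rfl⟩ <;> rw [card_cent_conj] at le2
      · rw [h.card_X.1] at le2; omega
      · rw [h.Cw, h.card_P] at le2; omega
  · obtain rfl := (Nat.prime_dvd_prime_iff_eq hq Nat.prime_five).1 d
    rw [(h.five_all o).1] at le2; omega

theorem bound : {s : G | Iv s}.ncard ≤ 3117957 := by
  classical
  set H := normalizer (AA t φ : Set G)
  have := Fintype.ofFinite H
  have b := bender H
  have cH : Nat.card H = 2880 := h.card_H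
  have b2 := Finset.sum_le_card_nsmul ((Finset.univ : Finset H).erase 1)
    (fun y => ({u : G | Iv u ∧ u * y * u⁻¹ = (y : G)⁻¹}.ncard : ℚ) / orderOf y) 360 fun y hy => by
      rw [div_le_iff₀ (by exact_mod_cast orderOf_pos y), ← Subgroup.orderOf_coe]
      exact_mod_cast h.inv_le (fun e => Finset.ne_of_mem_erase hy (Subtype.ext e))
        (cH ▸ orderOf_dvd_natCard _ y.2)
  rw [Finset.card_erase_of_mem (Finset.mem_univ _), Finset.card_univ, ← Nat.card_eq_fintype_card,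
    cH, nsmul_eq_mul] at b2
  have b3 : {u : G | Iv u ∧ u ∉ H}.ncard + 1 ≤ H.index + 2879 * 360 := by
    have := b.trans (add_le_add_right b2 _)
    exact_mod_cast this
  have b4 := ncard_split (fun u : G => Iv u) (· ∈ H)
  have b5 : {u : G | Iv u ∧ u ∈ H}.ncard ≤ 2880 := by
    rw [← cH, card_eq_ncard]; exact Set.ncard_le_ncard fun u hu => hu.2
  have b6 := H.index_mul_card
  rw [cH, ← h.card_G] at b6
  omega

omit h in
theorem arith {j m : ℕ} (m5 : j % 5 = 3 % 5) (m2 : (j + 4941) % 128 = 0) (m3 : m * 243 = j * 1920)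
    (m4 : m % 81 = 8) (b : j ≤ 3117957) : j = 26163 := by
  obtain ⟨i, rfl⟩ : ∃ i, j = 640 * i + 563 := ⟨j / 640, by clear m3 m4 b; omega⟩
  have hi : i < 4872 := by clear m3 m4 m5 m2; omega
  have hm : m = (640 * i + 563) * 1920 / 243 := by rw [← m3, Nat.mul_div_cancel _ (by decide)]
  have := (by decide +kernel : ∀ i < 4872, (640 * i + 563) * 1920 % 243 = 0 →
    (640 * i + 563) * 1920 / 243 % 81 = 8 → i = 40) i hi (by rw [← m3, Nat.mul_mod_left]) (hm ▸ m4)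
  rw [this]

theorem card_G3 : Nat.card G = 50232960 := by
  haveI : Fact (Nat.Prime 5) := ⟨Nat.prime_five⟩
  obtain ⟨f, f5, -, f2, -⟩ := h.cf
  have m5 := ncard_modEq_prime Nat.prime_five f5 {s | Iv s} fun x hx => Iv.conj hx f
  simp only [Set.mem_ofPred_eq] at m5
  rw [f2, Nat.ModEq] at m5
  have m2 := h.mod128
  obtain ⟨m, m3, m4⟩ := h.mod81
  have b := h.bound
  rw [← h.card_G] at m3 ⊢
  rw [arith m5 m2 m3 m4 b]

end D3

theorem J3.card_eq {t : G} {φ : M →* G} {r : G} (h : J3 t φ r) : Nat.card G = 50232960 := by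
  obtain ⟨u, w, h⟩ := h.exists_D3
  exact h.card_G3

end Cfsg.Agent.Lib.Jk
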