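import Cfsg.Agent.Lib.Jk.Base

set_option autoImplicit false
set_option maxRecDepth 100000

/-! # The normaliser of the elementary abelian subgroup of order 16 -/

namespace Cfsg.Agent.Lib.Jk

open Subgroup Cfsg.Agent.Lib.Core
open Cfsg.Agent.Lib.Root.J1 hiding Emb t0 v0 x0 T

variable {G : Type*} [Group G]

theorem exists_core [Finite G] {B H : Subgroup G} (hB : B ≤ H) : ∃ K, K ≤ B ∧
    H ≤ normalizer (K : Set G) ∧ K.relIndex H ∣ (B.relIndex H).factorial := by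
  classical
  have := Fintype.ofFinite (H ⧸ B.subgroupOf H)
  refine ⟨(B.subgroupOf H).normalCore.map H.subtype, ?_, fun g hg => ?_, ?_⟩
  · rintro _ ⟨k, hk, rfl⟩
    exact (B.subgroupOf H).normalCore_le hk
  · refine mem_normalizer_of_conj_mem ?_
    rintro _ ⟨k, hk, rfl⟩
    exact ⟨_, (normalCore_normal _).conj_mem k hk ⟨g, hg⟩, rfl⟩
  · rw [relIndex, subgroupOf, comap_map_eq_self_of_injective H.subtype_injective, normalCore_eq_ker,
      index_ker, relIndex, index, Nat.card_eq_fintype_card (α := _ ⧸ _), ← Fintype.card_perm,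
      ← Nat.card_eq_fintype_card]
    exact card_subgroup_dvd_card _

def AA (t : G) (φ : M →* G) : Subgroup G := centralizer {t} ⊓ centralizer {φ v1}

def UU (φ : M →* G) : Subgroup G where
  carrier := {y | ∃ a ∈ UL, φ a = y}
  one_mem' := ⟨1, by decide +kernel, map_one φ⟩
  mul_mem' := by
    rintro _ _ ⟨a, ha, rfl⟩ ⟨b, hb, rfl⟩
    exact ⟨a * b, (by decide +kernel : ∀ a ∈ UL, ∀ b ∈ UL, a * b ∈ UL) a ha b hb, map_mul φ a b⟩
  inv_mem' := by
    rintro _ ⟨a, ha, rfl⟩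
    exact ⟨a⁻¹, (by decide +kernel : ∀ a ∈ UL, a⁻¹ ∈ UL) a ha, map_inv φ a⟩

theorem mem_AA {t : G} {φ : M →* G} {y : G} :
    y ∈ AA t φ ↔ y * t = t * y ∧ y * φ v1 = φ v1 * y := by
  simp [AA, mc]

namespace Base
variable {t : G} {φ : M →* G} {r : G} (h : Base t φ r)
include h

theorem etx : φ tx = t * φ x4 := by rw [← h.emb.map_t, ← map_mul]; rfl

theorem rtx : r * φ tx * r⁻¹ = t := by
  rw [h.etx, ← conj_mul, h.rt, h.rx, ← map_mul, ← h.emb.map_t]; congr 1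

theorem isConj_x : IsConj t (φ x4) := isConj_iff.2 ⟨r, h.rt⟩

theorem mem_UU {y : G} : y ∈ UU φ ↔ y = 1 ∨ y = t ∨ y = φ x4 ∨ y = φ tx := by
  show (∃ a ∈ UL, φ a = y) ↔ _
  simp [UL, h.emb.map_t, eq_comm]

theorem mem_UU' {a : M} : φ a ∈ UU φ ↔ a ∈ UL :=
  ⟨fun ⟨_, hb, e⟩ => h.emb.inj e ▸ hb, fun ha => ⟨a, ha, rfl⟩⟩

theorem mem_AA' {y : G} : y ∈ AA t φ ↔ ∃ a ∈ AL, φ a = y :=
  ⟨fun hy => h.emb.memA (mem_AA.1 hy).1 (mem_AA.1 hy).2, by
    rintro ⟨a, ha, rfl⟩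
    exact mem_AA.2 ⟨h.emb.comm a, h.emb.comm_iff.2 (AL_comm a ha).2.2.1⟩⟩

theorem mem_AA'' {a : M} : φ a ∈ AA t φ ↔ a * v1 = v1 * a := by
  rw [mem_AA, h.emb.comm_iff]; simp [h.emb.comm]

theorem card_AA : Nat.card (AA t φ) = 16 := by
  rw [card_eq_ncard]
  exact h.emb.ncard_list _ AL (by decide +kernel) (fun g hg => (mem_AA.1 hg).1) fun a =>
    h.mem_AA''.trans ⟨mem_AL a, fun ha => (AL_comm a ha).2.2.1⟩

theorem r_ne : r ≠ 1 := fun e => by
  have := h.rt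
  rw [e, ← h.emb.map_t] at this
  simp only [one_mul, inv_one, mul_one, h.emb.eq_iff] at this
  exact absurd this (by decide +kernel)

theorem rU {y : G} (hy : y ∈ UU φ) : r * y * r⁻¹ ∈ UU φ := by
  rw [h.mem_UU] at hy ⊢
  rcases hy with rfl | rfl | rfl | rfl <;> simp [h.rt, h.rx, h.rtx]

theorem rU_fix {y : G} (hy : y ∈ UU φ) (e : r * y * r⁻¹ = y) : y = 1 := by
  rcases h.mem_UU.1 hy with rfl | rfl | rfl | rfl
  · rfl
  · rw [h.rt, ← h.emb.map_t, h.emb.eq_iff] at e; exact absurd e (by decide +kernel)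
  · rw [h.rx, h.emb.eq_iff] at e; exact absurd e (by decide +kernel)
  · rw [h.rtx, ← h.emb.map_t, h.emb.eq_iff] at e; exact absurd e (by decide +kernel)

theorem rV {v : M} (hv : v ∈ [1, v1, v3, v1 * v3]) : r * φ v = φ v * r := by
  have h3 : r * φ v3 = φ v3 * r := by
    rw [show v3 = sg * v1 * sg⁻¹ by decide +kernel, map_mul, map_mul, map_inv]
    exact (Commute.mul_right (Commute.mul_right h.rs h.rv) (Commute.inv_right h.rs) :)
  simp only [List.mem_cons, List.not_mem_nil, or_false] at hv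
  rcases hv with rfl | rfl | rfl | rfl
  · simp
  · exact h.rv
  · exact h3
  · rw [map_mul]; exact (Commute.mul_right h.rv h3 :)

theorem U_le_A : UU φ ≤ AA t φ := by
  rintro _ ⟨a, ha, rfl⟩
  exact h.mem_AA''.2 ((by decide +kernel : ∀ a ∈ UL, a * v1 = v1 * a) a ha)

theorem normU {n : G} (hn : n * t * n⁻¹ ∈ UU φ) :
    ∃ a, n = φ a ∨ n = r * φ a ∨ n = r * r * φ a := by
  have key : ∀ s : G, s * t * s⁻¹ = n * t * n⁻¹ → ∃ a, n = s * φ a := fun s e => by
    obtain ⟨a, ha⟩ := h.emb.surj (s⁻¹ * n) (comm_of_conj (by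
      calc _ = s⁻¹ * (n * t * n⁻¹) * s := by group
        _ = t := by rw [← e]; group)).symm
    exact ⟨a, by rw [ha]; group⟩
  rcases h.mem_UU.1 hn with e | e | e | e
  · exact absurd e (h.emb.iv.conj n).1
  · obtain ⟨a, ha⟩ := key 1 (by simp [e]); exact ⟨a, .inl (by simpa using ha)⟩
  · obtain ⟨a, ha⟩ := key r (by rw [e, h.rt]); exact ⟨a, .inr (.inl ha)⟩
  · obtain ⟨a, ha⟩ := key (r * r) (by rw [e, ← h.rx, ← h.rt]; group); exact ⟨a, .inr (.inr ha)⟩

variable [Finite G]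

theorem r_normU : r ∈ normalizer (UU φ : Set G) := mem_normalizer_of_conj_mem fun _ => h.rU

theorem r_normA : r ∈ normalizer (AA t φ : Set G) := mem_normalizer_of_conj_mem fun y hy => by
  obtain ⟨a, ha, rfl⟩ := h.mem_AA'.1 hy
  obtain ⟨u, hu, v, hv, rfl⟩ := AL_dec a ha
  rw [map_mul, ← conj_mul, conj_comm' (h.rV hv).symm]
  exact mul_mem (h.U_le_A (h.rU ⟨u, hu, rfl⟩))
    (h.mem_AA''.2 ((by decide +kernel : ∀ a ∈ [1, v1, v3, v1 * v3], a * v1 = v1 * a) v hv))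

theorem normA_iff {a : M} : φ a ∈ normalizer (AA t φ : Set G) ↔ a * x4 = x4 * a := by
  refine ⟨fun ha => ?_, fun ha => mem_normalizer_of_conj_mem fun y hy => ?_⟩
  · have : ∀ b, b * v1 = v1 * b → a * b * a⁻¹ * v1 = v1 * (a * b * a⁻¹) := fun b hb =>
      h.mem_AA''.1 (by simpa using conj_mem_of_mem_normalizer ha (h.mem_AA''.2 hb))
    exact norm_AL' a (this x4 (by decide +kernel)) (this v1 rfl)
  · obtain ⟨b, hb, rfl⟩ := h.mem_AA'.1 hy
    simpa using h.mem_AA''.2 (norm_AL a ha b hb)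

theorem normU_of {a : M} (ha : a * x4 = x4 * a) : φ a ∈ normalizer (UU φ : Set G) :=
  mem_normalizer_of_conj_mem fun y hy => by
    have : φ a * y = y * φ a := by
      rcases h.mem_UU.1 hy with rfl | rfl | rfl | rfl
      · simp
      · exact h.emb.comm a
      · exact h.emb.comm_iff.2 ha
      · rw [h.etx]; exact (Commute.mul_right (h.emb.comm a) (h.emb.comm_iff.2 ha) :)
    rwa [conj_comm' this.symm]

theorem card_inf {K : Subgroup G} (hK : ∀ a, φ a ∈ K ↔ a * x4 = x4 * a) :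
    Nat.card (K ⊓ centralizer ({t} : Set G) : Subgroup G) = 192 := by
  rw [card_eq_ncard, ← card_cx]
  exact h.emb.ncard _ _ (fun g hg => mc.1 hg.2) fun a =>
    ⟨fun ha => (hK a).1 ha.1, fun ha => ⟨(hK a).2 ha, mc.2 (h.emb.comm a)⟩⟩

theorem card_B : Nat.card (normalizer (AA t φ : Set G) ⊓ normalizer (UU φ : Set G) : Subgroup G)
    = 576 := by
  have hr : r ∈ normalizer (AA t φ : Set G) ⊓ normalizer (UU φ : Set G) := ⟨h.r_normA, h.r_normU⟩
  rw [card_eq_orbit_mul _ t, h.card_inf fun a => ⟨fun ha => h.normA_iff.1 (mem_inf.1 ha).1,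
    fun ha => mem_inf.2 ⟨h.normA_iff.2 ha, h.normU_of ha⟩⟩,
    show {y | ∃ k ∈ normalizer (AA t φ : Set G) ⊓ normalizer (UU φ : Set G), k * t * k⁻¹ = y} =
      {φ t0, φ x4, φ tx} from ?_, Set.ncard_eq_three.2 ⟨_, _, _, ?_, ?_, ?_, rfl⟩]
  iterate 3 rw [Ne, h.emb.eq_iff]; decide +kernel
  ext y
  rw [h.emb.map_t]
  constructor
  · rintro ⟨k, hk, rfl⟩
    exact (h.mem_UU.1 (conj_mem_of_mem_normalizer hk.2 (h.mem_UU.2 (.inr (.inl rfl))))).resolve_left
      (h.emb.iv.conj k).1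
  · rintro (rfl | rfl | rfl)
    · exact ⟨1, one_mem _, by simp⟩
    · exact ⟨r, hr, h.rt⟩
    · exact ⟨r * r, mul_mem hr hr, by rw [← h.rx, ← h.rt]; group⟩

end Base

/-- one class of involutions -/
structure J3 (t : G) (φ : M →* G) (r : G) : Prop extends Base t φ r where
  one : ∀ u, Iv u → IsConj t u

namespace J3
variable {t : G} {φ : M →* G} {r : G} (h : J3 t φ r)
include h

theorem ex_conj {u : G} (hu : Iv u) : ∃ g, g * t * g⁻¹ = u := isConj_iff.1 (h.one u hu)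

theorem threeA {s y : G} (hs : Iv s) (h3 : y * y * y = 1) (h1 : y ≠ 1) (hc : y * s = s * y) :
    ∃ g, g * t * g⁻¹ = s ∧ g * φ sg * g⁻¹ = y := by
  obtain ⟨g, rfl⟩ := h.ex_conj hs
  obtain ⟨a, ha⟩ := h.emb.surj _ (back hc)
  have e : y = g * φ a * g⁻¹ := by rw [ha]; group
  subst e
  rcases three_cases a (h.emb.eq_one.1 (by
    rwa [conj_mul, conj_mul, conj_eq_one_iff, ← map_mul, ← map_mul] at h3)) with rfl | ⟨c, -, rfl⟩
  · simp at h1
  · exact ⟨g * φ c, by rw [mul_assoc g, h.emb.comm]; group, by simp [mul_assoc]⟩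

theorem swapv : ∃ n, n * t * n⁻¹ = φ v1 ∧ n * φ v1 * n⁻¹ = t := by
  obtain ⟨g, hg⟩ := h.ex_conj (h.emb.iv_iff.2 (by decide +kernel : v1 ≠ 1 ∧ v1 * v1 = 1))
  exact h.emb.swap_v hg

variable [Finite G]

theorem swap_mem {n : G} (n1 : n * t * n⁻¹ = φ v1) (n2 : n * φ v1 * n⁻¹ = t) :
    n ∈ normalizer (AA t φ : Set G) := mem_normalizer_of_conj_mem fun y hy => by
  rw [mem_AA] at hy ⊢
  exact ⟨by rw [← n2]; exact comm_conj n hy.2, by rw [← n1]; exact comm_conj n hy.1⟩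

theorem card_H : Nat.card (normalizer (AA t φ : Set G)) = 2880 := by
  obtain ⟨n, n1, n2⟩ := h.swapv
  have hn := h.swap_mem n1 n2
  have hr := h.r_normA
  rw [card_eq_orbit_mul _ t, h.card_inf fun a => h.normA_iff,
    show {y | ∃ k ∈ normalizer (AA t φ : Set G), k * t * k⁻¹ = y} = (AA t φ : Set G) \ {1} from ?_,
    Set.ncard_sdiff_singleton_of_mem (one_mem _), ← card_eq_ncard, h.card_AA]
  ext y
  constructor
  · rintro ⟨k, hk, rfl⟩
    exact ⟨conj_mem_of_mem_normalizer hk (h.U_le_A (h.mem_UU.2 (.inr (.inl rfl)))),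
      (h.emb.iv.conj k).1⟩
  · rintro ⟨hy, hy1⟩
    obtain ⟨a, ha, rfl⟩ := h.mem_AA'.1 hy
    rcases AL_cases a ha with e | ⟨c, -, c1, rfl⟩
    · rcases h.mem_UU.1 (h.mem_UU'.2 e) with e | e | e | e <;> rw [e]
      · exact absurd e hy1
      · exact ⟨1, one_mem _, by simp⟩
      · exact ⟨r, hr, h.rt⟩
      · exact ⟨r * r, mul_mem hr hr, by rw [← h.rx, ← h.rt]; group⟩
    · exact ⟨φ c * n, mul_mem (h.normA_iff.2 c1) hn, by simp [← n1, mul_assoc]⟩

theorem core_iv {K : Subgroup G}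
    (hK : K ≤ normalizer (AA t φ : Set G) ⊓ normalizer (UU φ : Set G))
    (hn : normalizer (AA t φ : Set G) ≤ normalizer (K : Set G)) {z : G} (hz : z ∈ K)
    (h3 : orderOf z = 3) : ∃ s, Iv s ∧ z * s = s * z := by
  obtain ⟨n, n1, n2⟩ := h.swapv
  have hn' := h.swap_mem n1 n2
  set q : M := ⟨0, 3⟩ with hq
  have q1 : q * x4 = x4 * q := by decide +kernel
  have qH := h.normA_iff.2 q1
  have cU : ∀ y, (∀ u ∈ UU φ, y * u = u * y) ↔ ∃ a, φ a = y ∧ a * x4 = x4 * a := fun y => by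
    refine ⟨fun hy => ?_, ?_⟩
    · obtain ⟨a, rfl⟩ := h.emb.surj y (hy t (h.mem_UU.2 (by simp)))
      exact ⟨a, rfl, h.emb.comm_iff.1 (hy _ (h.mem_UU.2 (by simp)))⟩
    · rintro ⟨a, rfl, ha⟩ u hu
      rcases h.mem_UU.1 hu with rfl | rfl | rfl | rfl
      · simp
      · exact h.emb.comm a
      · exact h.emb.comm_iff.2 ha
      · rw [h.etx]; exact (Commute.mul_right (h.emb.comm a) (h.emb.comm_iff.2 ha) :)
  obtain ⟨a, ea, a1⟩ := (cU (z * φ q * z⁻¹)).1 fun u hu => by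
    have := comm_conj z ((cU _).2 ⟨q, rfl, q1⟩ _ (conj_mem_of_mem_normalizer' (hK hz).2 hu))
    simpa [mul_assoc] using this
  have a2 := h.mem_UU'.2 (Q_act a a1 (h.emb.eq_one.1 (by
    rw [map_mul, map_mul, ea, conj_mul, conj_mul, conj_eq_one_iff, ← map_mul, ← map_mul, h.emb.eq_one]
    decide +kernel)))
  rw [← hq] at a2
  have kK : φ (a * q⁻¹) ∈ K := by
    rw [map_mul, ea, map_inv, mul_assoc, mul_assoc, ← mul_assoc (φ q)]
    exact mul_mem hz (conj_mem_of_mem_normalizer (hn qH) (inv_mem hz))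
  have kA : φ (a * q⁻¹) ∈ AA t φ := by
    generalize a * q⁻¹ = k at a2 kK
    have k1 := conj_mem_of_mem_normalizer (hK (conj_mem_of_mem_normalizer' (hn hn') kK)).2
      (h.mem_UU.2 (.inr (.inl rfl)))
    have k2 : φ k * φ v1 * (φ k)⁻¹ = n * (n⁻¹ * φ k * n * t * (n⁻¹ * φ k * n)⁻¹) * n⁻¹ := by
      rw [← n1]; group
    have k3 : ∀ u ∈ UU φ, n * u * n⁻¹ ∈ UU φ → u = 1 := fun u hu hu' => by
      have s1 : φ sg * u = u * φ sg := (cU _).2 ⟨sg, rfl, by decide +kernel⟩ u hu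
      have s2 := comm_conj n s1
      have s3 := comm_conj n (h.emb.comm sg)
      rw [n1] at s3
      rcases h.mem_UU.1 hu' with e | e | e | e
      · simpa using e
      all_goals exfalso; rw [e] at s2
      · exact h.emb.sg_sq n (h.emb.sqA s2 s3)
      · exact h.emb.sg_sq n (h.emb.sqA (h.emb.cxv h.isConj_x s2 s3) s3)
      · have s4 := comm_conj r s3
        rw [conj_comm' h.rv.symm] at s4
        refine h.emb.sg_sq (r * n) ?_
        have := h.emb.sqA (y := r * (n * φ sg * n⁻¹) * r⁻¹) (by rw [← h.rtx]; exact comm_conj r s2) s4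
        simpa [mul_assoc] using this
    have k4 := k3 _ (mul_mem (h.mem_UU.2 (.inr (.inl rfl))) k1) (by
      rw [← conj_mul, n1, ← k2]; simpa using a2)
    rw [← h.emb.iv.cancel (n⁻¹ * φ k * n * t * (n⁻¹ * φ k * n)⁻¹), k4, mul_one, n1] at k2
    exact mem_AA.2 ⟨h.emb.comm k, (comm_of_conj k2).symm⟩
  obtain ⟨y, ⟨b, hb, rfl⟩, e⟩ := exists_fixed Nat.prime_three h3 ((· * φ q) '' (AA t φ : Set G))
    (by
      rintro _ ⟨b, hb, rfl⟩
      refine ⟨z * b * z⁻¹ * φ (a * q⁻¹), mul_mem (conj_mem_of_mem_normalizer (hK hz).1 hb) kA, ?_⟩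
      simp only [map_mul, ea, map_inv]; group)
    (by rw [Set.ncard_image_of_injective _ (mul_left_injective _), ← card_eq_ncard, h.card_AA]; decide)
  replace hb := h.mem_AA'.1 hb
  obtain ⟨b, hb, rfl⟩ := hb
  have : ∀ b ∈ AL, b * q ≠ 1 ∧ b * q * (b * q) * (b * q * (b * q)) = 1 := by decide +kernel
  simp only [← map_mul] at e
  obtain ⟨s, hs, e2⟩ := iv_of_four (y := φ (b * q)) (by rw [Ne, h.emb.eq_one]; exact (this b hb).1)
    (by rw [← map_mul, ← map_mul, (this b hb).2, map_one])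
  exact ⟨s, hs, e2 z e.symm⟩

theorem five : 5 ∣ Nat.card (centralizer ({φ sg} : Set G)) := by
  obtain ⟨K, hK, hn, hi⟩ := exists_core
    (inf_le_left : normalizer (AA t φ : Set G) ⊓ normalizer (UU φ : Set G) ≤ _)
  have e1 := card_mul_relIndex
    (inf_le_left : normalizer (AA t φ : Set G) ⊓ normalizer (UU φ : Set G) ≤ _)
  have e2 := card_mul_relIndex (hK.trans inf_le_left)
  have e3 := card_dvd_of_le hK
  rw [h.card_B, h.card_H] at *
  rw [show relIndex (_ ⊓ _) _ = 5 by omega, show Nat.factorial 5 = 120 by decide] at hi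
  haveI : Fact (Nat.Prime 3) := ⟨Nat.prime_three⟩
  haveI : Fact (Nat.Prime 5) := ⟨Nat.prime_five⟩
  have k3 : 3 ∣ Nat.card K := by
    by_contra e
    have : 9 ∣ Nat.card K * K.relIndex (normalizer (AA t φ : Set G)) := by omega
    have := (Nat.Coprime.dvd_of_dvd_mul_left (Nat.Coprime.pow_left 2
      ((Nat.Prime.coprime_iff_not_dvd Nat.prime_three).2 e)) this).trans hi
    omega
  obtain ⟨S, hS⟩ := exists_isSyl 3 K
  have e4 := hS.frattini_sup (hK.trans inf_le_left) hn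
  have e5 := card_sup_dvd (H := normalizer (AA t φ : Set G) ⊓ normalizer (S : Set G)) (N := K)
    (inf_le_left.trans hn)
  rw [sup_comm, e4, h.card_H] at e5
  have e6 : 5 ∣ Nat.card (normalizer (AA t φ : Set G) ⊓ normalizer (S : Set G) : Subgroup G) :=
    ((Nat.Prime.dvd_mul Nat.prime_five).1 (Dvd.dvd.trans (by decide) e5)).resolve_right fun e => by
      have := e.trans e3; omega
  obtain ⟨⟨f, hf⟩, f5⟩ := exists_prime_orderOf_dvd_card' 5 e6
  rw [← Subgroup.orderOf_coe] at f5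
  have s9 : Nat.card S = 3 ∨ Nat.card S = 9 := by
    obtain ⟨k, hk⟩ := hS.isPGroup.exists_card_eq
    have h1 := (card_dvd_of_le hS.le).trans e3
    have h2 := dvd_card_of_isPGroup_of_ne_bot hS.isPGroup (hS.ne_bot k3)
    rw [hk] at h1 h2 ⊢
    rcases k with _ | _ | _ | k
    · simp at h2
    · simp
    · simp
    · exfalso
      have : 27 ∣ 576 := Dvd.dvd.trans ⟨3 ^ k, by ring⟩ h1
      omega
  obtain ⟨z, ⟨hz, z1⟩, e⟩ := exists_fixed Nat.prime_five f5 ((S : Set G) \ {1})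
    (fun x hx => ⟨conj_mem_of_mem_normalizer hf.2 hx.1, by simpa using hx.2⟩)
    (by rw [Set.ncard_sdiff_singleton_of_mem (one_mem _), ← card_eq_ncard]; omega)
  obtain ⟨⟨y, hy⟩, y3⟩ := exists_prime_orderOf_dvd_card' 3 (dvd_card_of_isPGroup_of_ne_bot
    (isPGroup_zpowers_of_mem hS.isPGroup hz) (by simpa using z1))
  rw [← Subgroup.orderOf_coe] at y3
  obtain ⟨s, hs, e2⟩ := h.core_iv hK hn (hS.le (zpowers_le.2 hz hy)) y3
  obtain ⟨g, -, e3⟩ := h.threeA hs (by rw [← pow_three', ← y3, pow_orderOf_eq_one])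
    (by rintro rfl; simp at y3) e2
  rw [← card_cent_conj g, e3, ← f5]
  exact orderOf_dvd_natCard _ (mc.2 (comm_of_mem_zpowers hy e.symm))

end J3

end Cfsg.Agent.Lib.Jk
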