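import Cfsg.Agent.Lib.Jk.AB
import Cfsg.Agent.Lib.Glaub.Burnside
import Cfsg.Agent.S0213

set_option autoImplicit false
set_option maxRecDepth 100000

/-! # The order of `J₂` -/

namespace Cfsg.Agent.Lib.Jk

open Subgroup Finset Cfsg.Agent.Lib.Core
open Cfsg.Agent.Lib.Root.J1 hiding Emb t0 v0 x0 T

variable {G : Type*} [Group G]

theorem cj {a b c : G} (e : c * a * c⁻¹ = b) : IsConj a b := isConj_iff.2 ⟨_, e⟩

theorem dih_even {a r : G} (h : a * r * a⁻¹ = r⁻¹) (m : ℕ) : IsConj a (a * r ^ (2 * m)) :=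
  cj (c := (r ^ m)⁻¹) (by
    rw [inv_inv, ← Invol.conj_pow_of_inverts h m, two_mul, pow_add]
    simp only [mul_assoc, inv_mul_cancel_left])

theorem dih {a b : G} (ha : a * a = 1) (hb : b * b = 1) (k : ℕ) : IsConj a (a * (a * b) ^ k) ∨
    (IsConj b (a * (a * b) ^ k) ∧ IsConj a (b * (a * b) ^ k)) := by
  rcases Nat.even_or_odd' k with ⟨m, rfl | rfl⟩
  · exact .inl (dih_even (Invol.conj_mul_eq_inv ha hb) m)
  · refine .inr ⟨?_, ?_⟩
    · rw [pow_succ', ← mul_assoc, ← mul_assoc, ha, one_mul]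
      exact dih_even (Invol.conj_right_mul_eq_inv ha hb) m
    · rw [pow_succ', ← mul_assoc, ← mul_assoc]
      refine (cj (c := b) (by rw [inv_eq_of_mul_eq_one_right hb])).trans (dih_even ?_ m)
      calc _ = b * (a * (b * (a * b) * b⁻¹) * a⁻¹) * b⁻¹ := by group
        _ = _ := by
          rw [Invol.conj_right_mul_eq_inv ha hb, ← conj_inv, Invol.conj_mul_eq_inv ha hb, inv_inv,
            Invol.conj_right_mul_eq_inv ha hb]

theorem card_pairs [Finite G] (P : G → Prop) (R : G → G → Prop) (c : ℕ)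
    (h : ∀ a, P a → {b | R a b}.ncard = c) :
    Nat.card {p : G × G // P p.1 ∧ R p.1 p.2} = {a | P a}.ncard * c := by
  have e : {p : G × G // P p.1 ∧ R p.1 p.2} ≃ Σ a : {a | P a}, {b | R a b} :=
    ⟨fun p => ⟨⟨p.1.1, p.2.1⟩, ⟨p.1.2, p.2.2⟩⟩, fun s => ⟨(s.1, s.2), s.1.2, s.2.2⟩,
      fun _ => rfl, fun _ => rfl⟩
  have := Fintype.ofFinite {a | P a}
  rw [Nat.card_congr e, Nat.card_sigma, sum_congr rfl (g := fun _ => c)
    fun (a : {a | P a}) _ => (Nat.card_coe_set_eq _).trans (h a a.2), sum_const,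
    card_univ, ← Nat.card_eq_fintype_card, Nat.card_coe_set_eq, smul_eq_mul]

theorem cnt96 : ∀ a ∈ IL, a.p = 0 → (∀ b ∈ IL, b.p ≠ 0 → a * b * (a * b) * (a * b * (a * b)) = t0 ∨
    (a * b * (a * b) = 1 ∧ a * b ≠ t0)) ∧ (IL.filter fun b => b.p ≠ 0 ∧
      a * b * (a * b) * (a * b * (a * b)) = t0).length = if a = t0 then 0 else 96 := by decide +kernel

/-- two classes of involutions -/
structure J2 (t : G) (φ : M →* G) (r : G) : Prop extends Base t φ r where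
  two : ¬ IsConj t (φ v1)

/-- the conjugates of `t` commuting with `v₁` -/
def II (t : G) (φ : M →* G) : Set G := {u | IsConj t u ∧ u * φ v1 = φ v1 * u}

namespace J2
variable {t : G} {φ : M →* G} {r : G} (h : J2 t φ r)
include h

theorem typ {s : M} (h1 : s ≠ 1) (h2 : s * s = 1) :
    (IsConj t (φ s) ↔ s.p = 0) ∧ (IsConj (φ v1) (φ s) ↔ s.p ≠ 0) := by
  have key : (IsConj t (φ s) ∧ s.p = 0) ∨ (IsConj (φ v1) (φ s) ∧ s.p ≠ 0) := by
    rcases inv_cases s h2 with e | rfl | ⟨c, hc, rfl⟩ | ⟨c, hc, rfl⟩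
    · exact absurd e h1
    · exact .inl ⟨h.emb.map_t ▸ IsConj.refl _, rfl⟩
    · exact .inl ⟨h.isConj_x.trans (cj (h.emb.conj_iff.2 rfl)),
        (by decide +kernel : ∀ c ∈ WX, (c * x4 * c⁻¹).p = 0) c hc⟩
    · exact .inr ⟨cj (h.emb.conj_iff.2 rfl), (by decide +kernel : ∀ c ∈ WV, (c * v1 * c⁻¹).p ≠ 0) c hc⟩
  have : ¬ (IsConj t (φ s) ∧ IsConj (φ v1) (φ s)) := fun e => h.two (e.1.trans e.2.symm)
  tauto

theorem iv_t {u : G} (hu : IsConj t u) : Iv u := by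
  obtain ⟨g, rfl⟩ := isConj_iff.1 hu; exact h.emb.iv.conj g

theorem iv_v : Iv (φ v1) := h.emb.iv_iff.2 (by decide +kernel)

theorem tA {y : G} (hy : y ∈ AA t φ) (ht : IsConj t y) : y ∈ UU φ := by
  obtain ⟨a, ha, rfl⟩ := h.mem_AA'.1 hy
  obtain ⟨a1, a2⟩ := h.emb.iv_iff.1 (h.iv_t ht)
  exact h.mem_UU'.2 ((by decide +kernel : ∀ a ∈ AL, a.p = 0 → a ∈ UL) a ha ((h.typ a1 a2).1.1 ht))

theorem U_conj {y : G} (hy : y ∈ UU φ) (y1 : y ≠ 1) :
    ∃ k, (k = 1 ∨ k = r ∨ k = r * r) ∧ k * t * k⁻¹ = y := by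
  rcases h.mem_UU.1 hy with rfl | rfl | rfl | rfl
  · exact absurd rfl y1
  · exact ⟨1, by simp, by simp⟩
  · exact ⟨r, by simp, h.rt⟩
  · exact ⟨r * r, by simp, by rw [← h.rx, ← h.rt]; group⟩

theorem II_conj {u k : G} (hu : u ∈ II t φ) (hk : k * φ v1 = φ v1 * k) : k * u * k⁻¹ ∈ II t φ :=
  ⟨hu.1.trans (cj rfl), by simpa [conj_comm' hk.symm] using comm_conj k hu.2⟩

theorem tII : t ∈ II t φ := ⟨IsConj.refl _, (h.emb.comm _).symm⟩

variable [Finite G]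

theorem rH : r ∈ centralizer ({φ v1} : Set G) ⊓ normalizer (AA t φ : Set G) := ⟨mc.2 h.rv, h.r_normA⟩

theorem AH : AA t φ ≤ centralizer ({φ v1} : Set G) ⊓ normalizer (AA t φ : Set G) :=
  le_inf inf_le_right le_normalizer

theorem toH {n y z : G} (hn : n * φ v1 = φ v1 * n) (hy : y ∈ UU φ) (y1 : y ≠ 1) (hz : z ∈ UU φ)
    (e : n * y * n⁻¹ = z) : n ∈ centralizer ({φ v1} : Set G) ⊓ normalizer (AA t φ : Set G) := by
  obtain ⟨k, k1, rfl⟩ := h.U_conj hy y1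
  obtain ⟨l, l1, rfl⟩ := h.U_conj hz (by rw [← e]; simpa using h.emb.iv.1)
  have m : ∀ {k}, (k = 1 ∨ k = r ∨ k = r * r) →
      k ∈ centralizer ({φ v1} : Set G) ⊓ normalizer (AA t φ : Set G) := by
    rintro _ (rfl | rfl | rfl)
    exacts [one_mem _, h.rH, mul_mem h.rH h.rH]
  have := h.AH (x := l⁻¹ * n * k) ⟨mc.2 (comm_of_conj (by
    calc _ = l⁻¹ * (n * (k * t * k⁻¹) * n⁻¹) * l := by group
      _ = t := by rw [e]; group)).symm,
    (centralizer _).mul_mem (mul_mem (inv_mem (m l1).1) (mc.2 hn)) (m k1).1⟩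
  rwa [mul_mem_cancel_right (m k1), mul_mem_cancel_left (inv_mem (m l1))] at this

theorem H_dec {n : G} (hn : n ∈ centralizer ({φ v1} : Set G) ⊓ normalizer (AA t φ : Set G)) :
    ∃ k, (k = 1 ∨ k = r ∨ k = r * r) ∧ k⁻¹ * n ∈ AA t φ := by
  obtain ⟨k, k1, e⟩ := h.U_conj (h.tA (conj_mem_of_mem_normalizer hn.2
    (h.U_le_A (h.mem_UU.2 (.inr (.inl rfl))))) (cj rfl)) (h.emb.iv.conj n).1
  refine ⟨k, k1, mc.2 (comm_of_conj ?_).symm, (centralizer _).mul_mem (inv_mem ?_) hn.1⟩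
  · calc _ = k⁻¹ * (n * t * n⁻¹) * k := by group
      _ = t := by rw [← e]; group
  · rcases k1 with rfl | rfl | rfl
    exacts [one_mem _, h.rH.1, mul_mem h.rH.1 h.rH.1]

theorem card_Hx : Nat.card (centralizer ({φ v1} : Set G) ⊓ normalizer (AA t φ : Set G) :
    Subgroup G) = 48 := by
  rw [card_eq_orbit_mul _ t, show centralizer ({φ v1} : Set G) ⊓ normalizer (AA t φ : Set G) ⊓
    centralizer {t} = AA t φ from le_antisymm (fun x hx => ⟨hx.2, hx.1.1⟩)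
      (le_inf h.AH inf_le_left), h.card_AA, show {y | ∃ k ∈ centralizer ({φ v1} : Set G) ⊓
      normalizer (AA t φ : Set G), k * t * k⁻¹ = y} = {φ t0, φ x4, φ tx} from ?_,
      Set.ncard_eq_three.2 ⟨_, _, _, ?_, ?_, ?_, rfl⟩]
  iterate 3 rw [Ne, h.emb.eq_iff]; decide +kernel
  ext y
  rw [h.emb.map_t]
  constructor
  · rintro ⟨k, hk, rfl⟩
    exact (h.mem_UU.1 (h.tA (conj_mem_of_mem_normalizer hk.2
      (h.U_le_A (h.mem_UU.2 (.inr (.inl rfl))))) (cj rfl))).resolve_left (h.emb.iv.conj k).1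
  · rintro (rfl | rfl | rfl)
    · exact ⟨1, one_mem _, by simp⟩
    · exact ⟨r, h.rH, h.rt⟩
    · exact ⟨r * r, mul_mem h.rH h.rH, by rw [← h.rx, ← h.rt]; group⟩

theorem II_ex {u : G} (hu : u ∈ II t φ) : ∃ g, g * φ v1 = φ v1 * g ∧ g * t * g⁻¹ = u := by
  have hS : IsSyl 2 (AA t φ) (centralizer ({φ v1} : Set G)) := isSyl_of_isSyl_normalizer
    ⟨h.AH, IsPGroup.of_card (n := 4) h.card_AA, by
      have := card_mul_relIndex h.AH
      rw [h.card_AA, h.card_Hx] at this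
      omega⟩
  obtain ⟨g, hg, e⟩ := hS.exists_conj_le (Invol.isPGroup_zpowers_of_involution (h.iv_t hu.1).orderOf)
    (zpowers_le.2 (mc.2 hu.2))
  obtain ⟨k, k1, e1⟩ := h.U_conj (h.tA (y := g * u * g⁻¹) (e ⟨u, mem_zpowers u, rfl⟩)
    (hu.1.trans (cj rfl))) ((h.iv_t hu.1).conj g).1
  refine ⟨g⁻¹ * k, mc.1 (mul_mem (inv_mem hg) ?_), ?_⟩
  · rcases k1 with rfl | rfl | rfl
    exacts [one_mem _, h.rH.1, mul_mem h.rH.1 h.rH.1]
  · calc _ = g⁻¹ * (k * t * k⁻¹) * g := by group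
      _ = u := by rw [e1]; group

theorem card_X2 : Nat.card (centralizer ({φ v1} : Set G)) = (II t φ).ncard * 16 := by
  rw [card_eq_orbit_mul _ t, inf_comm, ← h.card_AA]
  congr 2
  ext u
  exact ⟨fun ⟨k, hk, e⟩ => e ▸ h.II_conj h.tII (mc.1 hk),
    fun hu => (h.II_ex hu).imp fun g hg => ⟨mc.2 hg.1, hg.2⟩⟩

theorem redA {u y : G} (hu : u ∈ II t φ) : ∃ g, g * φ v1 * g⁻¹ = φ v1 ∧ g * t * g⁻¹ = u ∧
    ∀ y, y * φ v1 = φ v1 * y → y * u = u * y → ∃ a ∈ AL, y = g * φ a * g⁻¹ := by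
  obtain ⟨g, g1, rfl⟩ := h.II_ex hu
  refine ⟨g, conj_comm' g1.symm, rfl, fun y y1 y2 => ?_⟩
  obtain ⟨a, ha, e⟩ := h.emb.memA (back y2) (back (by rwa [conj_comm' g1.symm]))
  exact ⟨a, ha, by rw [e]; group⟩

theorem cI_sq {u y : G} (hu : u ∈ II t φ) (h1 : y * φ v1 = φ v1 * y) (h2 : y * u = u * y) :
    y * y = 1 := by
  obtain ⟨g, -, -, e⟩ := h.redA (y := 1) hu
  obtain ⟨a, ha, rfl⟩ := e y h1 h2
  rw [conj_mul, ← map_mul, (AL_comm a ha).1]; simp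

theorem cI_comm {u y z : G} (hu : u ∈ II t φ) (h1 : y * φ v1 = φ v1 * y) (h2 : y * u = u * y)
    (h3 : z * φ v1 = φ v1 * z) (h4 : z * u = u * z) : y * z = z * y := by
  obtain ⟨g, -, -, e⟩ := h.redA (y := 1) hu
  obtain ⟨a, ha, rfl⟩ := e y h1 h2
  obtain ⟨b, hb, rfl⟩ := e z h3 h4
  exact comm_conj g (h.emb.comm_iff.2 ((AL_comm a ha).2.2.2 b hb))

theorem cI_mul {u z : G} (hu : u ∈ II t φ) (h1 : z * φ v1 = φ v1 * z) (h2 : z * u = u * z)
    (z1 : z ≠ 1) (z2 : z ≠ u) : (IsConj t (u * z) ↔ IsConj t z) ∧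
      (¬ IsConj t z → IsConj (φ v1) (u * z)) := by
  obtain ⟨g, -, rfl, e⟩ := h.redA (y := 1) hu
  obtain ⟨a, ha, rfl⟩ := e z h1 h2
  have a1 : a ≠ 1 := by rintro rfl; simp at z1
  have a2 : a ≠ t0 := by rintro rfl; exact z2 (by rw [h.emb.map_t])
  obtain ⟨b1, b2, b3⟩ := (by decide +kernel : ∀ a ∈ AL, a ≠ t0 → t0 * a ≠ 1 ∧ t0 * a * (t0 * a) = 1 ∧
    (t0 * a).p = a.p) a ha a2
  have c : ∀ {x y : G}, IsConj x (g * y * g⁻¹) ↔ IsConj x y := fun {x y} =>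
    ⟨fun e => e.trans (cj rfl).symm, fun e => e.trans (cj rfl)⟩
  rw [conj_mul, c, c, c, show t * φ a = φ (t0 * a) by rw [map_mul, h.emb.map_t], (h.typ b1 b2).1, (h.typ b1 b2).2, (h.typ a1 (AL_comm a ha).1).1, b3]
  simp

theorem odd_mul {a b : G} (ha : a ∈ II t φ) (hb : b ∈ II t φ) (hc : a * b ≠ b * a) :
    Odd (orderOf (a * b)) := by
  by_contra e
  have ia := h.iv_t ha.1
  have ib := h.iv_t hb.1
  obtain ⟨z2, c1, c2⟩ := Invol.half_pow_central ia.2 ib.2 (Nat.not_odd_iff_even.1 e)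
  have d := dih ia.2 ib.2 (orderOf (a * b) / 2)
  have zv : (a * b) ^ (orderOf (a * b) / 2) * φ v1 = φ v1 * (a * b) ^ (orderOf (a * b) / 2) :=
    (Commute.mul_left ha.2 hb.2).pow_left _
  generalize (a * b) ^ (orderOf (a * b) / 2) = z at *
  have tz : IsConj t z := by
    by_cases e1 : z = a
    · exact e1 ▸ ha.1
    refine (h.cI_mul ha zv c1 (by rintro rfl; simp at z2) e1).1.1 ?_
    rcases d with d | d
    exacts [ha.1.trans d, hb.1.trans d.1]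
  exact hc (h.cI_comm ⟨tz, zv⟩ ha.2 c1.symm hb.2 c2.symm)

theorem ncard_comm {a : G} (ha : a ∈ II t φ) :
    {b | b ∈ II t φ ∧ ¬ (b = a ∨ a * b ≠ b * a)}.ncard = 2 := by
  obtain ⟨g, g1, rfl⟩ := h.II_ex ha
  rw [← ncard_conj g (fun b => b = φ x4 ∨ b = φ tx) _ fun b => ?_]
  · exact Set.ncard_pair (by rw [Ne, h.emb.eq_iff]; decide +kernel)
  simp only [not_or, not_not, conj_mul, conj_inj]
  constructor
  · rintro (rfl | rfl)
    · exact ⟨h.II_conj ⟨h.isConj_x, h.emb.comm_iff.2 (by decide +kernel)⟩ g1,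
        by rw [← h.emb.map_t, h.emb.eq_iff]; decide +kernel, (h.emb.comm _).symm⟩
    · exact ⟨h.II_conj ⟨(cj h.rtx).symm, h.emb.comm_iff.2 (by decide +kernel)⟩ g1,
        by rw [← h.emb.map_t, h.emb.eq_iff]; decide +kernel, (h.emb.comm _).symm⟩
  · rintro ⟨b1, b2, b3⟩
    have := h.II_conj b1 (k := g⁻¹) (Commute.inv_left g1)
    simp only [mul_assoc, inv_mul_cancel_left, inv_inv, inv_mul_cancel, mul_one] at this
    exact ((h.mem_UU.1 (h.tA (mem_AA.2 ⟨b3.symm, this.2⟩) this.1)).resolve_left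
      (h.iv_t this.1).1).resolve_left b2

theorem a_v : Nat.card {p : G × G // IsConj t p.1 ∧ IsConj (φ v1) p.2 ∧ φ v1 ∈ zpowers (p.1 * p.2)} =
    (II t φ).ncard * ((II t φ).ncard - 2) := by
  have iv := h.iv_v
  have iv2 : ∀ {b : G}, IsConj (φ v1) b → Iv b := fun e => by
    obtain ⟨g, rfl⟩ := isConj_iff.1 e; exact iv.conj g
  have cm : ∀ {a b : G}, Iv a → Iv b → φ v1 ∈ zpowers (a * b) →
      a * φ v1 = φ v1 * a ∧ b * φ v1 = φ v1 * b := fun {a b} ha hb ⟨k, hk⟩ => by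
    have e1 := Invol.conj_zpow_of_inverts (Invol.conj_mul_eq_inv ha.2 hb.2) k
    have e2 := Invol.conj_zpow_of_inverts (Invol.conj_right_mul_eq_inv ha.2 hb.2) k
    simp only at hk
    rw [zpow_neg, hk, iv.inv] at e1 e2
    exact ⟨(comm_of_conj e1).symm, (comm_of_conj e2).symm⟩
  refine Eq.trans ?_ (card_pairs (· ∈ II t φ)
    (fun a b => IsConj (φ v1) b ∧ φ v1 ∈ zpowers (a * b)) _ fun a ha => ?_)
  · exact Nat.card_congr (Equiv.subtypeEquivRight fun p => ⟨fun e => ⟨⟨e.1, (cm (h.iv_t e.1)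
      (iv2 e.2.1) e.2.2).1⟩, e.2⟩, fun e => ⟨e.1.1, e.2⟩⟩)
  have ia := h.iv_t ha.1
  have va : φ v1 ≠ a := fun e => h.two (e ▸ ha.1)
  have s := ncard_split (· ∈ II t φ) fun b => b = a ∨ a * b ≠ b * a
  rw [h.ncard_comm ha] at s
  rw [show (II t φ).ncard = _ from s, Nat.add_sub_cancel,
    ← Set.ncard_image_of_injective _ (mul_right_injective (φ v1))]
  congr 1
  ext b
  constructor
  · rintro ⟨b, ⟨b1, b2⟩, rfl⟩
    have ib := iv2 b1
    have bv := (cm ia ib b2).2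
    obtain ⟨k, hk⟩ := mem_powers_iff_mem_zpowers.2 b2
    simp only at hk
    have d := dih ia.2 ib.2 k
    rw [hk] at d
    have tb : IsConj t (φ v1 * b) := by
      rcases d with d | d
      · exact absurd ((h.cI_mul ha rfl ha.2.symm iv.1 va).1.1 (ha.1.trans d)) h.two
      · exact bv ▸ ha.1.trans d.2
    refine ⟨⟨tb, by rw [mul_assoc, bv]⟩, ?_⟩
    by_contra e
    simp only [not_or, not_not] at e
    have c : Commute a b := by
      rw [← mul_assoc, ha.2, mul_assoc, mul_assoc] at e; exact mul_left_cancel e.2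
    have i2 : (a * b) ^ 2 = 1 := by rw [c.mul_pow, pow_two, pow_two, ia.2, ib.2, one_mul]
    rcases Nat.even_or_odd' k with ⟨m, rfl | rfl⟩
    · rw [pow_mul, i2, one_pow] at hk; exact iv.1 hk.symm
    · rw [pow_succ, pow_mul, i2, one_pow, one_mul] at hk
      exact e.1 (by rw [← hk, mul_assoc, ib.2, mul_one])
  · rintro ⟨b1, b2⟩
    refine ⟨φ v1 * b, ⟨?_, ?_⟩, iv.cancel b⟩
    · rw [← b1.2]
      exact (h.cI_mul b1 rfl b1.2.symm iv.1 fun e => h.two (e ▸ b1.1)).2 h.two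
    · obtain ⟨m, hm⟩ : Odd (orderOf (a * b)) := by
        rcases b2 with rfl | b2
        · simp [ia.2]
        · exact h.odd_mul ha b1 b2
      refine mem_powers_iff_mem_zpowers.1 ⟨2 * m + 1, ?_⟩
      have c : Commute (φ v1) (a * b) := (Commute.mul_left ha.2 b1.2).symm
      simp only
      rw [← mul_assoc, ha.2, mul_assoc, c.mul_pow, ← hm, pow_orderOf_eq_one, hm, pow_succ, pow_mul,
        pow_two, iv.2, one_pow, one_mul, mul_one]

theorem a_t : Nat.card {p : G × G // IsConj t p.1 ∧ IsConj (φ v1) p.2 ∧ t ∈ zpowers (p.1 * p.2)} =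
    960 := by
  have iv2 : ∀ {b : G}, IsConj (φ v1) b → Iv b := fun e => by
    obtain ⟨g, rfl⟩ := isConj_iff.1 e; exact h.iv_v.conj g
  have cm : ∀ {a b : G}, Iv a → Iv b → t ∈ zpowers (a * b) →
      a * t = t * a ∧ b * t = t * b := fun {a b} ha hb ⟨k, hk⟩ => by
    have e1 := Invol.conj_zpow_of_inverts (Invol.conj_mul_eq_inv ha.2 hb.2) k
    have e2 := Invol.conj_zpow_of_inverts (Invol.conj_right_mul_eq_inv ha.2 hb.2) k
    simp only at hk
    rw [zpow_neg, hk, h.emb.iv.inv] at e1 e2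
    exact ⟨(comm_of_conj e1).symm, (comm_of_conj e2).symm⟩
  have mI : ∀ {a : M}, Iv (φ a) → a ∈ IL := fun e =>
    (mem_IL _ (h.emb.iv_iff.1 e).2).resolve_left (h.emb.iv_iff.1 e).1
  have key : ∀ a, IsConj t (φ a) → {b | IsConj (φ v1) b ∧ t ∈ zpowers (φ a * b)}.ncard =
      if a = t0 then 0 else 96 := fun a ha => by
    have a1 := h.emb.iv_iff.1 (h.iv_t ha)
    obtain ⟨c1, c2⟩ := cnt96 a (mI (h.iv_t ha)) ((h.typ a1.1 a1.2).1.1 ha)
    rw [← c2]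
    refine h.emb.ncard_list _ _ (nodup_IL.filter _) (fun b hb => (cm (h.iv_t ha) (iv2 hb.1) hb.2).2)
      fun b => ?_
    rw [List.mem_filter, decide_eq_true_eq, ← map_mul]
    constructor
    · rintro ⟨b1, b2⟩
      have b3 := h.emb.iv_iff.1 (iv2 b1)
      have b4 := (h.typ b3.1 b3.2).2.1 b1
      refine ⟨mI (iv2 b1), b4, (c1 b (mI (iv2 b1)) b4).resolve_right fun e => ?_⟩
      obtain ⟨k, hk⟩ := mem_powers_iff_mem_zpowers.2 b2
      simp only at hk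
      rw [← map_pow, ← h.emb.map_t, h.emb.eq_iff] at hk
      rcases Nat.even_or_odd' k with ⟨m, rfl | rfl⟩
      · rw [pow_mul, pow_two, e.1, one_pow] at hk; exact absurd hk (by decide +kernel)
      · rw [pow_succ, pow_mul, pow_two, e.1, one_pow, one_mul] at hk; exact e.2 hk
    · rintro ⟨b1, b2, b3⟩
      refine ⟨(h.typ (IL_iv b b1).1 (IL_iv b b1).2).2.2 b2, ?_⟩
      rw [← h.emb.map_t, ← b3, map_mul _ (_ * _), map_mul _ (a * b)]
      exact mul_mem (mul_mem (mem_zpowers _) (mem_zpowers _)) (mul_mem (mem_zpowers _) (mem_zpowers _))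
  refine Eq.trans ?_ ((card_pairs (fun a => IsConj t a ∧ a * t = t * a ∧ a ≠ t)
    (fun a b => IsConj (φ v1) b ∧ t ∈ zpowers (a * b)) 96 fun a ha => ?_).trans ?_)
  · refine Nat.card_congr (Equiv.subtypeEquivRight fun p => ⟨fun e => ⟨⟨e.1, (cm (h.iv_t e.1)
      (iv2 e.2.1) e.2.2).1, fun e1 => ?_⟩, e.2⟩, fun e => ⟨e.1.1, e.2⟩⟩)
    have := key t0 (h.emb.map_t ▸ IsConj.refl _)
    rw [if_pos rfl, Set.ncard_eq_zero, Set.eq_empty_iff_forall_notMem, h.emb.map_t] at this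
    exact this p.2 (e1 ▸ e.2)
  · obtain ⟨a, rfl⟩ := h.emb.surj a ha.2.1
    rw [key a ha.1, if_neg fun (e : a = t0) => ha.2.2 (e ▸ h.emb.map_t)]
  · rw [h.emb.ncard_list _ (IL.filter fun a => a.p = 0 ∧ a ≠ t0) (nodup_IL.filter _)
      (fun a ha => ha.2.1) fun a => ?_]
    · decide +kernel
    rw [List.mem_filter, decide_eq_true_eq, ← h.emb.map_t, Ne, h.emb.eq_iff, h.emb.map_t]
    exact ⟨fun e => ⟨mI (h.iv_t e.1), (h.typ (h.emb.iv_iff.1 (h.iv_t e.1)).1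
      (h.emb.iv_iff.1 (h.iv_t e.1)).2).1.1 e.1, e.2.2⟩,
      fun e => ⟨(h.typ (IL_iv a e.1).1 (IL_iv a e.1).2).1.2 e.2.1, h.emb.comm a, e.2.2⟩⟩

theorem rU_conj {z : G} (hz : z ∈ UU φ) : ∃ y ∈ UU φ, y * r * y⁻¹ = z * r := by
  have k : ∀ {y z : M}, y * y = 1 → φ y * (r * φ y * r⁻¹) = φ z → φ y * r * (φ y)⁻¹ = φ z * r :=
    fun {y z} e1 e2 => by rw [← e2, ← map_inv, inv_eq_of_mul_eq_one_right e1]; group
  have m := fun {y} => (h.mem_UU (y := y)).2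
  rw [h.mem_UU, ← h.emb.map_t] at hz
  rcases hz with rfl | rfl | rfl | rfl
  · exact ⟨1, one_mem _, by simp⟩
  · exact ⟨φ x4, m (by simp), k (by decide +kernel)
      (by rw [h.rx, ← map_mul, h.emb.eq_iff]; decide +kernel)⟩
  · exact ⟨φ tx, m (by simp), k (by decide +kernel)
      (by rw [h.rtx, ← h.emb.map_t, ← map_mul, h.emb.eq_iff]; decide +kernel)⟩
  · exact ⟨φ t0, m (by simp [h.emb.map_t]), k (by decide +kernel)
      (by rw [h.emb.map_t, h.rt, h.etx])⟩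

theorem U_II {y : G} (hy : y ∈ UU φ) (y1 : y ≠ 1) : y ∈ II t φ := by
  obtain ⟨k, -, rfl⟩ := h.U_conj hy y1
  exact ⟨cj rfl, (mem_AA.1 (h.U_le_A hy)).2⟩

theorem II_cU {u z : G} (hu : u ∈ II t φ) (hz : z ∈ UU φ) (z1 : z ≠ 1) (e : u * z = z * u) :
    u ∈ UU φ := h.tA (mem_AA.2 ⟨h.cI_comm (h.U_II hz z1) hu.2 e h.tII.2
  (mem_AA.1 (h.U_le_A hz)).1.symm, hu.2⟩) hu.1

theorem U_comm {y z : G} (hy : y ∈ UU φ) (hz : z ∈ UU φ) : y * z = z * y :=
  h.cI_comm h.tII (mem_AA.1 (h.U_le_A hy)).2 (mem_AA.1 (h.U_le_A hy)).1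
    (mem_AA.1 (h.U_le_A hz)).2 (mem_AA.1 (h.U_le_A hz)).1

theorem II_U {u y : G} (hu : u ∈ II t φ) (hy : y ∈ UU φ) (y1 : y ≠ 1) (e : u * y * u⁻¹ ∈ UU φ) :
    u ∈ UU φ := by
  by_cases e1 : y * (u * y * u⁻¹) = 1
  · have := eq_inv_of_mul_eq_one_right e1
    rw [(h.iv_t (h.U_II hy y1).1).inv] at this
    exact h.II_cU hu hy y1 (comm_of_conj this).symm
  · refine h.II_cU hu (mul_mem hy e) e1 ?_
    nth_rewrite 2 [h.U_comm hy e]
    simp only [(h.iv_t hu.1).inv, mul_assoc]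

theorem II_inj {u w : G} (hu : u ∈ II t φ) (hw : w ∈ II t φ) (u1 : u ∉ UU φ)
    (e : u * t * u⁻¹ = w * t * w⁻¹) : u = w := by
  by_contra ne
  have iu := h.iv_t hu.1
  have iw := h.iv_t hw.1
  have c1 : u * w * t = t * (u * w) := by
    calc _ = u * (w * t * w⁻¹) * w := by group
      _ = _ := by rw [← e, iu.inv]; simp only [mul_assoc, iu.cancel]
  have c2 : u * w * φ v1 = φ v1 * (u * w) := Commute.mul_left hu.2 hw.2
  have c3 : w * u = u * w := by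
    rw [eq_inv_of_mul_eq_one_left (h.cI_sq h.tII c2 c1), mul_inv_rev, iu.inv, iw.inv]
  exact u1 (h.tA (mem_AA.2 ⟨h.cI_comm ⟨(h.cI_mul hu hw.2 c3 iw.1 (Ne.symm ne)).1.2 hw.1, c2⟩ hu.2
    (by rw [mul_assoc, c3]) h.tII.2 c1.symm, hu.2⟩) hu.1)

theorem ncard_II : (II t φ).ncard = 3 + 4 * {w | w ∈ II t φ ∧ w * r * w⁻¹ = r⁻¹}.ncard := by
  have tU : t ∈ UU φ := h.mem_UU.2 (by simp)
  have xU : φ x4 ∈ UU φ := h.mem_UU.2 (by simp)
  have x1 : φ x4 ≠ 1 := (h.iv_t h.isConj_x).1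
  have cU : ∀ {y z}, y ∈ UU φ → z ∈ UU φ → y * z * y⁻¹ = z := fun hy hz =>
    conj_comm' (h.U_comm hz hy)
  have nU : ∀ {w y}, w * r * w⁻¹ = r⁻¹ → y ∈ UU φ → y * w * y⁻¹ ∉ UU φ := fun {w y} e hy hw => by
    rw [mul_mem_cancel_right (inv_mem hy), mul_mem_cancel_left hy] at hw
    have : r * φ x4 * r⁻¹ = φ t0 := by
      rw [← cU hw xU, ← h.rt, h.emb.map_t]
      nth_rewrite 1 [← cU (inv_mem hw) tU]
      calc _ = r * (w * r * w⁻¹) * t * (r * (w * r * w⁻¹))⁻¹ := by group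
        _ = t := by rw [e]; group
    rw [h.rx, h.emb.eq_iff] at this
    exact absurd this (by decide +kernel)
  rw [show (II t φ).ncard = _ from ncard_split (· ∈ II t φ) (· ∈ UU φ)]
  congr 1
  · refine h.emb.ncard_list _ [t0, x4, tx] (by decide +kernel)
      (fun g hg => (mem_AA.1 (h.U_le_A hg.2)).1) fun a => ⟨fun e => ?_, fun e => ?_⟩
    · exact (List.mem_cons.1 (h.mem_UU'.1 e.2)).resolve_left (h.emb.iv_iff.1 (h.iv_t e.1.1)).1
    · have := h.mem_UU'.2 (List.mem_cons_of_mem _ e)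
      exact ⟨h.U_II this (by rw [Ne, h.emb.eq_one]; rintro rfl; revert e; decide +kernel), this⟩
  rw [show 4 = (UU φ : Set G).ncard from (h.emb.ncard_list _ UL (by decide +kernel)
    (fun g hg => (mem_AA.1 (h.U_le_A hg)).1) fun a => h.mem_UU').symm, ← Set.ncard_prod,
    ← Set.InjOn.ncard_image (f := fun p : G × G => p.1 * p.2 * p.1⁻¹)]
  · congr 1
    ext u
    constructor
    · rintro ⟨hu, u1⟩
      have iu := h.iv_t hu.1
      obtain ⟨w, ⟨hw, w1⟩, e⟩ := ((Set.toFinite {g | g ∈ II t φ ∧ ¬ g ∈ UU φ}).injOn_iff_bijOn_of_mapsTo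
        (f := fun g => g * t * g⁻¹) fun g hg => ⟨h.II_conj h.tII hg.1.2,
          fun e => hg.2 (h.II_U hg.1 tU h.emb.iv.1 e)⟩).1
        (fun a ha b hb e => h.II_inj ha.1 hb.1 ha.2 e) |>.surjOn (a := u * φ x4 * u⁻¹)
        ⟨h.II_conj (h.U_II xU x1) hu.2, fun e => u1 (h.II_U hu xU x1 e)⟩
      have iw := h.iv_t hw.1
      simp only at e
      have e1 : u * w * t * (u * w)⁻¹ = φ x4 := by
        calc _ = u * (w * t * w⁻¹) * u⁻¹ := by group
          _ = _ := by rw [e, iu.inv]; simp only [mul_assoc, iu.cancel, iu.2, mul_one]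
      have c2 : u * w * φ v1 = φ v1 * (u * w) := Commute.mul_left hu.2 hw.2
      have c3 : u * w * r⁻¹ * φ v1 = φ v1 * (u * w * r⁻¹) :=
        Commute.mul_left c2 (Commute.inv_left h.rv)
      have od : Odd (orderOf (u * w)) := h.odd_mul hu hw fun c => by
        have ne : w ≠ u := by
          rintro rfl
          rw [conj_inj, ← h.emb.map_t, h.emb.eq_iff] at e
          exact absurd e (by decide +kernel)
        rw [cU (h.II_U ⟨(h.cI_mul hu hw.2 c.symm iw.1 ne).1.2 hw.1, c2⟩ tU h.emb.iv.1 (e1 ▸ xU)) tU,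
          ← h.emb.map_t, h.emb.eq_iff] at e1
        exact absurd e1 (by decide +kernel)
      obtain ⟨a, ha, ea⟩ := h.emb.memA (h.emb.cxv h.isConj_x (y := u * w * r⁻¹) (comm_of_conj (by
        nth_rewrite 1 [← h.rt]; rw [← e1]; group)).symm c3) c3
      obtain ⟨z, hz, v, hv, rfl⟩ := AL_dec a ha
      obtain ⟨y, hy, ey⟩ := h.rU_conj (h.mem_UU'.2 hz)
      obtain ⟨v2, vA⟩ := (by decide +kernel : ∀ v ∈ [1, v1, v3, v1 * v3], v * v = 1 ∧ v ∈ AL) v hv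
      have cv : Commute (y * r * y⁻¹) (φ v) := ey ▸ Commute.mul_left (h.emb.comm_iff.2
        ((AL_comm v vA).2.2.2 z ((by decide +kernel : ∀ z ∈ UL, z ∈ AL) z hz)).symm) (h.rV hv)
      have e2 : u * w = y * r * y⁻¹ * φ v := by
        rw [ey, mul_assoc, h.rV hv, ← mul_assoc, ← map_mul, ea]; group
      have v1 : φ v = 1 := by
        have e3 : (u * w) ^ 3 = φ v := by
          rw [e2, cv.mul_pow, conj_pow, pow_three' r, h.r3, pow_three, ← map_mul, v2]; simp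
        obtain ⟨m, hm⟩ := od
        have : φ v ^ (2 * m + 1) = 1 := by rw [← e3, ← pow_mul, mul_comm, pow_mul, ← hm]; simp
        rwa [pow_succ, pow_mul, pow_two, ← map_mul, v2, map_one, one_pow, one_mul] at this
      rw [v1, mul_one] at e2
      refine ⟨(y, y⁻¹ * u * y⁻¹⁻¹), ⟨hy, h.II_conj hu (mem_AA.1 (h.U_le_A (inv_mem hy))).2, ?_⟩,
        by group⟩
      calc _ = y⁻¹ * (u * (y * r * y⁻¹) * u⁻¹) * y := by group
        _ = _ := by rw [← e2, Invol.conj_mul_eq_inv iu.2 iw.2, e2]; group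
    · rintro ⟨⟨y, w⟩, ⟨hy, hw, e⟩, rfl⟩
      exact ⟨h.II_conj hw (mem_AA.1 (h.U_le_A hy)).2, nU e hy⟩
  · have k : ∀ {w y}, w ∈ II t φ → w * r * w⁻¹ = r⁻¹ → y ∈ UU φ → y * (w * r) * y⁻¹ ∈ II t φ ∧
        y * (w * r) * y⁻¹ * t * (y * (w * r) * y⁻¹)⁻¹ = y * w * y⁻¹ * φ x4 * (y * w * y⁻¹)⁻¹ :=
      fun {w y} hw e hy => by
      have := dih_even e 2
      rw [show r ^ (2 * 2) = r by rw [pow_succ, pow_three', h.r3, one_mul]] at this
      refine ⟨h.II_conj ⟨hw.1.trans this, Commute.mul_left hw.2 h.rv⟩ (mem_AA.1 (h.U_le_A hy)).2, ?_⟩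
      rw [← cU hy xU, ← h.rt]
      nth_rewrite 2 [← cU (inv_mem hy) tU]
      group
    rintro ⟨y, w⟩ ⟨hy, hw, e⟩ ⟨y', w'⟩ ⟨hy', hw', e'⟩ e1
    simp only at hy hw e hy' hw' e' e1
    have e2 := h.II_inj (k hw e hy).1 (k hw' e' hy').1 (nU (by rw [← e]; group) hy)
      (by rw [(k hw e hy).2, (k hw' e' hy').2, e1])
    rw [← conj_mul, ← conj_mul, e1, mul_right_inj] at e2
    obtain rfl : y' = y := inv_mul_eq_one.1 (h.rU_fix (mul_mem (inv_mem hy') hy) (by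
      calc _ = y'⁻¹ * (y' * r * y'⁻¹) * y * r⁻¹ := by group
        _ = _ := by rw [← e2]; group))
    rw [conj_inj.1 e1]

theorem n_cases : (II t φ).ncard = 3 ∨ (II t φ).ncard = 15 := by
  have e := h.ncard_II
  rcases {w | w ∈ II t φ ∧ w * r * w⁻¹ = r⁻¹}.eq_empty_or_nonempty with e0 | ⟨u, hu, eu⟩
  · rw [e0, Set.ncard_empty] at e; exact .inl e
  have iu := h.iv_t hu.1
  have cr : ∀ {w}, w * r * w⁻¹ = r⁻¹ → u * w * r = r * (u * w) := fun {w} e => (comm_of_conj (by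
    calc _ = u * (w * r * w⁻¹) * u⁻¹ := by group
      _ = _ := by rw [e, ← conj_inv, eu, inv_inv])).symm
  have fx : ∀ {w}, w ∈ II t φ → w * r * w⁻¹ = r⁻¹ → w * u = u * w → w = u := fun {w} hw e c => by
    by_contra ne
    have := h.cI_sq ⟨(h.cI_mul hu hw.2 c (h.iv_t hw.1).1 ne).1.2 hw.1, Commute.mul_left hu.2 hw.2⟩
      h.rv (cr e).symm
    exact h.r_ne (by rw [← h.r3, this, one_mul])
  have m := ncard_modEq_prime Nat.prime_two iu.orderOf {w | w ∈ II t φ ∧ w * r * w⁻¹ = r⁻¹}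
    fun w hw => ⟨h.II_conj hw.1 hu.2, by
      calc _ = u * (w * (u⁻¹ * r * u⁻¹⁻¹) * w⁻¹) * u⁻¹ := by group
        _ = _ := by rw [show u⁻¹ * r * u⁻¹⁻¹ = r⁻¹ by rw [iu.inv]; exact eu, ← conj_inv, hw.2,
          inv_inv, eu]⟩
  rw [show {x | x ∈ {w | w ∈ II t φ ∧ w * r * w⁻¹ = r⁻¹} ∧ x * u = u * x} = {u} from
    Set.ext fun x => ⟨fun e => fx e.1.1 e.1.2 e.2, by rintro rfl; exact ⟨⟨hu, eu⟩, rfl⟩⟩,
    Set.ncard_singleton] at m
  have d1 := card_dvd_of_le (inf_le_left (a := centralizer ({φ v1} : Set G))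
    (b := centralizer ({r} : Set G)))
  have d2 := card_dvd_of_le (inf_le_left (a := centralizer ({φ v1} : Set G))
    (b := normalizer (AA t φ : Set G)))
  rw [card_eq_orbit_mul _ u, show {y | ∃ k ∈ centralizer ({φ v1} : Set G) ⊓ centralizer ({r} : Set G),
    k * u * k⁻¹ = y} = {w | w ∈ II t φ ∧ w * r * w⁻¹ = r⁻¹} from ?_, h.card_X2, e] at d1
  · rw [h.card_Hx, h.card_X2] at d2
    have d3 := (dvd_mul_right _ _).trans d1
    generalize {w | w ∈ II t φ ∧ w * r * w⁻¹ = r⁻¹}.ncard = c at *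
    rw [add_mul, Nat.dvd_add_left ⟨64, by ring⟩] at d3
    have := Nat.le_of_dvd (by norm_num) d3
    unfold Nat.ModEq at m
    interval_cases c <;> omega
  ext w
  constructor
  · rintro ⟨k, hk, rfl⟩
    refine ⟨h.II_conj hu (mc.1 hk.1), ?_⟩
    have := conj_comm' (mc.1 hk.2).symm
    nth_rewrite 1 [← this]
    rw [conj_inv, conj_mul, conj_mul, eu, ← conj_inv, this]
  · rintro ⟨hw, ew⟩
    by_cases c : u * w = w * u
    · exact ⟨1, one_mem _, by simp [fx hw ew c.symm]⟩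
    obtain ⟨k, hk⟩ := Invol.exists_pow_conj_of_odd iu.2 (h.iv_t hw.1).2 (h.odd_mul hu hw c)
    exact ⟨_, Subgroup.pow_mem _ (mem_inf.2 ⟨mc.2 (Commute.mul_left hu.2 hw.2), mc.2 (cr ew)⟩) k, hk⟩

theorem card_eq [IsSimpleGroup G] (hall : ∀ s, orderOf s = 2 → IsConj t s ∨ IsConj (φ v1) s) :
    Nat.card G = 604800 := by
  have e := S0213.result t (φ v1) h.emb.iv.orderOf h.iv_v.orderOf h.two hall
  rw [h.a_t, h.a_v, h.card_X2, h.emb.card_cent] at e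
  rcases h.n_cases with e1 | e1 <;> rw [e1] at e
  · have : Fact (Nat.Prime 3) := ⟨Nat.prime_three⟩
    have c := (centralizer ({t} : Set G)).card_mul_index
    rw [h.emb.card_cent] at c
    have := mem_center_iff.1 (Glaub.mem_center_of_index_centralizer (g := t) (p := 3) (k := 3)
      (by omega)) r
    have e2 := h.rt
    rw [this, mul_inv_cancel_right, ← h.emb.map_t, h.emb.eq_iff] at e2
    exact absurd e2 (by decide +kernel)
  · exact e

end J2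

end Cfsg.Agent.Lib.Jk
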