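import Cfsg.Agent.Lib.Jk.Cnt

set_option autoImplicit false
set_option maxRecDepth 100000

/-! # Groups with one class of involutions, centraliser `D₈`, containing `S₄` -/

namespace Cfsg.Agent.Lib.Jk

open Subgroup Finset Cfsg.Agent.Lib.Root.J1 Equiv

abbrev S4 := Perm (Fin 4)
def t4 : S4 := swap 0 1 * swap 2 3
def c3 : S4 := swap 0 1 * swap 1 2
def Tr (s : S4) : Prop := s ≠ 1 ∧ s * s = 1 ∧ ∃ i, s i = i
def Vv (s : S4) : Prop := s ≠ 1 ∧ s * s = 1 ∧ ∀ i, s i ≠ i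
def O3 (s : S4) : Prop := s ≠ 1 ∧ s * s * s = 1
instance : DecidablePred Tr := fun s => by unfold Tr; infer_instance
instance : DecidablePred Vv := fun s => by unfold Vv; infer_instance
instance : DecidablePred O3 := fun s => by unfold O3; infer_instance

theorem S4_cases : ∀ h : S4, h = 1 ∨ Vv h ∨ Vv (h * h) ∨ Tr h ∨ O3 h := by decide +kernel
theorem S4_Vv : ∀ h, Vv h → ∃ a, a * t4 * a⁻¹ = h := by decide +kernel
theorem S4_ct : ∀ a, a * t4 = t4 * a → a * a * (a * a) = 1 := by decide +kernel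
theorem S4_ct8 : (univ.filter fun a => a * t4 = t4 * a).card = 8 := by decide +kernel
theorem S4_ct5 : (univ.filter fun a => (a ≠ 1 ∧ a * a = 1) ∧ a * t4 = t4 * a).card = 5 := by
  decide +kernel
theorem S4_9 : (univ.filter fun a : S4 => a ≠ 1 ∧ a * a = 1).card = 9 := by decide +kernel
theorem S4_TT : ∀ s, Tr s → ∀ r, Tr r → r = s ∨ Vv (s * r) ∨ O3 (s * r) := by decide +kernel
theorem S4_TO : ∀ s, Tr s → ∀ h, O3 h → s * h * s⁻¹ = h⁻¹ ∨
    (Vv (s * h * (s * h)) ∧ Vv (s⁻¹ * h⁻¹ * (s⁻¹ * h⁻¹))) := by decide +kernel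
theorem S4_OO : ∀ s, O3 s → ∀ h, O3 h → h = s ∨ h = s⁻¹ ∨ (Vv (s * h) ∧ Vv (s⁻¹ * h⁻¹)) ∨
    (Vv (s * h⁻¹) ∧ Vv (s⁻¹ * h⁻¹⁻¹)) := by decide +kernel
theorem S4_O3 : ∀ h, O3 h → h * h * (h * h) ≠ 1 ∧ h⁻¹ ≠ h ∧ (∃ a, a * c3 * a⁻¹ = h) ∧
    (∃ s, Tr s ∧ s * h * s⁻¹ = h⁻¹) ∧
    (univ.filter fun a : S4 => (a ≠ 1 ∧ a * a = 1) ∧ a * h * a⁻¹ = h⁻¹).card = 3 ∧
    ({1, h, h⁻¹} : Finset S4).card = 3 ∧ (({1, h, h⁻¹} : Finset S4).filter Tr).card = 0 ∧
    (({1, h, h⁻¹} : Finset S4).filter O3).card = 2 := by decide +kernel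
theorem S4_Tr : ∀ h, Tr h →
    (univ.filter fun a : S4 => (a ≠ 1 ∧ a * a = 1) ∧ a * h * a⁻¹ = h⁻¹).card = 3 ∧
    ({1, h} : Finset S4).card = 2 ∧ (({1, h} : Finset S4).filter Tr).card = 1 ∧
    (({1, h} : Finset S4).filter O3).card = 0 := by decide +kernel
theorem S4_cards : (univ.filter Tr).card = 6 ∧ (univ.filter O3).card = 8 ∧ ¬ Tr 1 ∧ ¬ O3 1 ∧ Vv t4 := by
  decide +kernel

variable {Y : Type*} [Group Y] [Finite Y]

omit [Finite Y] in
theorem ncard_range {A : Type*} [Group A] [Fintype A] {ψ : A →* Y} (inj : Function.Injective ψ)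
    (P : Y → Prop) (Q : A → Prop) [DecidablePred Q] (hQ : ∀ a, P (ψ a) ↔ Q a) :
    {g | P g ∧ g ∈ ψ.range}.ncard = (univ.filter Q).card := by
  have : {g | P g ∧ g ∈ ψ.range} = ψ '' (univ.filter Q : Finset A) := by
    ext g
    constructor
    · rintro ⟨hg, a, rfl⟩
      exact ⟨a, by simpa using (hQ a).1 hg, rfl⟩
    · rintro ⟨a, ha, rfl⟩
      exact ⟨(hQ a).2 (by simpa using ha), a, rfl⟩
  rw [this, Set.ncard_image_of_injective _ inj, Set.ncard_coe_finset]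

theorem ncard_split (P Q : Y → Prop) :
    {g | P g}.ncard = {g | P g ∧ Q g}.ncard + {g | P g ∧ ¬ Q g}.ncard := by
  rw [← Set.ncard_union_eq (Set.disjoint_left.2 fun g h1 h2 => h2.2 h1.2)]
  congr 1; ext g; simp; tauto

theorem L360 (ψ : S4 →* Y) (inj : Function.Injective ψ)
    (hC : ∀ y, y * ψ t4 = ψ t4 * y → y ∈ ψ.range) (h1 : ∀ u, Iv u → IsConj (ψ t4) u) :
    Nat.card Y = 72 + 32 * Nat.card (centralizer ({ψ c3} : Set Y)) := by
  classical
  have := Fintype.ofFinite Y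
  have eq1 : ∀ {a}, ψ a = 1 ↔ a = 1 := fun {a} => by rw [← map_one ψ, inj.eq_iff]
  have ivψ : ∀ a, Iv (ψ a) ↔ a ≠ 1 ∧ a * a = 1 := fun a => by simp [Iv, ← map_mul, eq1]
  have A : ∀ {u y : Y}, Iv u → y * u = u * y → y * y * (y * y) = 1 := fun {u y} hu e => by
    obtain ⟨g, rfl⟩ := isConj_iff.1 (h1 u hu)
    obtain ⟨a, ha⟩ := hC _ (back e)
    have := S4_ct a (inj (by rw [map_mul, map_mul, ha, back e]))
    calc _ = g * (g⁻¹ * y * g * (g⁻¹ * y * g) * (g⁻¹ * y * g * (g⁻¹ * y * g))) * g⁻¹ := by group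
      _ = 1 := by rw [← ha, ← map_mul, ← map_mul, this]; simp
  have B : ∀ {u v w}, Vv v → Vv w → u * ψ v * u⁻¹ = ψ w → u ∈ ψ.range := fun {u v w} hv hw e => by
    obtain ⟨a, rfl⟩ := S4_Vv v hv
    obtain ⟨b, rfl⟩ := S4_Vv w hw
    obtain ⟨c, hc⟩ := hC ((ψ b)⁻¹ * u * ψ a) (comm_of_conj (by
      simp only [map_mul, map_inv] at e
      calc _ = (ψ b)⁻¹ * (u * (ψ a * ψ t4 * (ψ a)⁻¹) * u⁻¹) * ψ b := by group
        _ = _ := by rw [e]; group)).symm
    exact ⟨b * c * a⁻¹, by simp [hc, mul_assoc]⟩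
  have c8 : Nat.card (centralizer ({ψ t4} : Set Y)) = 8 := by
    rw [card_eq_ncard, ← S4_ct8, ← ncard_range inj (fun y => y * ψ t4 = ψ t4 * y) _
      fun a => by rw [← map_mul, ← map_mul, inj.eq_iff]]
    congr 1; ext y; exact ⟨fun h => ⟨mc.1 h, hC y (mc.1 h)⟩, fun h => mc.2 h.1⟩
  have cj : {u : Y | Iv u}.ncard * 8 = Nat.card Y := by
    rw [← c8, ← Invol.card_conj_mul_card_centralizer (ψ t4), ← Nat.card_coe_set_eq]
    congr 1
    refine Nat.card_congr (Equiv.subtypeEquivRight fun u => ⟨h1 u, fun h => ?_⟩)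
    obtain ⟨g, rfl⟩ := isConj_iff.1 h
    exact ((ivψ t4).2 ⟨S4_cards.2.2.2.2.1, S4_cards.2.2.2.2.2.1⟩).conj g
  have c5 : ∀ u : Y, Iv u → {w | Iv w ∧ w * u * w⁻¹ = u⁻¹}.ncard = 5 := fun u hu => by
    obtain ⟨g, rfl⟩ := isConj_iff.1 (h1 u hu)
    rw [← S4_ct5, ← ncard_range inj (fun y => Iv y ∧ y * ψ t4 = ψ t4 * y) _
      fun a => by rw [← map_mul, ← map_mul, inj.eq_iff, ivψ], hu.inv]
    symm
    refine ncard_conj g _ _ fun y => ⟨fun h => ⟨h.1.1.conj g, ?_⟩, fun h => ?_⟩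
    · exact conj_comm' (comm_conj g h.1.2).symm
    · have h2 := back (comm_of_conj h.2).symm
      simp only [mul_assoc, inv_mul_cancel_left, inv_mul_cancel, mul_one] at h2
      exact ⟨⟨by simpa [mul_assoc] using h.1.conj g⁻¹, h2⟩, hC y h2⟩
  set c := Nat.card (centralizer ({ψ c3} : Set Y))
  have c3' : ∀ h, O3 h → {w | Iv w ∧ w * ψ h * w⁻¹ = (ψ h)⁻¹}.ncard = c := fun h hh => by
    obtain ⟨e1, e2, ⟨a, ha⟩, ⟨s, hs, e3⟩, -⟩ := S4_O3 h hh
    have hs' := (ivψ s).2 ⟨hs.1, hs.2.1⟩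
    rw [ncard_inverters hs' (by rw [← map_inv, ← map_inv, ← map_mul, ← map_mul, e3])
      (by rwa [← map_inv, Ne, inj.eq_iff]) fun k k1 k2 => ?_, ← ha, map_mul, map_mul, map_inv,
      card_cent_conj]
    by_contra k3
    obtain ⟨z, hz, e⟩ := iv_of_four k3 (A hs' k2)
    exact e1 (eq1.1 (by simpa using A hz (e _ k1.symm)))
  set J := univ.filter fun u : Y => Iv u ∧ u ∉ ψ.range with hJ
  have mJ : ∀ {u}, u ∈ J ↔ Iv u ∧ u ∉ ψ.range := by simp [hJ]
  let I : Y → Finset S4 := fun u => univ.filter fun h => u * ψ h * u⁻¹ = (ψ h)⁻¹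
  have mI : ∀ {u h}, h ∈ I u ↔ u * ψ h * u⁻¹ = (ψ h)⁻¹ := by simp [I]
  have n1 : ∀ u ∈ J, (J.filter fun v => u⁻¹ * v ∈ ψ.range).card = (I u).card := by
    intro u hu
    obtain ⟨hu, huK⟩ := mJ.1 hu
    symm
    refine card_bij (fun h _ => u * ψ h) (fun h hh => ?_) (fun a _ b _ e => ?_) (fun a ha => ?_)
    · have h2 : u * ψ h ∉ ψ.range := fun e => huK ((mul_mem_cancel_right (MonoidHom.mem_range.2 ⟨h, rfl⟩)).1 e)
      refine mem_filter.2 ⟨mJ.2 ⟨⟨fun e => h2 (e ▸ one_mem _), ?_⟩, h2⟩, h, by simp⟩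
      have := mI.1 hh
      rw [hu.inv] at this
      rw [← mul_assoc, this, inv_mul_cancel]
    · exact inj (mul_left_cancel e)
    · obtain ⟨ha, h, e⟩ := mem_filter.1 ha
      obtain ⟨ha, -⟩ := mJ.1 ha
      exact ⟨h, mI.2 (by simp [e, ha.inv, hu.inv, hu.cancel]), by simp [e]⟩
  have n2 : ∀ u ∈ J, (1 : ℚ) / (I u).card =
      1 - ((I u).filter Tr).card / 2 - ((I u).filter O3).card / 3 ∧
      (((I u).filter Tr).card : ℚ) + ((I u).filter O3).card / 2 ≤ 1 := by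
    intro u hu
    obtain ⟨hu, huK⟩ := mJ.1 hu
    have i1 : 1 ∈ I u := mI.2 (by simp)
    have mul2 : ∀ {a b}, a ∈ I u → b ∈ I u → u * ψ (a * b) * u⁻¹ = ψ (a⁻¹ * b⁻¹) := fun ha hb => by
      rw [map_mul, ← conj_mul, mI.1 ha, mI.1 hb]; simp
    have iinv : ∀ {a}, a ∈ I u → a⁻¹ ∈ I u := fun ha => mI.2 (by rw [map_inv, ← conj_inv, mI.1 ha])
    have nV : ∀ {a}, a ∈ I u → ¬ Vv a := fun {a} ha hv =>
      huK (B hv hv (by rw [mI.1 ha, ← map_inv, inv_eq_of_mul_eq_one_right hv.2.1]))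
    have cs : ∀ a ∈ I u, a = 1 ∨ Tr a ∨ O3 a := fun a ha => by
      rcases S4_cases a with e | e | e | e
      · exact .inl e
      · exact absurd e (nV ha)
      · exact absurd e (nV (mI.2 (by rw [mul2 ha ha]; simp)))
      · exact .inr e
    by_cases hT : ∃ s ∈ I u, Tr s
    · obtain ⟨s, hs, ts⟩ := hT
      have si := inv_eq_of_mul_eq_one_right ts.2.1
      have e : I u = {1, s} := by
        ext a
        simp only [mem_insert, mem_singleton]
        refine ⟨fun ha => ?_, by rintro (rfl | rfl) <;> assumption⟩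
        rcases cs a ha with e | e | e
        · exact .inl e
        · have e2 := mul2 hs ha
          rw [si, inv_eq_of_mul_eq_one_right e.2.1] at e2
          rcases S4_TT s ts a e with e1 | e1 | e1
          · exact .inr e1
          · exact absurd (B e1 e1 e2) huK
          · exact absurd (eq1.1 (by simpa using A hu (comm_of_conj e2))) (S4_O3 _ e1).1
        · exfalso
          rcases S4_TO s ts a e with e1 | e1
          · have h2 : Iv (u * ψ s) := ⟨fun e => huK ⟨s⁻¹, by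
              rw [map_inv, eq_inv_of_mul_eq_one_left e]⟩, by
                have := mI.1 hs
                rw [hu.inv] at this
                rw [← mul_assoc, this, inv_mul_cancel]⟩
            have h3 : u * ψ s * ψ a * (u * ψ s)⁻¹ = ψ a := by
              calc u * ψ s * ψ a * (u * ψ s)⁻¹ = u * ψ (s * a * s⁻¹) * u⁻¹ := by simp [mul_assoc]
                _ = _ := by rw [e1, mI.1 (iinv ha)]; simp
            exact (S4_O3 _ e).1 (eq1.1 (by simpa using A h2 (comm_of_conj h3)))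
          · exact huK (B e1.1 e1.2 (by rw [map_mul, ← conj_mul, mul2 hs ha, ← map_mul]))
      obtain ⟨-, e1, e2, e3⟩ := S4_Tr s ts
      rw [e, e1, e2, e3]; norm_num
    by_cases hO : ∃ s ∈ I u, O3 s
    · obtain ⟨s, hs, ts⟩ := hO
      have e : I u = {1, s, s⁻¹} := by
        ext a
        simp only [mem_insert, mem_singleton]
        refine ⟨fun ha => ?_, by
          rintro (rfl | rfl | rfl)
          exacts [i1, hs, iinv hs]⟩
        rcases cs a ha with e | e | e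
        · exact .inl e
        · exact absurd ⟨a, ha, e⟩ hT
        · rcases S4_OO s ts a e with e1 | e1 | e1 | e1
          · exact .inr (.inl e1)
          · exact .inr (.inr e1)
          · exact absurd (B e1.1 e1.2 (mul2 hs ha)) huK
          · exact absurd (B e1.1 e1.2 (mul2 hs (iinv ha))) huK
      obtain ⟨-, -, -, -, -, e1, e2, e3⟩ := S4_O3 s ts
      rw [e, e1, e2, e3]; norm_num
    have e : I u = {1} := by
      ext a
      simp only [mem_singleton]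
      refine ⟨fun ha => ?_, by rintro rfl; exact i1⟩
      rcases cs a ha with e | e | e
      exacts [e, absurd ⟨a, ha, e⟩ hT, absurd ⟨a, ha, e⟩ hO]
    rw [e, filter_singleton, filter_singleton, if_neg S4_cards.2.2.1, if_neg S4_cards.2.2.2.1]
    norm_num
  have dc : ∀ (P : S4 → Prop) [DecidablePred P] (m : ℕ), (∀ h, P h →
      {w | Iv w ∧ w * ψ h * w⁻¹ = (ψ h)⁻¹}.ncard = m ∧
      (univ.filter fun a : S4 => (a ≠ 1 ∧ a * a = 1) ∧ a * h * a⁻¹ = h⁻¹).card = 3) →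
      ∑ u ∈ J, (((I u).filter P).card : ℚ) = (univ.filter P).card * ((m : ℚ) - 3) := by
    intro P _ m hP
    have : ∀ u, (((I u).filter P).card : ℚ) =
        ∑ h ∈ univ.filter P, if h ∈ I u then (1 : ℚ) else 0 := fun u => by
      rw [← sum_filter, sum_const, nsmul_eq_mul, mul_one]
      congr 2; ext; simp [and_comm]
    rw [sum_congr rfl fun u _ => this u, sum_comm, ← nsmul_eq_mul, ← sum_const]
    refine sum_congr rfl fun h hh => ?_
    obtain ⟨e1, e2⟩ := hP h (mem_filter.1 hh).2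
    rw [ncard_split _ (· ∈ ψ.range), ncard_range inj _
      (fun a : S4 => (a ≠ 1 ∧ a * a = 1) ∧ a * h * a⁻¹ = h⁻¹) fun a => by
        rw [ivψ, ← map_inv, ← map_inv, ← map_mul, ← map_mul, inj.eq_iff], e2] at e1
    rw [← sum_filter, sum_const, nsmul_eq_mul, mul_one, ← e1, Set.ncard_eq_toFinset_card']
    push_cast
    rw [add_sub_cancel_left]
    congr 2; ext; simp [mJ, mI]; tauto
  have d1 := dc Tr 5 fun h hh => ⟨c5 _ ((ivψ h).2 ⟨hh.1, hh.2.1⟩), (S4_Tr h hh).1⟩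
  have d2 := dc O3 c fun h hh => ⟨c3' h hh, (S4_O3 h hh).2.2.2.2.1⟩
  rw [S4_cards.1] at d1
  rw [S4_cards.2.1] at d2
  have d3 := cosum ψ.range J fun u hu => (mJ.1 hu).2
  rw [sum_congr rfl fun u hu => by rw [n1 u hu, (n2 u hu).1], sum_sub_distrib, sum_sub_distrib,
    ← sum_div, ← sum_div, d1, d2, sum_const, nsmul_eq_mul, mul_one] at d3
  have d4 := sum_le_sum fun u hu => (n2 u hu).2
  rw [sum_add_distrib, ← sum_div, d1, d2, sum_const, nsmul_eq_mul, mul_one] at d4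
  have d5 : {u : Y | Iv u}.ncard = 9 + J.card := by
    rw [ncard_split _ (· ∈ ψ.range), ncard_range inj _ _ ivψ, S4_9, Set.ncard_eq_toFinset_card']
    congr 2; ext; simp [mJ]
  have d6 := ψ.range.index_mul_card
  rw [← Nat.card_congr (MonoidHom.ofInjective inj).toEquiv, Nat.card_eq_fintype_card (α := S4),
    Fintype.card_perm, Fintype.card_fin, show Nat.factorial 4 = 24 by decide] at d6
  have d7 : (J.card : ℚ) = 3 * ψ.range.index - 9 := by
    have : J.card + 9 = 3 * ψ.range.index := by omega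
    have := congrArg (Nat.cast (R := ℚ)) this
    push_cast at this; linarith
  have d8 : (3 * ψ.range.index : ℚ) = 9 + 4 * c := by
    rw [d7] at d3 d4; push_cast at d3 d4; linarith
  have : 3 * ψ.range.index = 9 + 4 * c := by exact_mod_cast d8
  omega

end Cfsg.Agent.Lib.Jk
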