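import Cfsg.Agent.Lib.Jk.TS

set_option autoImplicit false
set_option maxRecDepth 100000

/-! # The Sylow 3-subgroup of `G` -/

namespace Cfsg.Agent.Lib.Jk

open Subgroup Cfsg.Agent.Lib.Core
open Cfsg.Agent.Lib.Root.J1 hiding Emb t0 v0 x0 T

variable {G : Type*} [Group G] [Finite G]

def PP (φ : M →* G) (w : G) : Subgroup G := normalizer (TT φ w : Set G) ⊓ centralizer {w}

namespace D3
variable {t : G} {φ : M →* G} {r u w : G} (h : D3 t φ r u w)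
include h

theorem card_P : Nat.card (PP φ w) = 243 := by
  have := card_eq_orbit_mul (normalizer (TT φ w : Set G)) w
  rw [h.card_NT, show {y | ∃ k ∈ normalizer (TT φ w : Set G), k * w * k⁻¹ = y} = (h.W : Set G) \ {1}
    from ?_, Set.ncard_sdiff_singleton_of_mem (one_mem _), ← card_eq_ncard, h.card_W] at this
  · unfold PP; omega
  ext y
  constructor
  · rintro ⟨k, hk, rfl⟩
    exact ⟨h.normW hk h.wW, by simpa using h.w1⟩
  · exact fun hy => (h.trans hy.1 hy.2).imp fun n hn => ⟨hn.1, hn.2.2⟩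

omit [Finite G] h in
theorem T_le_P : TT φ w ≤ PP φ w := fun _ hx => ⟨le_normalizer hx, hx.2⟩

theorem sW_notW {y : G} (hy : y ∈ h.W) : φ sg * y ∉ h.W := fun e =>
  h.s_notW ((mul_mem_cancel_right hy).1 e)

theorem P_surj0 {y : G} (hy : y ∈ h.W) : ∃ p ∈ normalizer (TT φ w : Set G) ⊓ centralizer h.W,
    p * φ sg * p⁻¹ = φ sg * y := by
  obtain ⟨g, hg, e⟩ := h.transA (mul_mem h.sT (inv_mem hy.1)) (h.sW_notW (inv_mem hy))
  have k : ∀ x ∈ h.W, g * u * g⁻¹ * x * (g * u * g⁻¹)⁻¹ = x⁻¹ := fun x hx => by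
    have := (h.normW (inv_mem hg) hx).2
    calc _ = g * (u * (g⁻¹ * x * g⁻¹⁻¹) * u⁻¹) * g⁻¹ := by group
      _ = _ := by rw [this]; group
  refine ⟨g * u * g⁻¹ * u, ⟨(normalizer _).mul_mem (mul_mem (mul_mem hg h.uNT) (inv_mem hg)) h.uNT,
    mem_centralizer_iff.2 fun x hx => comm_of_conj ?_⟩, ?_⟩
  · calc _ = g * u * g⁻¹ * (u * x * u⁻¹) * (g * u * g⁻¹)⁻¹ := by group
      _ = x := by rw [hx.2, k _ (inv_mem hx), inv_inv]
  · calc _ = g * u * g⁻¹ * (u * φ sg * u⁻¹) * (g * u * g⁻¹)⁻¹ := by group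
      _ = g * u * g⁻¹ * (g * φ sg * g⁻¹ * y) * (g * u * g⁻¹)⁻¹ := by
        rw [conj_comm' h.us.symm, e]; group
      _ = _ := by
        rw [← conj_mul, k y hy, show g * u * g⁻¹ * (g * φ sg * g⁻¹) * (g * u * g⁻¹)⁻¹ =
          g * (u * φ sg * u⁻¹) * g⁻¹ by group, conj_comm' h.us.symm, e, mul_assoc, ← mul_inv_rev,
          eq_inv_of_mul_eq_one_left (h.W3 hy), inv_inv]

theorem P_eq : normalizer (TT φ w : Set G) ⊓ centralizer h.W = PP φ w := by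
  have le : normalizer (TT φ w : Set G) ⊓ centralizer h.W ≤ PP φ w := fun x hx =>
    ⟨hx.1, mc.2 (mem_centralizer_iff.1 hx.2 w h.wW).symm⟩
  refine eq_of_le_of_card_ge le ?_
  rw [h.card_P, card_eq_orbit_mul _ (φ sg)]
  have h1 : 9 ≤ {y | ∃ k ∈ normalizer (TT φ w : Set G) ⊓ centralizer h.W,
      k * φ sg * k⁻¹ = y}.ncard := by
    rw [← h.card_W, card_eq_ncard, ← Set.ncard_image_of_injective (h.W : Set G)
      (mul_right_injective (φ sg))]
    exact Set.ncard_le_ncard (by rintro _ ⟨y, hy, rfl⟩; exact h.P_surj0 hy)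
  have h2 := card_le_of_le (show TT φ w ≤ normalizer (TT φ w : Set G) ⊓ centralizer h.W ⊓
    centralizer {φ sg} from fun x hx => ⟨⟨le_normalizer hx, mem_centralizer_iff.2 fun y hy =>
      h.T_comm hy.1 hx⟩, hx.1⟩)
  rw [h.card_T] at h2
  nlinarith

theorem P_W {p y : G} (hp : p ∈ PP φ w) (hy : y ∈ h.W) : p * y = y * p :=
  (mem_centralizer_iff.1 (h.P_eq ▸ hp : p ∈ _ ⊓ centralizer (h.W : Set G)).2 y hy).symm

theorem P_surj {y : G} (hy : y ∈ h.W) : ∃ p ∈ PP φ w, p * φ sg * p⁻¹ = φ sg * y :=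
  h.P_eq ▸ h.P_surj0 hy

theorem P_pg : IsPGroup 3 (PP φ w) := IsPGroup.of_card (n := 5) h.card_P

theorem P_odd {x : G} (hx : x ∈ PP φ w) : Odd (orderOf x) :=
  Odd.of_dvd_nat (by rw [h.card_P]; decide) (orderOf_dvd_natCard _ hx)

theorem P_s {p : G} (hp : p ∈ PP φ w) : ∃ y ∈ h.W, p * φ sg * p⁻¹ = φ sg * y := by
  obtain ⟨z, hz, y, hy, e⟩ := h.T_dec (conj_mem_of_mem_normalizer hp.1 h.sT)
  rcases (mem_zp3 h.s3).1 hz with rfl | rfl | rfl
  · exact absurd (e ▸ by simpa using hy) ((h.isA_iff (conj_mem_of_mem_normalizer hp.1 h.sT)).1 ⟨p, rfl⟩)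
  · exact ⟨y, hy, e⟩
  · obtain ⟨q, hq, e2⟩ := h.P_surj hy
    refine absurd (Invol.eq_inv_of_odd_inverts (g := q * p) ?_ (h.P_odd (mul_mem hq hp))).symm h.s_inv_ne
    calc _ = q * (p * φ sg * p⁻¹) * q⁻¹ := by group
      _ = _ := by
        rw [e, ← conj_mul, ← conj_inv, e2, conj_comm' (h.P_W hq hy).symm, ← h.T_comm hy.1 h.sT]; group

theorem P_act {p x : G} (hp : p ∈ PP φ w) (hx : x ∈ TT φ w) : ∃ y ∈ h.W, p * x * p⁻¹ = x * y := by
  obtain ⟨z, hz, y, hy, rfl⟩ := h.T_dec hx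
  obtain ⟨c, hc, e⟩ := h.P_s hp
  rw [← conj_mul, conj_comm' (h.P_W hp hy).symm]
  rcases (mem_zp3 h.s3).1 hz with rfl | rfl | rfl
  · exact ⟨1, one_mem _, by simp⟩
  · exact ⟨c, hc, by rw [e, mul_assoc, h.T_comm hc.1 hy.1, mul_assoc]⟩
  · exact ⟨c⁻¹, inv_mem hc, by
      rw [← conj_inv, e, ← h.T_comm hc.1 h.sT, mul_inv_rev, mul_assoc, h.T_comm (inv_mem hc.1) hy.1,
        mul_assoc]⟩

theorem cube_T {p x : G} (hp : p ∈ PP φ w) (hx : x ∈ TT φ w) :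
    p * x * (p * x) * (p * x) = p * p * p := by
  obtain ⟨y, hy, e⟩ := h.P_act (inv_mem hp) hx
  have c := conj_comm' (h.P_W (inv_mem hp) hy).symm
  have c2 : Commute x y := h.T_comm hx hy.1
  calc _ = p * p * p * (p⁻¹ * (p⁻¹ * x * p⁻¹⁻¹) * p⁻¹⁻¹ * (p⁻¹ * x * p⁻¹⁻¹) * x) := by group
    _ = p * p * p * (x * x * x * (y * y * y)) := by
      rw [e, ← conj_mul, e, c]
      simp only [mul_assoc, c2.symm.left_comm, c2.symm.eq]
    _ = _ := by rw [h.T3 hx, h.W3 hy, mul_one, mul_one]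

theorem four_conj {a e z : G} (ha : Iv a) (a1 : a * φ sg = φ sg * a) (hz : z ∈ zpowers (φ sg))
    (he : e = z * w ∨ e = z * w⁻¹) (h1 : e * a * e⁻¹ * a = a * (e * a * e⁻¹))
    (h2 : e * (e * a * e⁻¹) * e⁻¹ = a * (e * a * e⁻¹)) : ∃ x ∈ TT φ w, x * t * x⁻¹ = a := by
  have eT : e ∈ TT φ w := by
    rcases he with rfl | rfl
    exacts [mul_mem (h.zT hz) h.wT, mul_mem (h.zT hz) (inv_mem h.wT)]
  have es := (mem_TT.1 eT).1
  obtain ⟨g, rfl, g2⟩ := h.threeA ha h.s3 h.s1 a1.symm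
  obtain ⟨b, hb, eb⟩ := h.emb.memS (back h1) (back (by
    rw [g2]; simpa [conj_comm' es.symm] using comm_conj e a1))
  have b1 := (h.emb.iv_iff (a := b)).1 (by rw [eb]; simpa using (ha.conj e).conj g⁻¹)
  have b2 : b ≠ t0 := by
    rintro rfl
    have : e * (g * t * g⁻¹) * e⁻¹ = g * t * g⁻¹ := by
      conv_rhs => rw [← h.emb.map_t, eb]
      group
    rw [this, this, ha.2] at h2
    exact ha.1 h2
  obtain ⟨c, -, c1, c2⟩ := (by decide +kernel : ∀ b ∈ SL, b ≠ 1 → b * b = 1 → b ≠ t0 →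
    ∃ c ∈ [1, x3, n0, n0 * x3], c * x4 * c⁻¹ = b ∧ (c * sg * c⁻¹ = sg ∨ c * sg * c⁻¹ = sg⁻¹))
    b hb b1.1 b1.2 b2
  have k1 : g * φ c * t * (g * φ c)⁻¹ = g * t * g⁻¹ := by rw [mul_assoc g, h.emb.comm]; group
  have k2 : g * φ c * φ x4 * (g * φ c)⁻¹ = e * (g * t * g⁻¹) * e⁻¹ := by
    calc _ = g * (φ c * φ x4 * (φ c)⁻¹) * g⁻¹ := by group
      _ = _ := by rw [h.emb.conj_iff.2 c1, eb]; group
  have k3 : g * φ c ∈ normalizer (zpowers (φ sg) : Set G) := mul_mem (h.normS' (.inl g2))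
    (h.normS' (c2.imp h.emb.conj_iff.2 fun e => by rw [h.emb.conj_iff.2 e, map_inv]))
  rw [← k1] at h2 k2 ⊢
  generalize g * φ c = k at *
  have wtx : w * φ tx * w⁻¹ = t := by rw [← h.rtx, h.w_conj (by decide +kernel)]
  have ks : k⁻¹ * e * k * φ sg = φ sg * (k⁻¹ * e * k) := back (by
    rcases h.normS k3 with e1 | e1 <;> rw [e1]
    exacts [es, Commute.inv_right es])
  obtain ⟨s, hs, e1⟩ := h.emb.memS (y := w⁻¹ * (k⁻¹ * e * k)) (comm_of_conj (by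
    calc _ = w⁻¹ * k⁻¹ * (e * (k * t * k⁻¹) * e⁻¹) * k * w := by group
      _ = t := by rw [← k2, ← h.wt]; group)).symm (Commute.mul_left (Commute.inv_left h.ws) ks :)
  have s1 : s * x4 = x4 * s := h.emb.comm_iff.1 (comm_of_conj (by
    calc _ = w⁻¹ * k⁻¹ * (e * (k * φ x4 * k⁻¹) * e⁻¹) * k * w := by rw [e1]; group
      _ = _ := by rw [k2, h2, ← k2, conj_mul, ← h.etx, ← h.wx]; group)).symm
  obtain ⟨i, hi, d, hd, rfl⟩ := (by decide +kernel : ∀ b ∈ SL, b * x4 = x4 * b →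
    ∃ i ∈ [1, sg, sg⁻¹], ∃ c ∈ UL, b = c * i) s hs s1
  have iz : φ i ∈ zpowers (φ sg) := (mem_zp3 h.s3).2 (by
    simp only [List.mem_cons, List.not_mem_nil, or_false] at hi
    rcases hi with rfl | rfl | rfl <;> simp)
  obtain ⟨y, y1, y2, y3⟩ : ∃ y, y * t = t * y ∧ y * φ sg = φ sg * y ∧ y * w * y⁻¹ = w * φ d := by
    have key : ∀ a b c, w * φ a * w⁻¹ = φ b → a * b⁻¹ = c → φ b * w * (φ b)⁻¹ = w * φ c :=
      fun a b c e1 e2 => by rw [← e2, map_mul, map_inv]; nth_rewrite 1 [← e1]; group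
    have e2 := h.wt
    rw [← h.emb.map_t] at e2 wtx
    simp only [UL, List.mem_cons, List.not_mem_nil, or_false] at hd
    rcases hd with rfl | rfl | rfl | rfl
    · exact ⟨1, by simp, by simp, by simp⟩
    · exact ⟨_, h.emb.comm _, h.emb.comm_iff.2 (by decide +kernel), key _ _ _ h.wx (by decide +kernel)⟩
    · exact ⟨_, h.emb.comm _, h.emb.comm_iff.2 (by decide +kernel), key _ _ _ wtx (by decide +kernel)⟩
    · exact ⟨_, h.emb.comm _, h.emb.comm_iff.2 (by decide +kernel), key _ _ _ e2 (by decide +kernel)⟩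
  have k4 := mul_mem k3 (h.normS' (.inl (conj_comm' y2.symm)))
  have k5 : k * y * w * (k * y)⁻¹ = e * (k * (φ i)⁻¹ * k⁻¹) := by
    calc _ = k * (y * w * y⁻¹) * k⁻¹ := by group
      _ = k * w * φ (d * i) * (φ i)⁻¹ * k⁻¹ := by rw [y3, map_mul]; group
      _ = _ := by rw [e1]; group
  have k6 := conj_mem_of_mem_normalizer k3 (inv_mem iz)
  have k7 : k * y * t * (k * y)⁻¹ = k * t * k⁻¹ := by rw [mul_assoc k, y1]; group
  rw [← k7]
  generalize k * (φ i)⁻¹ * k⁻¹ = z' at k5 k6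
  generalize k * y = n at k4 k5
  have k8 : e * z' ∈ h.W := by
    by_contra e2
    exact h.notA_w (IsA.of_conj (k5 ▸ (h.isA_iff (mul_mem eT (h.zT k6))).2 e2))
  have k9 : ∀ v ∈ h.W, z * v * z' ∈ h.W → z * v * z' = v := fun v hv e2 => by
    rw [mul_assoc, h.T_comm hv.1 (h.zT k6), ← mul_assoc] at e2 ⊢
    rw [h.W_z ((mul_mem_cancel_right hv).1 e2) (mul_mem hz k6), one_mul]
  rcases he with rfl | rfl
  · rw [k9 _ h.wW k8] at k5
    exact ⟨n, h.reg (h.normS k4) h.wW h.w1 (comm_of_conj k5).symm, rfl⟩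
  · rw [k9 _ (inv_mem h.wW) k8] at k5
    refine ⟨n * u, h.reg (h.normS (mul_mem k4 (h.normS' (.inl (conj_comm' h.us.symm))))) h.wW h.w1
      (comm_of_conj ?_).symm, by rw [mul_assoc n, h.ut]; group⟩
    calc _ = n * (u * w * u⁻¹) * n⁻¹ := by group
      _ = w := by rw [h.uw, ← conj_inv, k5, inv_inv]

omit [Finite G] in
theorem A_fpf {ρ b : G} (hρ : ρ = r ∨ ρ = r⁻¹) (hb : b ∈ AA t φ)
    (e : ρ * φ sg * b * (ρ * φ sg)⁻¹ = b) : b = 1 := by
  obtain ⟨a, ha, rfl⟩ := h.mem_AA'.1 hb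
  obtain ⟨c, hc, v, hv, rfl⟩ := AL_dec a ha
  have h1 : ρ * φ c * ρ⁻¹ ∈ UU φ := by
    rcases hρ with rfl | rfl
    · exact h.rU ⟨c, hc, rfl⟩
    · have := h.rU (h.rU ⟨c, hc, rfl⟩)
      rwa [show r * (r * φ c * r⁻¹) * r⁻¹ = r * r * φ c * (r * r)⁻¹ by group,
        eq_inv_of_mul_eq_one_left h.r3] at this
  obtain ⟨v', v1, v2⟩ := (by decide +kernel : ∀ v ∈ [1, v1, v3, v1 * v3], ∃ v' ∈ [1, v1, v3, v1 * v3],
    sg * v * sg⁻¹ = v' ∧ (v * v'⁻¹ ∈ UL → v = 1)) v hv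
  have h2 : ρ * φ v' * ρ⁻¹ = φ v' := by
    rcases hρ with rfl | rfl
    exacts [conj_comm' (h.rV v1).symm, conj_comm' (Commute.inv_left (h.rV v1)).symm]
  have h3 : ρ * φ c * ρ⁻¹ * φ v' = φ c * φ v := by
    rw [← map_mul, ← e, ← h2, conj_mul, ← v2.1, ← map_mul, ← mul_assoc, ← mul_assoc,
      (by decide +kernel : ∀ c ∈ UL, c * sg = sg * c) c hc]
    simp [mul_assoc]
  have h4 := v2.2 (h.mem_UU'.1 (by
    have := mul_mem (inv_mem (h.mem_UU'.2 hc)) h1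
    rwa [eq_mul_inv_of_mul_eq h3, mul_assoc, inv_mul_cancel_left, ← map_inv, ← map_mul] at this))
  subst h4
  obtain ⟨rfl, -⟩ := v2
  simp only [mul_one, mul_inv_cancel, map_one] at h3 ⊢
  refine h.rU_fix ⟨c, hc, rfl⟩ ?_
  rcases hρ with rfl | rfl
  · exact h3
  · conv_lhs => rw [← h3]
    group

theorem nu {p ρ : G} (hp : p ∈ PP φ w) (h3 : p * p * p = 1) (hρ : ρ = r ∨ ρ = r⁻¹)
    (e : p * φ sg * p⁻¹ = ρ) (e2 : ρ = φ sg * w ∨ ρ = φ sg * w⁻¹) : False := by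
  have iv1 : Iv (φ v1) := h.emb.iv_iff.2 (by decide +kernel)
  have ρv : φ v1 * ρ = ρ * φ v1 := by
    rcases hρ with rfl | rfl
    exacts [h.rv.symm, Commute.inv_right h.rv.symm]
  have pw := conj_comm' (mc.1 hp.2).symm
  obtain ⟨x, hx, ex⟩ := h.four_conj (a := p⁻¹ * φ v1 * p) (e := p⁻¹ * φ sg * p) (z := φ sg)
    (by simpa using iv1.conj p⁻¹) (back (e ▸ ρv)) (mem_zpowers _) (by
      rcases e2 with e2 | e2
      · right
        rw [← conj_inj (g := p), ← conj_mul (a := φ sg) (b := p), e, ← conj_inv, pw, e2]; group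
      · left
        rw [← conj_inj (g := p), ← conj_mul (a := φ sg) (b := p), e, pw, e2]; group)
    (by
      have := comm_conj p⁻¹ (h.emb.comm_iff.2 (by decide +kernel : sg * v1 * sg⁻¹ * v1 =
        v1 * (sg * v1 * sg⁻¹)))
      simpa [mul_assoc] using this)
    (by
      have := congrArg (fun y => p⁻¹ * φ y * p) (by decide +kernel :
        sg * (sg * v1 * sg⁻¹) * sg⁻¹ = v1 * (sg * v1 * sg⁻¹))
      simpa [mul_assoc] using this)
  have n1 : p * x * t * (p * x)⁻¹ = φ v1 := by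
    calc _ = p * (x * t * x⁻¹) * p⁻¹ := by group
      _ = _ := by rw [ex]; group
  have n2 : p * x * φ sg * (p * x)⁻¹ = ρ := by rw [mul_assoc p, (mem_TT.1 hx).1, ← e]; group
  have n3 := (h.cube_T hp hx).trans h3
  have n4 := conj_comm' (mc.1 (mul_mem hp (T_le_P hx)).2).symm
  generalize p * x = n at n1 n2 n3 n4
  have n5 : n * φ v1 * n⁻¹ = n⁻¹ * t * n := by
    rw [← n1, ← eq_inv_of_mul_eq_one_left n3]
    nth_rewrite 4 [← inv_inv n]
    rw [← eq_inv_of_mul_eq_one_left n3]; group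
  refine (iv1.conj n).1 (h.A_fpf hρ (mem_AA.2 ⟨?_, ?_⟩) (conj_comm' ?_))
  · rw [n5]; exact back (by rw [n1, h.emb.comm])
  · nth_rewrite 2 3 [← n1]; exact comm_conj n (h.emb.comm _)
  · have c := comm_conj n ρv
    have e3 : n * ρ * n⁻¹ = (ρ * φ sg)⁻¹ := by
      have s2 := eq_inv_of_mul_eq_one_left h.s3
      have w2 := eq_inv_of_mul_eq_one_left h.w3
      have cw : Commute w (φ sg) := h.ws
      rcases e2 with e2 | e2
      · rw [e2, ← conj_mul, n2, n4, e2, mul_assoc, w2, mul_assoc, cw.eq, ← mul_assoc, s2,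
          mul_inv_rev, inv_inv, cw.inv_left.eq]
      · rw [e2, ← conj_mul, ← conj_inv, n2, n4, e2, mul_assoc, ← mul_inv_rev, w2, inv_inv, mul_assoc,
          cw.inv_left.eq, ← mul_assoc, s2, mul_inv_rev, inv_inv, inv_inv, cw.eq]
    rw [e3] at c
    exact Commute.inv_right_iff.1 c

theorem cube_ne {p : G} (hp : p ∈ PP φ w) (h3 : p * p * p = 1) : p ∈ TT φ w := by
  by_contra hT
  obtain ⟨y, hy, e⟩ := h.P_s hp
  have y1 : y ≠ 1 := by
    rintro rfl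
    exact hT ⟨mc.2 (comm_of_conj (by simpa using e)).symm, hp.2⟩
  obtain ⟨n, hn, n1, rfl⟩ := h.trans hy y1
  have hq : n⁻¹ * p * n ∈ PP φ w := ⟨(normalizer _).mul_mem (mul_mem (inv_mem hn) hp.1) hn, mc.2 (back (h.P_W hp hy))⟩
  have q3 : n⁻¹ * p * n * (n⁻¹ * p * n) * (n⁻¹ * p * n) = 1 := by
    calc _ = n⁻¹ * (p * p * p) * n := by group
      _ = 1 := by rw [h3]; simp
  have q1 : n⁻¹ * p * n * (n⁻¹ * φ sg * n⁻¹⁻¹) * (n⁻¹ * p * n)⁻¹ = n⁻¹ * φ sg * n⁻¹⁻¹ * w := by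
    calc _ = n⁻¹ * (p * φ sg * p⁻¹) * n := by group
      _ = _ := by rw [e]; group
  have cw : Commute w (φ sg) := h.ws
  obtain ⟨q, hq, q3, q1⟩ : ∃ q ∈ PP φ w, q * q * q = 1 ∧ q * φ sg * q⁻¹ = φ sg * w := by
    generalize n⁻¹ * p * n = q at hq q3 q1
    rcases h.normS (inv_mem (h.normS' n1)) with e1 | e1 <;> rw [e1] at q1
    · exact ⟨q, hq, q3, q1⟩
    · refine ⟨q⁻¹, inv_mem hq, by rw [← mul_inv_rev, ← mul_inv_rev, ← mul_assoc, q3, inv_one], ?_⟩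
      rw [← conj_inj (g := q), ← conj_mul (a := φ sg) (b := q), conj_comm' (mc.1 hq.2).symm, ← inv_inv (φ sg),
        ← conj_inv (b := q), q1, mul_inv_rev, inv_inv, cw.inv_left.eq]
      group
  obtain ⟨c, hc, e1⟩ := h.w_eq
  have e2 : r = c⁻¹ * w := by rw [← h.zs_comm (inv_mem hc) h.ws, e1]; group
  rcases (mem_zp3 h.s3).1 hc with rfl | rfl | rfl
  · exact h.notA_w (by simpa [e1] using h.r_A)
  · have e3 : r⁻¹ = φ sg * w⁻¹ := by rw [e2, mul_inv_rev, inv_inv, cw.inv_left.eq]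
    refine h.nu (inv_mem hq) (by rw [← mul_inv_rev, ← mul_inv_rev, ← mul_assoc, q3, inv_one])
      (.inr rfl) ?_ (.inr e3)
    rw [e3, ← conj_inj (g := q), ← conj_mul (a := φ sg) (b := q), ← conj_inv (b := q),
      conj_comm' (mc.1 hq.2).symm, q1]
    group
  · rw [inv_inv] at e2
    exact h.nu hq q3 (.inl rfl) (q1.trans e2.symm) (.inl e2)

theorem P_syl : IsSyl 3 (PP φ w) ⊤ := by
  haveI : Fact (Nat.Prime 3) := ⟨Nat.prime_three⟩
  have h1 : IsSyl 3 (PP φ w) (normalizer (TT φ w : Set G)) := ⟨inf_le_left, h.P_pg, by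
    have := card_mul_relIndex (inf_le_left : PP φ w ≤ _)
    rw [show normalizer (TT φ w : Set G) ⊓ centralizer {w} = PP φ w from rfl, h.card_NT,
      h.card_P] at this
    omega⟩
  refine isSyl_of_isSyl_normalizer (h1.mono (le_inf le_top le_normalizer) fun n hn =>
    mem_normalizer_of_conj_mem fun x hx => h.cube_ne
      (conj_mem_of_mem_normalizer hn.2 (T_le_P hx)) ?_)
  rw [conj_mul, conj_mul, h.T3 hx]; simp

theorem three_class {y : G} (h3 : y * y * y = 1) (h1 : y ≠ 1) : IsA φ y ∨ ∃ g, g * w * g⁻¹ = y := by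
  haveI : Fact (Nat.Prime 3) := ⟨Nat.prime_three⟩
  obtain ⟨g, -, e⟩ := h.P_syl.exists_conj_le (isPGroup_zpowers (x := y) (k := 1)
    (by rw [pow_one, pow_three', h3])) le_top
  have h2 : g * y * g⁻¹ ∈ TT φ w := h.cube_ne (e ⟨y, mem_zpowers y, rfl⟩) (by
    rw [conj_mul, conj_mul, h3]; simp)
  by_cases hW : g * y * g⁻¹ ∈ h.W
  · obtain ⟨n, -, -, e⟩ := h.trans hW (by simpa using h1)
    exact .inr ⟨g⁻¹ * n, by
      calc _ = g⁻¹ * (n * w * n⁻¹) * g := by group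
        _ = y := by rw [e]; group⟩
  · exact .inl ((h.isA_iff h2).2 hW).of_conj

end D3

end Cfsg.Agent.Lib.Jk
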