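import Cfsg.Agent.Lib.Jk.Cl
import Cfsg.Agent.Lib.Core.Syl
import Cfsg.Agent.Lib.Transfer.AbelianSylow
import Cfsg.Agent.Lib.PGroup.Extraspecial

set_option autoImplicit false
set_option maxRecDepth 100000

/-! # The abstract centraliser `2^(1+4).A₅` -/

namespace Cfsg.Agent.Lib.Jk

open Subgroup Cfsg.Agent.Lib.Core

theorem exists_pa : ∀ σ : Equiv.Perm (Fin 5), Equiv.Perm.sign σ = 1 → ∃ p, ∀ i, pa p i = σ i := by
  decide +kernel

theorem sign_toP : ∀ p, Equiv.Perm.sign (toP p) = 1 := by decide +kernel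

theorem e_inv : ∀ a, em a a = 0 → a = 0 ∨ a = 16 ∨ ∃ j, a = xc j ∨ a = em 16 (xc j) := by
  decide +kernel

theorem xc_inj : ∀ i j, (xc i = xc j ∨ xc i = em 16 (xc j) ∨ em 16 (xc i) = xc j ∨
    em 16 (xc i) = em 16 (xc j)) → i = j := by decide +kernel

theorem e_sign : ∀ p : Fin 60, ∀ a ∈ [0, 16], ∀ b ∈ [0, 16], ∀ c ∈ [0, 16], ∀ d ∈ [0, 16],
    ∀ f ∈ [0, 16], em f (xc (pa p 4)) = em (em a (xc (pa p 0))) (em (em b (xc (pa p 1)))
      (em (em c (xc (pa p 2))) (em d (xc (pa p 3))))) →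
    ∃ u, em (em (ei u) (em a (xc (pa p 0)))) u = xc (pa p 0) ∧
      em (em (ei u) (em b (xc (pa p 1)))) u = xc (pa p 1) ∧
      em (em (ei u) (em c (xc (pa p 2)))) u = xc (pa p 2) ∧
      em (em (ei u) (em d (xc (pa p 3)))) u = xc (pa p 3) ∧
      em (em (ei u) (em f (xc (pa p 4)))) u = xc (pa p 4) := by decide +kernel

theorem e_cen : ∀ a, (∀ i, em a (xc i) = em (xc i) a) → a = 0 ∨ a = 16 := by decide +kernel

variable {C : Type*} [Group C]

structure Pre (t : C) (E : Subgroup C) : Prop where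
  cen : ∀ c, c * t = t * c
  tt : t * t = 1
  tne : t ≠ 1
  nor : E.Normal
  card : Nat.card E = 32
  tE : t ∈ E
  comm : ∀ x ∈ E, ∀ y ∈ E, y * x = x * y ∨ y * x = t * (x * y)
  sq : ∀ x ∈ E, x * x = 1 ∨ x * x = t
  cen' : ∀ x ∈ E, (∀ y ∈ E, x * y = y * x) → x = 1 ∨ x = t
  quo : ∃ q : C →* alternatingGroup (Fin 5), Function.Surjective q ∧ q.ker = E

theorem pre_of [Finite C] (t : C) (ht : orderOf t = 2) (hc : ∀ c, c * t = t * c) (E : Subgroup C)
    [hE : E.Normal] (h32 : Nat.card E = 32) (hX : IsExtraspecial 2 E)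
    (e : C ⧸ E ≃* alternatingGroup (Fin 5)) : Pre t E := by
  haveI : Fact (Nat.Prime 2) := ⟨Nat.prime_two⟩
  obtain ⟨z, hz⟩ := PGroup.exists_isES_top hX
  have tt : t * t = 1 := by rw [← pow_two, ← ht, pow_orderOf_eq_one]
  have tne : t ≠ 1 := by rintro rfl; simp at ht
  let q : C →* alternatingGroup (Fin 5) := e.toMonoidHom.comp (QuotientGroup.mk' E)
  have hq : Function.Surjective q := e.surjective.comp (QuotientGroup.mk'_surjective E)
  have hk : q.ker = E := by
    ext c; simp [q, MonoidHom.mem_ker]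
  have tE : t ∈ E := by
    rw [← hk, MonoidHom.mem_ker]
    have : q t ∈ center (alternatingGroup (Fin 5)) := mem_center_iff.2 fun g => by
      obtain ⟨c, rfl⟩ := hq g
      rw [← map_mul, hc, map_mul]
    rcases (center (alternatingGroup (Fin 5))).normal_of_characteristic.eq_bot_or_eq_top with h | h
    · rwa [h, mem_bot] at this
    · exfalso
      have h1 : ∀ a b : alternatingGroup (Fin 5), a * b = b * a := fun a b =>
        (mem_center_iff.1 (h ▸ mem_top b) a)
      have := h1 ⟨toP 15, Equiv.Perm.mem_alternatingGroup.2 (sign_toP _)⟩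
        ⟨toP 13, Equiv.Perm.mem_alternatingGroup.2 (sign_toP _)⟩
      have h2 := congrArg (fun x : alternatingGroup (Fin 5) => (x : Equiv.Perm (Fin 5)) 0) this
      revert h2; decide +kernel
  have hz2 : ∀ c : E, c ∈ zpowers z → c = 1 ∨ c = z := by
    intro c hc
    by_cases h1 : c = 1
    · exact .inl h1
    · right
      have := PGroup.zpowers_eq_of_card_prime hz.card_zpowers hc h1
      have h2 : z ∈ zpowers c := this ▸ mem_zpowers z
      have h3 : c ^ 2 = 1 := hz.pow_eq_one hc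
      obtain ⟨k, hk⟩ := h2
      have hk' : c ^ k = z := hk
      rcases Int.even_or_odd' k with ⟨m, rfl | rfl⟩
      · rw [zpow_mul, zpow_two, ← pow_two, h3, one_zpow] at hk'
        have := hz.ord; rw [← hk'] at this; simp at this
      · rw [zpow_add, zpow_mul, zpow_two, ← pow_two, h3, one_zpow, one_mul, zpow_one] at hk'
        exact hk'
  have hcz : ∀ c : E, (∀ y : E, c * y = y * c) → c ∈ zpowers z := fun c h => by
    rw [← hz.center]
    exact ⟨mem_top _, fun y _ => (h y).symm⟩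
  have hzt : (z : C) = t := by
    rcases hz2 ⟨t, tE⟩ (hcz _ fun y => Subtype.ext (hc y).symm) with h | h
    · exact absurd (congrArg Subtype.val h) tne
    · exact (congrArg Subtype.val h).symm
  refine ⟨hc, tt, tne, hE, h32, tE, fun x hx y hy => ?_, fun x hx => ?_, fun x hx h => ?_,
    q, hq, hk⟩
  · rcases hz2 _ (hz.comm ⟨y, hy⟩ (mem_top _) ⟨x, hx⟩ (mem_top _)) with h | h
    · left
      have := congrArg Subtype.val h
      simp only [commutatorElement_def, coe_mul, coe_inv, coe_one] at this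
      calc y * x = (y * x * y⁻¹ * x⁻¹) * (x * y) := by group
        _ = x * y := by rw [this, one_mul]
    · right
      have := congrArg Subtype.val h
      simp only [commutatorElement_def, coe_mul, coe_inv, hzt] at this
      calc y * x = (y * x * y⁻¹ * x⁻¹) * (x * y) := by group
        _ = t * (x * y) := by rw [this]
  · rcases hz2 _ (hz.pow ⟨x, hx⟩ (mem_top _)) with h | h
    · left; simpa [pow_two] using congrArg Subtype.val h
    · right; simpa [pow_two, hzt] using congrArg Subtype.val h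
  · rcases hz2 ⟨x, hx⟩ (hcz _ fun y => Subtype.ext (h y y.2)) with h | h
    · exact .inl (congrArg Subtype.val h)
    · exact .inr ((congrArg Subtype.val h).trans hzt)

/-- `k` permutes the generators according to `p` -/
def Act (X : Fin 5 → C) (k : C) (p : Fin 60) : Prop := ∀ i, k * X i * k⁻¹ = X (pa p i)

theorem Act.mul {X : Fin 5 → C} {k l : C} {p q : Fin 60} (h : Act X k p) (h' : Act X l q) :
    Act X (k * l) (pm p q) := fun i => by
  rw [pa_pm, ← h, ← h']; group

theorem Act.one (X : Fin 5 → C) : Act X 1 0 := fun i => by simp [pa_zero]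

theorem Act.inv {X : Fin 5 → C} {k : C} {p : Fin 60} (h : Act X k p) : Act X k⁻¹ (pi p) :=
  fun i => by
    have : ∀ p i, pa p (pa (pi p) i) = i := by decide +kernel
    have h1 := h (pa (pi p) i)
    rw [this] at h1
    rw [← h1]; group

/-- the structure found in the case of a nontrivial action -/
structure Str (t : C) (X : Fin 5 → C) : Prop where
  cl : Cl t X
  cen : ∀ c, c * t = t * c
  ex : ∀ p, ∃ k, Act X k p
  dec : ∀ c, ∃ a p k, Act X k p ∧ c = ev t X a * k
  ker : ∀ k, Act X k 0 → k = 1 ∨ k = t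

namespace Pre
variable {t : C} {E : Subgroup C} (h : Pre t E)
include h

theorem tt' (y : C) : t * (t * y) = y := by rw [← mul_assoc, h.tt, one_mul]
theorem tc' (x y : C) : x * (t * y) = t * (x * y) := by rw [← mul_assoc, h.cen, mul_assoc]
theorem conj_t (c : C) : c * t * c⁻¹ = t := by rw [h.cen]; simp

theorem card_C [Finite C] : Nat.card C = 1920 := by
  obtain ⟨q, hq, hk⟩ := h.quo
  have h1 := q.ker.card_mul_index
  rw [Subgroup.index_ker, MonoidHom.range_eq_top.2 hq, card_top, hk, h.card,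
    Nat.card_eq_fintype_card (α := alternatingGroup (Fin 5))] at h1
  have h2 := two_mul_card_alternatingGroup (α := Fin 5)
  rw [Fintype.card_perm, Fintype.card_fin] at h2
  have : Nat.factorial 5 = 120 := rfl
  omega

theorem exists_notMem [Finite C] (l : List C) (hl : l.length < 32) : ∃ y ∈ E, y ∉ l := by
  by_contra hc
  push Not at hc
  classical
  have h1 : (E : Set C) ⊆ (l.toFinset : Set C) := fun y hy => by simpa using hc y hy
  have h2 := Set.ncard_le_ncard h1 (Finset.finite_toSet _)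
  rw [← Nat.card_coe_set_eq, SetLike.coe_sort_coe, h.card, Set.ncard_coe_finset] at h2
  have := l.toFinset_card_le
  omega

theorem exists_inv [Finite C] : ∃ y ∈ E, y * y = 1 ∧ y ≠ 1 ∧ y ≠ t := by
  by_contra hc
  have hs : ∀ y ∈ E, y ≠ 1 → y ≠ t → y * y = t := fun y hy h1 h2 =>
    (h.sq y hy).resolve_left fun h3 => hc ⟨y, hy, h3, h1, h2⟩
  have anti : ∀ a ∈ E, ∀ b ∈ E, a ≠ 1 → a ≠ t → b ≠ 1 → b ≠ t → a * b ≠ 1 → a * b ≠ t →
      b * a = t * (a * b) := by
    intro a ha b hb h1 h2 h3 h4 h5 h6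
    refine (h.comm a ha b hb).resolve_left fun h7 => h.tne ?_
    have e := hs _ (E.mul_mem ha hb) h5 h6
    rw [← e]
    calc a * b * (a * b) = a * (b * a) * b := by group
      _ = (a * a) * (b * b) := by rw [h7]; group
      _ = 1 := by rw [hs a ha h1 h2, hs b hb h3 h4, h.tt]
  obtain ⟨u, hu, hu'⟩ := h.exists_notMem [1, t] (by simp)
  obtain ⟨v, hv, hv'⟩ := h.exists_notMem [1, t, u⁻¹, u⁻¹ * t] (by simp)
  obtain ⟨w, hw, hw'⟩ := h.exists_notMem [1, t, u⁻¹, u⁻¹ * t, v⁻¹, v⁻¹ * t, (u * v)⁻¹,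
    (u * v)⁻¹ * t] (by simp)
  simp only [List.mem_cons, List.not_mem_nil, or_false, not_or] at hu' hv' hw'
  have n1 : ∀ a b : C, b ≠ a⁻¹ → a * b ≠ 1 := fun a b h1 h2 => h1 (eq_inv_of_mul_eq_one_right h2)
  have n2 : ∀ a b : C, b ≠ a⁻¹ * t → a * b ≠ t := fun a b h1 h2 => h1 (by rw [← h2]; group)
  have e1 := anti u hu v hv hu'.1 hu'.2 hv'.1 hv'.2.1 (n1 _ _ hv'.2.2.1) (n2 _ _ hv'.2.2.2)
  have e2 := anti u hu w hw hu'.1 hu'.2 hw'.1 hw'.2.1 (n1 _ _ hw'.2.2.1) (n2 _ _ hw'.2.2.2.1)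
  have e3 := anti u hu (v * w) (E.mul_mem hv hw) hu'.1 hu'.2 (n1 _ _ hw'.2.2.2.2.1)
    (n2 _ _ hw'.2.2.2.2.2.1) (by rw [← mul_assoc]; exact n1 _ _ hw'.2.2.2.2.2.2.1)
    (by rw [← mul_assoc]; exact n2 _ _ hw'.2.2.2.2.2.2.2)
  rw [mul_assoc, e2, h.tc', ← mul_assoc v, e1, mul_assoc, h.tt', mul_assoc] at e3
  exact h.tne (by simpa using e3.symm)

/-- elements acting trivially on `E / Z(E)` -/
def NN : Subgroup C where
  carrier := {c | ∀ y ∈ E, c * y * c⁻¹ = y ∨ c * y * c⁻¹ = t * y}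
  one_mem' := fun y _ => by simp
  mul_mem' := by
    intro a b ha hb y hy
    have e : a * b * y * (a * b)⁻¹ = a * (b * y * b⁻¹) * a⁻¹ := by group
    have e2 : a * (t * y) * a⁻¹ = t * (a * y * a⁻¹) := by rw [h.tc']; group
    rw [e]
    rcases hb y hy with h1 | h1 <;> rw [h1]
    · exact ha y hy
    · rw [e2]
      rcases ha y hy with h2 | h2 <;> rw [h2]
      · exact .inr rfl
      · exact .inl (h.tt' y)
  inv_mem' := by
    intro a ha y hy
    rcases ha y hy with h1 | h1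
    · left
      calc a⁻¹ * y * a⁻¹⁻¹ = a⁻¹ * (a * y * a⁻¹) * a⁻¹⁻¹ := by rw [h1]
        _ = y := by group
    · right
      have : a⁻¹ * (t * y) * a = y := by rw [← h1]; group
      rw [h.tc'] at this
      rw [inv_inv, ← h.tt' (a⁻¹ * y * a), ← mul_assoc t (a⁻¹ * y), this]

theorem NN_normal : h.NN.Normal := ⟨by
  intro a ha g y hy
  have hy' : g⁻¹ * y * g ∈ E := h.nor.conj_mem' y hy g
  have e : g * a * g⁻¹ * y * (g * a * g⁻¹)⁻¹ = g * (a * (g⁻¹ * y * g) * a⁻¹) * g⁻¹ := by group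
  rw [e]
  rcases ha _ hy' with h1 | h1 <;> rw [h1]
  · left; group
  · right; rw [h.tc']; group⟩

theorem le_NN : E ≤ h.NN := fun x hx y hy => by
  rcases h.comm y hy x hx with h1 | h1 <;> rw [h1]
  · left; group
  · right; group

theorem NN_cases : h.NN = ⊤ ∨ h.NN ≤ E := by
  obtain ⟨q, hq, hk⟩ := h.quo
  haveI := h.NN_normal
  have e := Subgroup.comap_map_eq q h.NN
  rw [hk, sup_of_le_left h.le_NN] at e
  rcases (h.NN_normal.map q hq).eq_bot_or_eq_top with h1 | h1
  · right; rw [← e, h1, MonoidHom.comap_bot, hk]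
  · left; rw [← e, h1, comap_top]

theorem card_fix [Finite C] {f : C} (hf : orderOf f = 5) {D : Subgroup C} (hDE : D ≤ E)
    (hn : f ∈ normalizer (D : Set C)) :
    Nat.card D ≡ Nat.card (D ⊓ centralizer {f} : Subgroup C) [MOD 5] ∧ Nat.card D ∣ 32 := by
  haveI : Fact (Nat.Prime 5) := ⟨by norm_num⟩
  refine ⟨?_, h.card ▸ card_dvd_of_le hDE⟩
  rw [← centralizer_zpowers]
  exact Transfer.card_modEq_card_inf_centralizer
    (isPGroup_zpowers (k := 1) (by rw [pow_one, ← hf, pow_orderOf_eq_one]))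
    (zpowers_le.2 hn)

omit h in
theorem dvd32 {n : ℕ} (hn : n ∣ 32) : n = 1 ∨ n = 2 ∨ n = 4 ∨ n = 8 ∨ n = 16 ∨ n = 32 := by
  have : n ≤ 32 := Nat.le_of_dvd (by norm_num) hn
  interval_cases n <;> simp_all

theorem fix_five [Finite C] {f : C} (hf : orderOf f = 5) (hN : f ∉ h.NN) :
    Nat.card (E ⊓ centralizer {f} : Subgroup C) = 2 := by
  haveI := h.nor
  obtain ⟨h1, -⟩ := h.card_fix hf le_rfl (by rw [normalizer_eq_top]; exact mem_top _)
  have h2 : Nat.card (E ⊓ centralizer {f} : Subgroup C) ∣ 32 := h.card ▸ card_dvd_of_le inf_le_left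
  rw [h.card] at h1
  have h3 : Nat.card (E ⊓ centralizer {f} : Subgroup C) ≠ 32 := fun h3 => by
    have := eq_of_le_of_card_ge (inf_le_left (a := E) (b := centralizer {f})) (by rw [h3, h.card])
    refine hN fun y hy => .inl ?_
    rw [← this] at hy
    rw [← mem_centralizer_singleton_iff.1 hy.2]; group
  unfold Nat.ModEq at h1
  rcases dvd32 h2 with h4 | h4 | h4 | h4 | h4 | h4 <;> omega

theorem eq_of_card_two [Finite C] {D : Subgroup C} (hD : Nat.card D = 2) (ht : t ∈ D) {y : C}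
    (hy : y ∈ D) : y = 1 ∨ y = t := by
  by_contra hc
  push Not at hc
  have h1 : ({1, t, y} : Set C) ⊆ D := by
    rintro x (rfl | rfl | rfl)
    exacts [D.one_mem, ht, hy]
  have h2 := Set.ncard_le_ncard h1 (Set.toFinite _)
  rw [← Nat.card_coe_set_eq (D : Set C), SetLike.coe_sort_coe, hD,
    Set.ncard_eq_three.2 ⟨1, t, y, h.tne.symm, hc.1.symm, hc.2.symm, rfl⟩] at h2
  omega

theorem fix_mod [Finite C] {f : C} (hf : orderOf f = 5) (hN : f ∉ h.NN) {y : C} (hy : y ∈ E)
    (h1 : f * y * f⁻¹ = y ∨ f * y * f⁻¹ = t * y) : y = 1 ∨ y = t := by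
  have key : f * y * f⁻¹ = y → y = 1 ∨ y = t := fun h1 =>
    h.eq_of_card_two (h.fix_five hf hN) ⟨h.tE, mem_centralizer_singleton_iff.2 (h.cen f).symm⟩
      ⟨hy, mem_centralizer_singleton_iff.2 (mul_inv_eq_iff_eq_mul.1 h1).symm⟩
  rcases h1 with h1 | h1
  · exact key h1
  · have h2 : f * f * y = y * (f * f) := by
      have : f * y = t * y * f := by rw [← h1]; group
      rw [mul_assoc, this, mul_assoc, h.tc', ← mul_assoc f, this]
      simp only [mul_assoc, h.tt']
    have h3 : Commute (f * f) y := h2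
    have h4 : (f * f) ^ 3 = f := by
      have : f ^ 5 = 1 := hf ▸ pow_orderOf_eq_one f
      calc (f * f) ^ 3 = f ^ 5 * f := by rw [← pow_two, ← pow_mul, ← pow_succ]
        _ = f := by rw [this, one_mul]
    have h5 := (h3.pow_left 3).eq
    rw [h4] at h5
    exact key (by rw [h5]; group)

end Pre

end Cfsg.Agent.Lib.Jk
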