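import Cfsg.Agent.Lib.Jk.Pre

set_option autoImplicit false
set_option maxRecDepth 100000

/-! # Clifford generators in the abstract centraliser -/

namespace Cfsg.Agent.Lib.Jk

open Subgroup Cfsg.Agent.Lib.Core

variable {C : Type*} [Group C]

namespace Pre
variable {t : C} {E : Subgroup C} (h : Pre t E)
include h

theorem exists_cl0 [Finite C] {f : C} (hf : orderOf f = 5) (hN : f ∉ h.NN) {y : C} (hy : y ∈ E)
    (hy2 : y * y = 1) (hy1 : y ≠ 1) (hyt : y ≠ t) (X : ℕ → C)
    (hX : ∀ i, X i = f ^ i * y * (f ^ i)⁻¹) :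
    (∀ i d, 0 < d → d < 5 → X (d + i) * X i = t * (X i * X (d + i))) ∧
      (X 0 * (X 1 * (X 2 * (X 3 * X 4))) = 1 ∨ X 0 * (X 1 * (X 2 * (X 3 * X 4))) = t) := by
  haveI := h.nor
  have f5 : f ^ 5 = 1 := hf ▸ pow_orderOf_eq_one f
  have XE : ∀ i, X i ∈ E := fun i => hX i ▸ h.nor.conj_mem _ hy _
  have X2 : ∀ i, X i * X i = 1 := fun i => by rw [hX, conj_mul, hy2]; simp
  have X2' : ∀ i z, X i * (X i * z) = z := fun i z => by rw [← mul_assoc, X2, one_mul]
  have Xs : ∀ k i, f ^ k * X i * (f ^ k)⁻¹ = X (i + k) := fun k i => by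
    rw [hX, hX, add_comm i k, pow_add]; group
  have X5 : X 5 = X 0 := by rw [hX, hX, f5, pow_zero]
  have X0 : X 0 = y := by rw [hX]; simp
  have sh : ∀ (s : C) i j k, (∀ c, c * s = s * c) → X j * X i = s * (X i * X j) →
      X (j + k) * X (i + k) = s * (X (i + k) * X (j + k)) := fun s i j k hs e => by
    rw [← Xs, ← Xs, conj_mul, conj_mul, e, ← mul_assoc, hs]; group
  have hP : X 0 * (X 1 * (X 2 * (X 3 * X 4))) = 1 ∨ X 0 * (X 1 * (X 2 * (X 3 * X 4))) = t := by
    have m : X 1 * (X 2 * (X 3 * X 4)) ∈ E :=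
      E.mul_mem (XE _) (E.mul_mem (XE _) (E.mul_mem (XE _) (XE _)))
    refine h.fix_mod hf hN (E.mul_mem (XE _) m) ?_
    have e : f * (X 0 * (X 1 * (X 2 * (X 3 * X 4)))) * f⁻¹ = X 1 * (X 2 * (X 3 * X 4)) * X 0 := by
      have s := Xs 1
      simp only [pow_one] at s
      have s0 : X 1 = f * X 0 * f⁻¹ := (s 0).symm
      have s1 : X 2 = f * X 1 * f⁻¹ := (s 1).symm
      have s2 : X 3 = f * X 2 * f⁻¹ := (s 2).symm
      have s3 : X 4 = f * X 3 * f⁻¹ := (s 3).symm
      have s4 : X 0 = f * X 4 * f⁻¹ := X5.symm.trans (s 4).symm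
      calc _ = (f * X 0 * f⁻¹) * ((f * X 1 * f⁻¹) * ((f * X 2 * f⁻¹) * (f * X 3 * f⁻¹))) *
            (f * X 4 * f⁻¹) := by group
        _ = _ := by rw [← s0, ← s1, ← s2, ← s3, ← s4]
    rw [e]
    exact h.comm _ (XE 0) _ m
  have hr : X 0 * (X 1 * (X 2 * X 3)) * (X 0 * (X 1 * (X 2 * X 3))) = 1 := by
    have e : X 0 * (X 1 * (X 2 * X 3)) = X 0 * (X 1 * (X 2 * (X 3 * X 4))) * X 4 := by
      simp only [mul_assoc, X2, mul_one]
    rw [e]
    rcases hP with e | e <;> rw [e]
    · rw [one_mul, X2]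
    · rw [mul_assoc, h.tc', h.tt', X2]
  have main : ∀ b c : C, (b = 1 ∨ b = t) → (c = 1 ∨ c = t) → X 1 * X 0 = b * (X 0 * X 1) →
      X 2 * X 0 = c * (X 0 * X 2) → b = t ∧ c = t := by
    intro b c hb hc e1 e2
    have cb : ∀ z, z * b = b * z := by rcases hb with rfl | rfl; simp; exact h.cen
    have cc : ∀ z, z * c = c * z := by rcases hc with rfl | rfl; simp; exact h.cen
    have c2 : c * c = 1 := by rcases hc with rfl | rfl; simp; exact h.tt
    have b2 : b * b = 1 := by rcases hb with rfl | rfl; simp; exact h.tt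
    have fl : ∀ (s : C) i j, s * s = 1 → X j * X i = s * (X i * X j) →
        X i * X j = s * (X j * X i) := fun s i j hs e => by rw [e, ← mul_assoc, hs, one_mul]
    have e21 := sh b 0 1 1 cb e1
    have e32 := sh b 0 1 2 cb e1
    have e31 := sh c 0 2 1 cc e2
    have e30 := fl c _ _ c2 (X5 ▸ sh c 0 2 3 cc e2)
    have e40 := fl b _ _ b2 (X5 ▸ sh b 0 1 4 cb e1)
    norm_num at e21 e32 e31 e30 e40
    have as : ∀ {u v s : C}, u * v = s * (v * u) → ∀ z, u * (v * z) = s * (v * (u * z)) :=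
      fun e z => by rw [← mul_assoc, e]; simp only [mul_assoc]
    rcases hb with rfl | rfl <;> rcases hc with rfl | rfl
    · exfalso
      simp only [one_mul] at e1 e2 e30 e40 e21 e31 e32
      let D : Subgroup C := E ⊓ centralizer (Set.range X)
      have hn : f ∈ normalizer (D : Set C) := mem_normalizer_of_conj_mem fun x hx =>
        ⟨h.nor.conj_mem _ hx.1 _, by
          rintro _ ⟨i, rfl⟩
          have s : f * X (i + 4) * f⁻¹ = X i := by
            have s1 := Xs 1 (i + 4)
            have s2 := Xs 5 i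
            rw [pow_one] at s1
            rw [f5] at s2
            rw [s1, ← s2]; simp
          rw [← s, conj_mul, conj_mul, hx.2 _ ⟨i + 4, rfl⟩]⟩
      obtain ⟨h1, h2⟩ := h.card_fix hf (D := D) inf_le_left hn
      have tD : t ∈ D := ⟨h.tE, fun z _ => h.cen z⟩
      have h3 : Nat.card (D ⊓ centralizer {f} : Subgroup C) = 2 := by
        have h4 := card_dvd_of_le (inf_le_inf_right (centralizer {f}) (inf_le_left : D ≤ E))
        rw [h.fix_five hf hN] at h4
        rcases (Nat.dvd_prime Nat.prime_two).1 h4 with h5 | h5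
        · exfalso
          have : t ∈ D ⊓ centralizer {f} := ⟨tD, mem_centralizer_singleton_iff.2 (h.cen f).symm⟩
          rw [card_eq_one.1 h5, mem_bot] at this
          exact h.tne this
        · exact h5
      have yD : y ∈ D := ⟨hy, by
        rintro _ ⟨i, rfl⟩
        have : X i = X (i % 5) := by
          rw [hX, hX, ← hf, pow_mod_orderOf]
        rw [this, ← X0]
        have : i % 5 < 5 := Nat.mod_lt _ (by norm_num)
        interval_cases i % 5
        exacts [rfl, e1, e2, e30, e40]⟩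
      have h4 : Nat.card D ≠ 2 := fun h4 => by
        rcases h.eq_of_card_two h4 tD yD with h5 | h5
        exacts [hy1 h5, hyt h5]
      have h5 : Nat.card D ≠ 32 := fun h5 => by
        have := eq_of_le_of_card_ge (inf_le_left : D ≤ E) (by rw [h5, h.card])
        rcases h.cen' y hy (fun z hz => by
          rw [← this] at hz; exact hz.2 y ⟨0, X0⟩) with h6 | h6
        exacts [hy1 h6, hyt h6]
      rw [h3] at h1
      unfold Nat.ModEq at h1
      rcases dvd32 h2 with h4 | h4 | h4 | h4 | h4 | h4 <;> omega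
    · exfalso
      simp only [mul_assoc, as e1, as e2, as e30, as e21, as e31, as e32, e1, e2, e30, e21, e31,
        e32, X2, X2', h.tc', h.tt', one_mul, mul_one, h.cen (X _)] at hr
      exact h.tne hr
    · exfalso
      simp only [mul_assoc, as e1, as e2, as e30, as e21, as e31, as e32, e1, e2, e30, e21, e31,
        e32, X2, X2', h.tc', h.tt', one_mul, mul_one, h.cen (X _)] at hr
      exact h.tne hr
    · exact ⟨rfl, rfl⟩
  have e1 : X 1 * X 0 = t * (X 0 * X 1) ∧ X 2 * X 0 = t * (X 0 * X 2) := by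
    rcases h.comm _ (XE 0) _ (XE 1) with e1 | e1 <;> rcases h.comm _ (XE 0) _ (XE 2) with e2 | e2
    · exact absurd (main 1 1 (.inl rfl) (.inl rfl) (by rw [one_mul, e1]) (by rw [one_mul, e2])).1
        h.tne.symm
    · exact absurd (main 1 t (.inl rfl) (.inr rfl) (by rw [one_mul, e1]) e2).1 h.tne.symm
    · exact absurd (main t 1 (.inr rfl) (.inl rfl) e1 (by rw [one_mul, e2])).2 h.tne.symm
    · exact ⟨e1, e2⟩
  have fl : ∀ i j, X j * X i = t * (X i * X j) → X i * X j = t * (X j * X i) :=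
    fun i j e => by rw [e, h.tt']
  refine ⟨fun i d h0 h5 => ?_, hP⟩
  have : X d * X 0 = t * (X 0 * X d) := by
    interval_cases d
    · exact e1.1
    · exact e1.2
    · exact fl _ _ (X5 ▸ sh t 0 2 3 h.cen e1.2)
    · exact fl _ _ (X5 ▸ sh t 0 1 4 h.cen e1.1)
  simpa using sh t 0 d i h.cen this

theorem exists_cl [Finite C] (hN : h.NN ≤ E) : ∃ X : Fin 5 → C, Cl t X ∧ ∀ i, X i ∈ E := by
  haveI : Fact (Nat.Prime 5) := ⟨by norm_num⟩
  obtain ⟨f, hf⟩ := exists_prime_orderOf_dvd_card' (G := C) 5 (by rw [h.card_C]; norm_num)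
  have hfN : f ∉ h.NN := fun h1 => by
    have := orderOf_dvd_natCard (⟨f, hN h1⟩ : E)
    rw [← orderOf_coe, hf, h.card] at this
    norm_num at this
  have key : ∀ y ∈ E, y * y = 1 → y ≠ 1 → y ≠ t → ∀ X : ℕ → C,
      (∀ i, X i = f ^ i * y * (f ^ i)⁻¹) → X 0 * (X 1 * (X 2 * (X 3 * X 4))) = 1 →
      ∃ X : Fin 5 → C, Cl t X ∧ ∀ i, X i ∈ E := by
    intro y hy h2 h1 ht X hX hP
    obtain ⟨ha, -⟩ := h.exists_cl0 hf hfN hy h2 h1 ht X hX
    have X2 : ∀ i, X i * X i = 1 := fun i => by rw [hX, conj_mul, h2]; simp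
    refine ⟨fun i => X i, ⟨h.tt, h.tne, fun i => h.cen _, fun i => X2 _, fun i j hij => ?_, ?_⟩,
      fun i => by
        show X i ∈ E
        rw [hX]; exact h.nor.conj_mem _ hy _⟩
    · rcases lt_or_gt_of_ne (Fin.val_ne_of_ne hij) with h3 | h3
      · have := ha i (j - i) (by omega) (by omega)
        rwa [show (j : ℕ) - i + i = j by omega] at this
      · have := ha j (i - j) (by omega) (by omega)
        rw [show (i : ℕ) - j + j = i by omega] at this
        rw [this, h.tt']
    · show X 4 = X 0 * (X 1 * (X 2 * X 3))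
      calc X 4 = X 0 * (X 1 * (X 2 * (X 3 * X 4))) * X 4 := by rw [hP, one_mul]
        _ = _ := by simp only [mul_assoc, X2, mul_one]
  obtain ⟨y, hy, h2, h1, ht⟩ := h.exists_inv
  rcases (h.exists_cl0 hf hfN hy h2 h1 ht _ fun _ => rfl).2 with hP | hP
  · exact key y hy h2 h1 ht _ (fun _ => rfl) hP
  · refine key (t * y) (E.mul_mem h.tE hy) (by rw [mul_assoc, h.tc', h.tt', h2])
      (fun e => ht (by rw [← h.tt' y, e, mul_one])) (fun e => h1 (by simpa using e))
      (fun i => t * (f ^ i * y * (f ^ i)⁻¹)) (fun i => by rw [h.tc']; group) ?_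
    generalize f ^ 0 * y * (f ^ 0)⁻¹ = a at *
    generalize f ^ 1 * y * (f ^ 1)⁻¹ = b at *
    generalize f ^ 2 * y * (f ^ 2)⁻¹ = c at *
    generalize f ^ 3 * y * (f ^ 3)⁻¹ = d at *
    generalize f ^ 4 * y * (f ^ 4)⁻¹ = e at *
    simp only [mul_assoc, h.tc' a, h.tc' b, h.tc' c, h.tc' d, h.tt', hP, h.tt]

theorem range_ev [Finite C] {X : Fin 5 → C} (hX : Cl t X) (hE : ∀ i, X i ∈ E) (y : C) :
    y ∈ E ↔ ∃ a, ev t X a = y := by
  have m : ∀ a, ev t X a ∈ E := fun a => by
    have c : ∀ (b : Bool) (z : C), z ∈ E → cond b z 1 ∈ E := fun b z hz => by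
      cases b; exacts [E.one_mem, hz]
    exact E.mul_mem (c _ _ h.tE) (E.mul_mem (c _ _ (hE _)) (E.mul_mem (c _ _ (hE _))
      (E.mul_mem (c _ _ (hE _)) (c _ _ (hE _)))))
  refine ⟨fun hy => ?_, fun ⟨a, ha⟩ => ha ▸ m a⟩
  have hb : Function.Bijective (fun a : Fin 32 => (⟨ev t X a, m a⟩ : E)) :=
    Function.Injective.bijective_of_nat_card_le
      (fun a b e => hX.ev_inj (congrArg Subtype.val e)) (by simp [h.card])
  obtain ⟨a, ha⟩ := hb.2 ⟨y, hy⟩
  exact ⟨a, congrArg Subtype.val ha⟩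

theorem str [Finite C] (hN : h.NN ≤ E) : ∃ X : Fin 5 → C, Str t X := by
  obtain ⟨X, hX, hE⟩ := h.exists_cl hN
  have rg := h.range_ev hX hE
  have evt : ∀ j, ev t X (em 16 (xc j)) = t * X j := fun j => by
    rw [hX.ev_em, Cl.ev_16, hX.ev_xc]
  have uq : ∀ i j, (X i = X j ∨ X i = t * X j ∨ t * X i = X j ∨ t * X i = t * X j) → i = j := by
    intro i j hij
    apply xc_inj
    rw [← evt, ← evt, ← hX.ev_xc i, ← hX.ev_xc j] at hij
    rcases hij with e | e | e | e
    exacts [.inl (hX.ev_inj e), .inr (.inl (hX.ev_inj e)), .inr (.inr (.inl (hX.ev_inj e))),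
      .inr (.inr (.inr (hX.ev_inj e)))]
  have ex : ∀ (c : C) (i : Fin 5), ∃ j, c * X i * c⁻¹ = X j ∨ c * X i * c⁻¹ = t * X j := by
    intro c i
    obtain ⟨a, ha⟩ := (rg _).1 (h.nor.conj_mem _ (hE i) c)
    have h2 : em a a = 0 := hX.ev_eq_one (by rw [hX.ev_em, ha, conj_mul, hX.sq]; simp)
    have hne : ∃ j, j ≠ i := exists_ne i
    rcases e_inv a h2 with rfl | rfl | ⟨j, rfl | rfl⟩
    · exfalso
      rw [Cl.ev_zero] at ha
      have : X i = 1 := by simpa using ha.symm
      obtain ⟨j, hj⟩ := hne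
      have e := hX.anti i j hj.symm
      rw [this] at e
      exact h.tne (by simpa using e.symm)
    · exfalso
      rw [Cl.ev_16] at ha
      have : X i = t := by
        calc X i = c⁻¹ * (c * X i * c⁻¹) * c⁻¹⁻¹ := by group
          _ = t := by rw [← ha, h.conj_t]
      obtain ⟨j, hj⟩ := hne
      have e := hX.anti i j hj.symm
      rw [this, h.tt', h.cen] at e
      exact h.tne (by simpa using e)
    · exact ⟨j, .inl (by rw [← ha, hX.ev_xc])⟩
    · exact ⟨j, .inr (by rw [← ha, evt])⟩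
  choose s hs using ex
  have ct : ∀ c y : C, c * (t * y) * c⁻¹ = t * (c * y * c⁻¹) := fun c y => by rw [h.tc']; group
  let π0 : C →* Function.End (Fin 5) :=
    { toFun := s
      map_one' := funext fun i => (uq i _ (by
        rcases hs 1 i with e | e
        · left; simpa using e
        · right; left; simpa using e)).symm
      map_mul' := fun c d => funext fun i => uq _ _ (by
        show X (s (c * d) i) = X (s c (s d i)) ∨ X (s (c * d) i) = t * X (s c (s d i)) ∨
          t * X (s (c * d) i) = X (s c (s d i)) ∨ t * X (s (c * d) i) = t * X (s c (s d i))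
        have e : c * d * X i * (c * d)⁻¹ = c * (d * X i * d⁻¹) * c⁻¹ := by group
        rcases hs (c * d) i with e1 | e1 <;> rcases hs d i with e2 | e2 <;>
          rcases hs c (s d i) with e3 | e3 <;> rw [e, e2] at e1 <;>
          simp only [ct, e3, h.tt'] at e1 <;> simp [e1]) }
  let π : C →* Equiv.Perm (Fin 5) := π0.toHomPerm
  have πs : ∀ c i, π c i = s c i := fun c i => rfl
  have hker : π.ker = E := by
    apply le_antisymm
    · intro c hc
      apply hN
      have h1 : ∀ i, c * X i * c⁻¹ = X i ∨ c * X i * c⁻¹ = t * X i := fun i => by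
        have := hs c i
        rwa [← πs, MonoidHom.mem_ker.1 hc] at this
      intro y hy
      obtain ⟨a, rfl⟩ := (rg y).1 hy
      let Q : Subgroup C :=
        { carrier := {y | c * y * c⁻¹ = y ∨ c * y * c⁻¹ = t * y}
          one_mem' := by simp
          mul_mem' := by
            intro a b ha hb
            show c * (a * b) * c⁻¹ = a * b ∨ c * (a * b) * c⁻¹ = t * (a * b)
            rw [← conj_mul]
            rcases ha with ha | ha <;> rcases hb with hb | hb <;> rw [ha, hb]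
            · left; rfl
            · right; rw [h.tc']
            · right; rw [mul_assoc]
            · left; rw [mul_assoc, h.tc', h.tt']
          inv_mem' := by
            intro a ha
            show c * a⁻¹ * c⁻¹ = a⁻¹ ∨ c * a⁻¹ * c⁻¹ = t * a⁻¹
            rw [← conj_inv]
            rcases ha with ha | ha <;> rw [ha]
            · left; rfl
            · right; rw [mul_inv_rev, inv_eq_of_mul_eq_one_right h.tt, h.cen] }
      have c1 : ∀ (b : Bool) (z : C), z ∈ Q → cond b z 1 ∈ Q := fun b z hz => by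
        cases b; exacts [Q.one_mem, hz]
      exact Q.mul_mem (c1 _ _ (.inl (h.conj_t c))) (Q.mul_mem (c1 _ _ (h1 _))
        (Q.mul_mem (c1 _ _ (h1 _)) (Q.mul_mem (c1 _ _ (h1 _)) (c1 _ _ (h1 _)))))
    · intro c hc
      refine MonoidHom.mem_ker.2 (Equiv.ext fun i => uq _ _ ?_)
      rw [πs, Equiv.Perm.one_apply]
      rcases hs c i with e1 | e1 <;> rcases h.le_NN hc _ (hE i) with e2 | e2 <;> rw [e1] at e2 <;>
        simp [e2]
  have hrange : π.range = alternatingGroup (Fin 5) := by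
    apply Equiv.Perm.eq_alternatingGroup_of_index_eq_two
    have h1 := π.ker.card_mul_index
    rw [Subgroup.index_ker, hker, h.card, h.card_C] at h1
    have h2 := π.range.card_mul_index
    rw [Nat.card_eq_fintype_card (α := Equiv.Perm (Fin 5)), Fintype.card_perm,
      Fintype.card_fin] at h2
    have : Nat.factorial 5 = 120 := rfl
    have h3 : Nat.card π.range = 60 := by omega
    rw [h3] at h2
    omega
  have dec : ∀ c, ∃ a p k, Act X k p ∧ c = ev t X a * k ∧ ∀ i, pa p i = π c i := by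
    intro c
    obtain ⟨p, hp⟩ := exists_pa (π c)
      (Equiv.Perm.mem_alternatingGroup.1 (hrange ▸ MonoidHom.mem_range.2 ⟨c, rfl⟩))
    have sg : ∀ i, ∃ a ∈ [0, 16], c * X i * c⁻¹ = ev t X (em a (xc (pa p i))) := fun i => by
      rw [hp, πs]
      rcases hs c i with e | e
      · exact ⟨0, by simp, by rw [e, zero_em, hX.ev_xc]⟩
      · exact ⟨16, by simp, by rw [e, evt]⟩
    choose ε hε1 hε using sg
    obtain ⟨u, u0, u1, u2, u3, u4⟩ := e_sign p _ (hε1 0) _ (hε1 1) _ (hε1 2) _ (hε1 3) _ (hε1 4)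
      (hX.ev_inj (by
        rw [hX.ev_em (em (ε 0) _), hX.ev_em (em (ε 1) _), hX.ev_em (em (ε 2) _), ← hε, ← hε, ← hε,
          ← hε, ← hε, hX.pr]; group))
    have hu : ∀ i, em (em (ei u) (em (ε i) (xc (pa p i)))) u = xc (pa p i) := fun i => by
      fin_cases i
      exacts [u0, u1, u2, u3, u4]
    refine ⟨u, p, (ev t X u)⁻¹ * c, fun i => ?_, by group, hp⟩
    rw [← hX.ev_xc (pa p i), ← hu, hX.ev_em, hX.ev_em, hX.ev_ei, ← hε]; group
  refine ⟨X, hX, h.cen, fun p => ?_, fun c => ?_, fun k hk => ?_⟩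
  · obtain ⟨c, hc⟩ : toP p ∈ π.range :=
      hrange ▸ Equiv.Perm.mem_alternatingGroup.2 (sign_toP p)
    obtain ⟨a, q, k, hk, -, hq⟩ := dec c
    obtain rfl : q = p := pa_inj _ _ fun i => by rw [hq, hc]; rfl
    exact ⟨k, hk⟩
  · obtain ⟨a, p, k, h1, h2, -⟩ := dec c
    exact ⟨a, p, k, h1, h2⟩
  · have hkE : k ∈ E := by
      rw [← hker]
      refine MonoidHom.mem_ker.2 (Equiv.ext fun i => uq _ _ ?_)
      have e2 := hk i
      rw [pa_zero] at e2
      rw [πs, Equiv.Perm.one_apply]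
      rcases hs k i with e1 | e1 <;> rw [e1] at e2 <;> simp [e2]
    obtain ⟨a, rfl⟩ := (rg k).1 hkE
    rcases e_cen a (fun i => hX.ev_inj (by
      have e2 := hk i
      rw [pa_zero] at e2
      rw [hX.ev_em, hX.ev_em, hX.ev_xc]
      exact mul_inv_eq_iff_eq_mul.1 e2)) with rfl | rfl
    · exact .inl Cl.ev_zero
    · exact .inr Cl.ev_16

end Pre

end Cfsg.Agent.Lib.Jk
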