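import Cfsg.Agent.Lib.Jk.Pre2
import Cfsg.Agent.Lib.Invol.AltHom

set_option autoImplicit false
set_option maxRecDepth 100000

/-! # The split case gives an isomorphism with the model -/

namespace Cfsg.Agent.Lib.Jk

open Subgroup Cfsg.Agent.Lib.Core

def WL : List (List (Fin 60)) := [[], [13, 12], [12, 13], [24, 12], [24, 13], [24, 13, 12, 13], [13, 24, 24], [24, 13, 24, 12], [13, 12, 24, 13], [12, 13, 24, 12], [12, 13, 24, 13], [24, 13, 12, 13, 24, 13], [12], [13], [13, 12, 13], [24, 24], [24, 24, 13, 12], [12, 24, 13], [13, 24, 12], [13, 24, 13], [13, 24, 13, 12, 13], [12, 13, 24, 24], [12, 24, 13, 24, 12], [13, 12, 13, 24, 13], [24], [24, 13, 12], [24, 12, 13], [12, 24], [24, 24, 13], [12, 24, 13, 12], [24, 13, 24, 24], [13, 24, 13, 12, 24], [24, 13, 12, 24, 13], [24, 12, 13, 24, 12], [12, 24, 13, 24, 24], [12, 24, 13, 12, 24, 13], [13, 12, 24], [24, 13, 24], [24, 13, 24, 12, 13], [13, 24], [13, 24, 13, 12], [13, 24, 12, 13],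 [24, 13, 12, 24], [24, 24, 13, 24], [13, 24, 13, 12, 24, 13], [13, 12, 24, 13, 24, 24], [13, 24, 12, 13, 24, 12], [24, 13, 12, 24, 13, 24, 24], [12, 13, 24], [24, 13, 12, 13, 24], [13, 12, 24, 13, 24], [13, 12, 13, 24], [12, 24, 13, 24], [13, 24, 13, 12, 13, 24], [24, 12, 13, 24], [12, 24, 13, 12, 24], [24, 13, 12, 24, 13, 24], [24, 13, 24, 12, 13, 24], [13, 24, 12, 13, 24], [13, 24, 13, 12, 24, 13, 24]]

theorem WL_spec : ∀ p : Fin 60, (WL.getD p.val []).foldr pm 0 = p ∧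
    ∀ g ∈ WL.getD p.val [], g = 24 ∨ g = 13 ∨ g = 12 := by decide +kernel

theorem pm_pi : ∀ p, pm p (pi p) = 0 := by decide +kernel

theorem p_conj : ∀ p q : Fin 60, p ≠ 0 → pm p p = 0 → q ≠ 0 → pm q q = 0 →
    ∃ r, pm q (pi (pm (pm r p) (pi r))) = 0 := by decide +kernel

theorem p_two_comm : ∀ p q : Fin 60, pm (pm p p) (pm p p) = 0 → pm (pm q q) (pm q q) = 0 →
    pm (pm (pm p q) (pm p q)) (pm (pm p q) (pm p q)) = 0 → pm p q = pm q p := by decide +kernel

theorem e_pzero : ∀ a p, (∀ i, em (em a (xc i)) (ei a) = xc (pa p i)) → p = 0 := by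
  decide +kernel

def toA (p : Fin 60) : alternatingGroup (Fin 5) :=
  ⟨toP p, Equiv.Perm.mem_alternatingGroup.2 (sign_toP p)⟩

theorem toA_pm (p q : Fin 60) : toA (pm p q) = toA p * toA q := Subtype.ext (toP_pm p q)
theorem toA_zero : toA 0 = 1 := Subtype.ext (Equiv.ext pa_zero)
theorem toA_surj (σ : alternatingGroup (Fin 5)) : ∃ p, toA p = σ := by
  obtain ⟨p, hp⟩ := exists_pa σ (Equiv.Perm.mem_alternatingGroup.1 σ.2)
  exact ⟨p, Subtype.ext (Equiv.ext hp)⟩
theorem toA_inj {p q : Fin 60} (h : toA p = toA q) : p = q :=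
  pa_inj _ _ fun i => congrArg (fun σ : alternatingGroup (Fin 5) => (σ : Equiv.Perm (Fin 5)) i) h

theorem alt_two_comm (a b : alternatingGroup (Fin 5)) (ha : a * a * (a * a) = 1)
    (hb : b * b * (b * b) = 1) (hab : a * b * (a * b) * (a * b * (a * b)) = 1) :
    a * b = b * a := by
  obtain ⟨p, rfl⟩ := toA_surj a
  obtain ⟨q, rfl⟩ := toA_surj b
  simp only [← toA_pm, ← toA_zero] at ha hb hab ⊢
  rw [p_two_comm p q (toA_inj ha) (toA_inj hb) (toA_inj hab)]

variable {C : Type*} [Group C]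

theorem Pre.two_comm [Finite C] {t : C} {E : Subgroup C} (h : Pre t E) (hN : h.NN = ⊤) (a b : C)
    (ha : a * a * (a * a) = 1) (hb : b * b * (b * b) = 1)
    (hab : a * b * (a * b) * (a * b * (a * b)) = 1) : b * a = a * b ∨ b * a = t * (a * b) := by
  haveI : Fact (Nat.Prime 2) := ⟨Nat.prime_two⟩
  haveI := h.nor
  obtain ⟨q, hq, hk⟩ := h.quo
  have hc : q a * q b = q b * q a := alt_two_comm _ _ (by simp only [← map_mul, ha, map_one])
    (by simp only [← map_mul, hb, map_one]) (by simp only [← map_mul, hab, map_one])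
  have hZ : ∀ z ∈ E ⊓ centralizer (E : Set C), z = 1 ∨ z = t := fun z hz =>
    h.cen' z hz.1 fun y hy => (hz.2 y hy).symm
  have hZ' : E ⊓ centralizer (E : Set C) = zpowers t := by
    apply le_antisymm
    · intro z hz
      rcases hZ z hz with rfl | rfl
      exacts [one_mem _, mem_zpowers _]
    · exact zpowers_le.2 ⟨h.tE, fun y _ => h.cen y⟩
  have hs := PGroup.sup_centralizer_eq_top (p := 2) (E := E)
    (IsPGroup.of_card (n := 5) (by rw [h.card]; norm_num))
    (by rw [← PGroup.card_inf_centralizer, hZ', Nat.card_zpowers]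
        exact orderOf_eq_prime (by rw [pow_two, h.tt]) h.tne)
    (by rw [hZ']; exact zpowers_le.2 (mem_center_iff.2 h.cen))
    (by
      rw [hZ', commutator_le]
      intro c _ y hy
      have : c ∈ h.NN := hN ▸ mem_top c
      rcases this y hy with e | e <;> rw [commutatorElement_def, e]
      · simp
      · simp)
  have dec : ∀ c : C, ∃ e ∈ E, ∃ k ∈ centralizer (E : Set C), e * k = c := fun c =>
    (mem_sup_of_le_normalizer_left (by rw [normalizer_eq_top]; exact le_top)).1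
      (hs ▸ mem_top c)
  obtain ⟨e, he, k, hk1, rfl⟩ := dec a
  obtain ⟨e', he', k', hk1', rfl⟩ := dec b
  have q1 : ∀ e ∈ E, q e = 1 := fun e he => by rw [← MonoidHom.mem_ker, hk]; exact he
  simp only [map_mul, q1 e he, q1 e' he', one_mul] at hc
  have hz := hZ (k' * k * (k * k')⁻¹) (mem_inf.2 ⟨by
      rw [← hk, MonoidHom.mem_ker]; simp only [map_mul, map_inv, hc, mul_inv_cancel],
    mul_mem (mul_mem hk1' hk1) (inv_mem (mul_mem hk1 hk1'))⟩)
  have e1 : e' * k' * (e * k) = (e' * e) * (k' * k) := by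
    rw [mul_assoc, ← mul_assoc k', ← hk1' e he]; group
  have e2 : e * k * (e' * k') = (e * e') * (k * k') := by
    rw [mul_assoc, ← mul_assoc k, ← hk1 e' he']; group
  rw [e1, e2]
  have hz2 : k' * k = k * k' ∨ k' * k = t * (k * k') := by
    rcases hz with hz | hz
    · exact .inl (mul_inv_eq_one.1 hz)
    · exact .inr (mul_inv_eq_iff_eq_mul.1 hz)
  rcases h.comm e he e' he' with h1 | h1 <;> rcases hz2 with h2 | h2 <;> rw [h1, h2]
  · left; rfl
  · right; rw [h.tc']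
  · right; rw [mul_assoc]
  · left; rw [mul_assoc, h.tc', h.tt']

namespace Str
variable {t : C} {X : Fin 5 → C} (h : Str t X)
include h

theorem p_zero {a : Fin 32} {p : Fin 60} (hk : Act X (ev t X a) p) : p = 0 :=
  e_pzero a p fun i => h.cl.ev_inj (by
    rw [h.cl.ev_em, h.cl.ev_em, h.cl.ev_ei, h.cl.ev_xc, h.cl.ev_xc, hk i])

theorem conj {k : C} {p : Fin 60} (hk : Act X k p) (a : Fin 32) :
    k * ev t X a = ev t X (ac p a) * k := by
  rw [← h.cl.conj_ev (h.cen k) hk]; group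

theorem uniq {k l : C} {p : Fin 60} (hk : Act X k p) (hl : Act X l p) : k = l ∨ k = t * l := by
  have := hk.mul hl.inv
  rw [pm_pi] at this
  rcases h.ker _ this with e | e
  · exact .inl (mul_inv_eq_one.1 e)
  · exact .inr (mul_inv_eq_iff_eq_mul.1 e)

theorem act_t {k : C} {p : Fin 60} (hk : Act X k p) : Act X (t * k) p := fun i => by
  have : t * k * X i * (t * k)⁻¹ = t * (k * X i * k⁻¹) * t⁻¹ := by group
  rw [this, hk, ← h.cen]; group

theorem tk_sq (k : C) : t * k * (t * k) = k * k := by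
  rw [mul_assoc, ← mul_assoc k, h.cen k, mul_assoc, h.cl.tt']

theorem split_or : (∀ k p, Act X k p → pm p p = 0 → k * k = 1) ∨
    (∀ k p, Act X k p → p ≠ 0 → pm p p = 0 → k * k = t) := by
  by_cases hc : ∃ k p, Act X k p ∧ p ≠ 0 ∧ pm p p = 0 ∧ k * k = 1
  · left
    obtain ⟨k, p, hk, h0, h2, hkk⟩ := hc
    intro k' q hk' hq
    by_cases hq0 : q = 0
    · subst hq0
      rcases h.ker _ hk' with rfl | rfl
      exacts [one_mul _, h.cl.tt]
    obtain ⟨r, hr⟩ := p_conj p q h0 h2 hq0 hq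
    obtain ⟨l, hl⟩ := h.ex r
    have := hk'.mul ((hl.mul hk).mul hl.inv).inv
    rw [hr] at this
    have e : l * k * l⁻¹ * (l * k * l⁻¹) = 1 := by rw [conj_mul, hkk]; simp
    rcases h.ker _ this with e1 | e1
    · rw [mul_inv_eq_one.1 e1, e]
    · rw [mul_inv_eq_iff_eq_mul.1 e1, h.tk_sq, e]
  · right
    intro k p hk h0 h2
    have := hk.mul hk
    rw [h2] at this
    exact (h.ker _ this).resolve_left fun e => hc ⟨k, p, hk, h0, h2, e⟩

theorem cube {k : C} {p : Fin 60} (hk : Act X k p) {l : C} {q : Fin 60} (hl : Act X l q)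
    (h3 : pm (pm (pm q (pi p)) (pm q (pi p))) (pm q (pi p)) = 0) :
    ∃ k', Act X k' p ∧ l * k'⁻¹ * (l * k'⁻¹) * (l * k'⁻¹) = 1 := by
  have h1 := hl.mul hk.inv
  have := (h1.mul h1).mul h1
  rw [h3] at this
  rcases h.ker _ this with e | e
  · exact ⟨k, hk, e⟩
  · refine ⟨t * k, h.act_t hk, ?_⟩
    have e1 : l * (t * k)⁻¹ = t * (l * k⁻¹) := by
      rw [mul_inv_rev, inv_eq_of_mul_eq_one_right h.cl.tt, ← mul_assoc, h.cen]
    rw [e1, h.tk_sq, ← mul_assoc, h.cen, mul_assoc, e, h.cl.tt]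

theorem exists_hom (hs : ∀ k p, Act X k p → pm p p = 0 → k * k = 1) :
    ∃ φ : M →* C, Function.Bijective φ ∧ φ t0 = t := by
  obtain ⟨a1, h1⟩ := h.ex 24
  obtain ⟨a2, h2⟩ := h.ex 13
  obtain ⟨a3, h3⟩ := h.ex 12
  obtain ⟨u1, h1, r1⟩ := h.cube h1 (Act.one X) (by decide +kernel)
  obtain ⟨u2, h2, r2⟩ := h.cube h2 h1 (by decide +kernel)
  obtain ⟨u3, h3, r3⟩ := h.cube h3 h2 (by decide +kernel)
  have c1 : ∀ {a b : C} {p q : Fin 60}, Act X a p → Act X b q →
      pm (pm (pi p) q) (pm (pi p) q) = 0 → pm (pm p (pi q)) (pm p (pi q)) = 0 →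
      a⁻¹ * b = b⁻¹ * a ∧ a * b⁻¹ = b * a⁻¹ := fun ha hb e1 e2 =>
    ⟨by rw [eq_inv_of_mul_eq_one_left (hs _ _ (ha.inv.mul hb) e1)]; group,
     by rw [eq_inv_of_mul_eq_one_left (hs _ _ (ha.mul hb.inv) e2)]; group⟩
  have c2 : ∀ {a b : C}, a * b⁻¹ * (a * b⁻¹) * (a * b⁻¹) = 1 → a * b⁻¹ * a = b * a⁻¹ * b :=
    fun {a b} e => by
      calc a * b⁻¹ * a = a * b⁻¹ * (a * b⁻¹) * (a * b⁻¹) * (b * a⁻¹ * b) := by group
        _ = _ := by rw [e, one_mul]
  let u : ℕ → C := fun i => match i with | 0 => 1 | 1 => u1 | 2 => u2 | _ => u3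
  obtain ⟨κ, hκ⟩ := AltHom.exists_hom_alt u 4 (by
      intro i j hij hj
      have : (i = 0 ∧ j = 2) ∨ (i = 0 ∧ j = 3) ∨ (i = 1 ∧ j = 3) := by omega
      rcases this with ⟨rfl, rfl⟩ | ⟨rfl, rfl⟩ | ⟨rfl, rfl⟩
      · exact c1 (Act.one X) h2 (by decide +kernel) (by decide +kernel)
      · exact c1 (Act.one X) h3 (by decide +kernel) (by decide +kernel)
      · exact c1 h1 h3 (by decide +kernel) (by decide +kernel)) (by
      intro i hi
      have : i = 0 ∨ i = 1 ∨ i = 2 := by omega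
      rcases this with rfl | rfl | rfl
      exacts [c2 r1, c2 r2, c2 r3])
  have g1 : κ (toA 24) = u1 := (hκ 1 0 _ (by decide +kernel)).trans (by simp [u])
  have g2 : κ (toA 13) = u2 := (hκ 2 0 _ (by decide +kernel)).trans (by simp [u])
  have g3 : κ (toA 12) = u3 := (hκ 3 0 _ (by decide +kernel)).trans (by simp [u])
  have hw : ∀ l : List (Fin 60), (∀ g ∈ l, g = 24 ∨ g = 13 ∨ g = 12) →
      Act X (κ (toA (l.foldr pm 0))) (l.foldr pm 0) := by
    intro l
    induction l with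
    | nil => intro _; simp only [List.foldr_nil, toA_zero, map_one]; exact Act.one X
    | cons g l ih =>
      intro hl
      rw [List.foldr_cons, toA_pm, map_mul]
      refine Act.mul ?_ (ih fun g hg => hl g (List.mem_cons_of_mem _ hg))
      rcases hl g List.mem_cons_self with rfl | rfl | rfl
      exacts [g1 ▸ h1, g2 ▸ h2, g3 ▸ h3]
  have ha : ∀ p, Act X (κ (toA p)) p := fun p => by
    have := hw _ (WL_spec p).2
    rwa [(WL_spec p).1] at this
  let φ : M →* C := MonoidHom.mk' (fun a => ev t X a.e * κ (toA a.p)) fun a b => by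
    simp only [mul_e, mul_p, toA_pm, map_mul, h.cl.ev_em]
    rw [mul_assoc, mul_assoc, ← mul_assoc (κ (toA a.p)), h.conj (ha a.p), mul_assoc]
  have φa : ∀ a : M, φ a = ev t X a.e * κ (toA a.p) := fun _ => rfl
  refine ⟨φ, ⟨(injective_iff_map_eq_one φ).2 fun a h1 => ?_, fun c => ?_⟩, ?_⟩
  · rw [φa] at h1
    have h2 : κ (toA a.p) = ev t X (ei a.e) := by
      rw [h.cl.ev_ei]; exact eq_inv_of_mul_eq_one_right h1
    have h3 : a.p = 0 := h.p_zero (h2 ▸ ha a.p)
    rw [h3, toA_zero, map_one, mul_one] at h1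
    exact M.ext' h3 (h.cl.ev_eq_one h1)
  · obtain ⟨a, p, k, hk, rfl⟩ := h.dec c
    rcases h.uniq hk (ha p) with rfl | rfl
    · exact ⟨⟨p, a⟩, rfl⟩
    · exact ⟨⟨p, em a 16⟩, by rw [φa, h.cl.ev_em, Cl.ev_16, mul_assoc]⟩
  · rw [φa]
    show ev t X 16 * κ (toA 0) = t
    rw [toA_zero, map_one, mul_one, Cl.ev_16]

end Str

end Cfsg.Agent.Lib.Jk
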