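import Cfsg.Agent.Lib.Jk.AB

set_option autoImplicit false
set_option maxRecDepth 100000

/-! # The Sylow 3-subgroup of `C(σ)` and its normaliser -/

namespace Cfsg.Agent.Lib.Jk

open Subgroup Cfsg.Agent.Lib.Core
open Cfsg.Agent.Lib.Root.J1 hiding Emb t0 v0 x0 T

variable {G : Type*} [Group G] [Finite G]

def TT (φ : M →* G) (w : G) : Subgroup G := centralizer {φ sg} ⊓ centralizer {w}

omit [Finite G] in
theorem mem_TT {φ : M →* G} {w x : G} : x ∈ TT φ w ↔ x * φ sg = φ sg * x ∧ x * w = w * x := by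
  simp [TT, mc]

theorem dvd27 {n : ℕ} (h : n ∣ 27) : n = 1 ∨ n = 3 ∨ n = 9 ∨ n = 27 := by
  have := Nat.le_of_dvd (by decide) h
  interval_cases n <;> omega

namespace D3
variable {t : G} {φ : M →* G} {r u w : G} (h : D3 t φ r u w)
include h

omit [Finite G] in
theorem r_A : IsA φ r := h.isA_of (h.emb.iv_iff.2 (by decide +kernel)) h.r3 h.r_ne h.rv

theorem notA_w : ¬ IsA φ w := fun e =>
  h.s1 (h.no_three e h.uw h.u_iv h.ws.symm h.us.symm h.s3)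

theorem T_spec : Nat.card (TT φ w) = 27 ∧ ∀ x, x * φ sg = φ sg * x →
    x * w * x⁻¹ * w⁻¹ ∈ zpowers (φ sg) → x ∈ TT φ w := by
  obtain ⟨-, T, hT, mT⟩ := h.card_X
  obtain ⟨z, hz, e⟩ := h.w_eq
  have key : ∀ x ∈ T, x * w * x⁻¹ * w⁻¹ ≠ z⁻¹ := fun x hx e1 => h.notA_w (IsA.of_conj (g := x) (by
    rw [mul_inv_eq_iff_eq_mul.1 e1, ← h.zs_comm (inv_mem hz) h.ws, e, mul_inv_cancel_right]
    exact h.r_A))
  have z1 : z ≠ 1 := by rintro rfl; exact h.notA_w (by simpa [e] using h.r_A)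
  have : T = TT φ w := by
    ext x
    refine ⟨fun hx => ?_, fun hx => (mT x).2 ⟨(mem_TT.1 hx).1, by simp [(mem_TT.1 hx).2]⟩⟩
    obtain ⟨h1, h2⟩ := (mT x).1 hx
    refine mem_TT.2 ⟨h1, ?_⟩
    have k1 := key x hx
    have k2 := key _ (inv_mem hx)
    rw [show x⁻¹ * w * x⁻¹⁻¹ * w⁻¹ = x⁻¹ * (x * w * x⁻¹ * w⁻¹)⁻¹ * x * (x⁻¹ * w * x * w⁻¹ *
      x⁻¹ * (x * w * x⁻¹ * w⁻¹) * x) by group] at k2
    have c1 := h.zs_comm h2 h1
    have c2 := h.zs_comm h2 h.ws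
    have e2 : x * w = x * w * x⁻¹ * w⁻¹ * (w * x) := by group
    have e3 : x⁻¹ * w * x * w⁻¹ * x⁻¹ * (x * w * x⁻¹ * w⁻¹) * x = 1 := by
      rw [mul_assoc _ _ x, ← c1]
      nth_rewrite 1 [show x⁻¹ * w * x = x⁻¹ * (x * w * x⁻¹ * w⁻¹)⁻¹ * x * w by group]
      generalize x * w * x⁻¹ * w⁻¹ = c at c1
      rw [mul_assoc x⁻¹, (Commute.inv_right c1).eq.symm]; group
    rw [e3, mul_one, mul_assoc x⁻¹, (Commute.inv_right c1).eq.symm, inv_mul_cancel_left, Ne,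
      inv_inj] at k2
    rw [e2]
    generalize x * w * x⁻¹ * w⁻¹ = c at h2 k1 k2
    rcases (mem_zp3 h.s3).1 h2 with rfl | rfl | rfl
    · simp
    all_goals
      rcases (mem_zp3 h.s3).1 hz with rfl | rfl | rfl <;>
        first | exact absurd rfl z1 | exact absurd rfl k1 | exact absurd rfl k2 |
          exact absurd (inv_inv _).symm k1
  exact ⟨this ▸ hT, fun x h1 h2 => this ▸ (mT x).2 ⟨h1, h2⟩⟩

theorem card_T : Nat.card (TT φ w) = 27 := h.T_spec.1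

omit [Finite G] in
theorem sT : φ sg ∈ TT φ w := mem_TT.2 ⟨rfl, h.ws.symm⟩

omit [Finite G] in
theorem wT : w ∈ TT φ w := mem_TT.2 ⟨h.ws, rfl⟩

omit [Finite G] in
theorem zT {z : G} (hz : z ∈ zpowers (φ sg)) : z ∈ TT φ w := zpowers_le.2 h.sT hz

theorem T_odd {x : G} (hx : x ∈ TT φ w) : Odd (orderOf x) :=
  Odd.of_dvd_nat (by rw [h.card_T]; decide) (orderOf_dvd_natCard _ hx)

theorem T_comm {a b : G} (ha : a ∈ TT φ w) (hb : b ∈ TT φ w) : a * b = b * a := by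
  have lt : ∀ {A B : Subgroup G}, A ≤ B → ∀ x ∈ B, x ∉ A → Nat.card A < Nat.card B :=
    fun e x h1 h2 => card_lt_of_lt (lt_of_le_of_ne e fun e1 => h2 (e1 ▸ h1))
  by_contra e
  have h1 := lt (A := zpowers (φ sg)) (B := TT φ w ⊓ centralizer (TT φ w))
    (zpowers_le.2 ⟨h.sT, mem_centralizer_iff.2 fun x hx => (mem_TT.1 hx).1⟩) w
    ⟨h.wT, mem_centralizer_iff.2 fun x hx => (mem_TT.1 hx).2⟩ h.w_notMem
  have h2 := lt (A := TT φ w ⊓ centralizer (TT φ w)) (B := TT φ w ⊓ centralizer {a})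
    (fun x hx => ⟨hx.1, mc.2 (mem_centralizer_iff.1 hx.2 a ha).symm⟩) a ⟨ha, mc.2 rfl⟩
    fun e1 => e (mem_centralizer_iff.1 e1.2 b hb).symm
  have h3 := lt (A := TT φ w ⊓ centralizer {a}) inf_le_left b hb fun e1 => e (mc.1 e1.2).symm
  have d1 := card_dvd_of_le (inf_le_left : TT φ w ⊓ centralizer (TT φ w) ≤ _)
  have d2 := card_dvd_of_le (inf_le_left : TT φ w ⊓ centralizer {a} ≤ _)
  rw [h.card_T] at d1 d2 h3
  rw [Nat.card_zpowers, h.s_ord] at h1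
  have := dvd27 d1; have := dvd27 d2
  omega

omit [Finite G] in
theorem uT {x : G} (hx : x ∈ TT φ w) : u * x * u⁻¹ ∈ TT φ w :=
  ⟨mc.2 (by simpa [conj_comm' h.us.symm] using comm_conj u (mem_TT.1 hx).1), cent_inv h.uw hx.2⟩

theorem uNT : u ∈ normalizer (TT φ w : Set G) := mem_normalizer_of_conj_mem fun _ => h.uT

/-- the subgroup of `T` inverted by `u` -/
def W : Subgroup G where
  carrier := {x | x ∈ TT φ w ∧ u * x * u⁻¹ = x⁻¹}
  one_mem' := ⟨one_mem _, by simp⟩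
  mul_mem' := fun {a b} ha hb => ⟨mul_mem ha.1 hb.1, by
    rw [← conj_mul, ha.2, hb.2, ← mul_inv_rev, h.T_comm ha.1 hb.1]⟩
  inv_mem' := fun {a} ha => ⟨inv_mem ha.1, by rw [← conj_inv, ha.2]⟩

theorem wW : w ∈ h.W := ⟨h.wT, h.uw⟩

theorem W_le : h.W ≤ TT φ w := fun _ hx => hx.1

theorem W_z {x : G} (hx : x ∈ h.W) (hz : x ∈ zpowers (φ sg)) : x = 1 :=
  h.zs_sq hz (by
    nth_rewrite 1 [← conj_comm' (h.zs_comm hz h.us).symm]
    rw [hx.2, inv_mul_cancel])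

theorem T_dec {x : G} (hx : x ∈ TT φ w) : ∃ z ∈ zpowers (φ sg), ∃ y ∈ h.W, x = z * y := by
  have h1 := mul_mem (inv_mem hx) (h.uT hx)
  obtain ⟨y, hy, h2, h3⟩ := decomp h.u_iv (h.T_odd h1)
  have h4 := zpowers_le.2 h1 hy
  have h5 := mul_mem hx (inv_mem h4)
  exact ⟨_, h.odd_mem h.u_iv h.us (mem_TT.1 h5).1 h3 (h.T_odd h5), y, ⟨h4, h2⟩, by group⟩

theorem card_W : Nat.card h.W = 9 := by
  have hn : zpowers (φ sg) ≤ normalizer (h.W : Set G) := zpowers_le.2 (centralizer_le_normalizer _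
    (mem_centralizer_iff.2 fun x hx => (mem_TT.1 hx.1).1))
  have := card_sup_mul_card_inf hn
  rw [show zpowers (φ sg) ⊔ h.W = TT φ w from le_antisymm (sup_le (fun _ => h.zT) h.W_le) fun x hx => by
      obtain ⟨z, hz, y, hy, rfl⟩ := h.T_dec hx
      exact mul_mem_sup hz hy,
    show zpowers (φ sg) ⊓ h.W = ⊥ from eq_bot_iff.2 fun x hx => h.W_z hx.2 hx.1, h.card_T,
    Nat.card_zpowers, h.s_ord, card_bot] at this
  omega

theorem CT {y x : G} (hy : y ∈ h.W) (y1 : y ≠ 1) (h1 : x * φ sg = φ sg * x) (h2 : x * y = y * x) :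
    x ∈ TT φ w := by
  have ho : ∀ k ∈ centralizer ({φ sg} : Set G) ⊓ centralizer ({y} : Set G), Odd (orderOf k) :=
    fun k hk => odd_of_no_iv fun z hz iz => by
      have := zpowers_le.2 hk hz
      exact y1 (h.W_z hy (h.odd_mem iz (mc.1 this.1) (mem_TT.1 hy.1).1 (mc.1 this.2).symm
        (h.T_odd hy.1)))
  refine h.T_spec.2 x h1 (semi (K := centralizer ({φ sg} : Set G) ⊓ centralizer ({y} : Set G)) h.u_iv
    (fun k hk => ⟨mc.2 (by simpa [conj_comm' h.us.symm] using comm_conj u (mc.1 hk.1)),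
      cent_inv hy.2 hk.2⟩) ho (fun k hk e => h.odd_mem h.u_iv h.us (mc.1 hk.1) e (ho k hk))
    (fun z hz k hk => h.zs_comm hz (mc.1 hk.1)) ⟨mc.2 h1, mc.2 h2⟩
    ⟨mc.2 h.ws, mc.2 (h.T_comm h.wT hy.1)⟩)

theorem CT' {y x : G} (hy : y ∈ TT φ w) (y1 : y ∉ zpowers (φ sg)) (h1 : x * φ sg = φ sg * x)
    (h2 : x * y = y * x) : x ∈ TT φ w := by
  obtain ⟨z, hz, y, hy', rfl⟩ := h.T_dec hy
  refine h.CT hy' (by rintro rfl; exact y1 (by simpa using hz)) h1 ?_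
  rw [← mul_assoc, h.zs_comm hz h1, mul_assoc, mul_assoc] at h2
  exact mul_left_cancel h2

theorem T_pg : IsPGroup 3 (TT φ w) := IsPGroup.of_card (n := 3) h.card_T

theorem T_syl : IsSyl 3 (TT φ w) (centralizer ({φ sg} : Set G)) := ⟨inf_le_left, h.T_pg, by
  have := card_mul_relIndex (inf_le_left : TT φ w ≤ _)
  rw [show centralizer {φ sg} ⊓ centralizer {w} = TT φ w from rfl, h.card_X.1, h.card_T] at this
  omega⟩

theorem five_T {f : G} (hf : orderOf f = 5) : f ∉ TT φ w := fun e => by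
  have := orderOf_dvd_natCard _ e
  rw [hf, h.card_T] at this
  omega

theorem card_NX : Nat.card (centralizer ({φ sg} : Set G) ⊓ normalizer (TT φ w : Set G) :
    Subgroup G) = 108 := by
  haveI : Fact (Nat.Prime 3) := ⟨Nat.prime_three⟩
  haveI : Fact (Nat.Prime 5) := ⟨Nat.prime_five⟩
  obtain ⟨k, k1, k2⟩ := sylow_count h.T_syl
  have d1 := card_dvd_of_le (le_inf h.T_syl.le le_normalizer)
  have d2 := orderOf_dvd_natCard (centralizer ({φ sg} : Set G) ⊓ normalizer (TT φ w : Set G))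
    ⟨mc.2 h.us, h.uNT⟩
  have d3 : ¬ 5 ∣ Nat.card (centralizer ({φ sg} : Set G) ⊓ normalizer (TT φ w : Set G) :
      Subgroup G) := fun e => by
    obtain ⟨⟨f, hf⟩, f5⟩ := exists_prime_orderOf_dvd_card' 5 e
    rw [← Subgroup.orderOf_coe] at f5
    obtain ⟨y, ⟨y1, y2⟩, e⟩ := exists_fixed Nat.prime_five f5 ((TT φ w : Set G) \ zpowers (φ sg))
      (fun x hx => ⟨conj_mem_of_mem_normalizer hf.2 hx.1, fun e => hx.2 (by
        have := conj_comm' (h.zs_comm e (mc.1 (inv_mem hf.1))).symm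
        rw [← show f * x * f⁻¹ = x by rw [← this]; group] at hx ⊢
        exact e)⟩)
      (by rw [Set.ncard_sdiff fun _ => h.zT, ← card_eq_ncard, ← card_eq_ncard, h.card_T,
        Nat.card_zpowers, h.s_ord]; decide)
    exact h.five_T f5 (h.CT' y1 y2 (mc.1 hf.1) e.symm)
  rw [h.card_X.1] at k1
  rw [h.card_T] at d1
  rw [h.u_iv.orderOf] at d2
  generalize Nat.card _ = d at *
  obtain ⟨c, rfl⟩ : 54 ∣ d := by omega
  have : c ∣ 20 := ⟨k, by nlinarith⟩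
  have := Nat.le_of_dvd (by decide) this
  interval_cases c <;> omega

theorem normW1 {n y : G} (hn : n ∈ normalizer (TT φ w : Set G))
    (hs : n * φ sg * n⁻¹ = φ sg ∨ n * φ sg * n⁻¹ = (φ sg)⁻¹) (hy : y ∈ h.W) : n * y * n⁻¹ ∈ h.W := by
  have s1 : n⁻¹ * u * n * φ sg = φ sg * (n⁻¹ * u * n) := back (by
    rcases hs with e | e <;> rw [e]
    exacts [h.us, Commute.inv_right h.us])
  have s2 : Iv (n⁻¹ * u * n) := by simpa using h.u_iv.conj n⁻¹
  have s3 := mul_mem (mul_mem (inv_mem hn) h.uNT) hn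
  have z1 := semi0 s2 (fun k => conj_mem_of_mem_normalizer s3) (fun k => h.T_odd)
    (fun k hk e => h.odd_mem s2 s1 (mem_TT.1 hk).1 e (h.T_odd hk))
    (fun z hz k hk => h.zs_comm hz (mem_TT.1 hk).1) h.wT
  have s4 := h.T_spec.2 (u * (n⁻¹ * u * n)) (Commute.mul_left h.us s1 :) (by
    have e := conj_comm' (h.zs_comm z1 h.us).symm
    rw [← e, ← conj_mul, h.uw] at z1
    simpa [mul_assoc] using z1)
  refine ⟨conj_mem_of_mem_normalizer hn hy.1, ?_⟩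
  have e := h.T_comm s4 hy.1
  have e2 := hy.2
  rw [h.u_iv.inv] at e2 ⊢
  calc u * (n * y * n⁻¹) * u = n * u * (u * (n⁻¹ * u * n) * y) * n⁻¹ * u := by
        simp only [mul_assoc, h.u_iv.cancel, mul_inv_cancel_left]
    _ = n * (u * y * u) * n⁻¹ * (u * u) := by rw [e]; group
    _ = _ := by rw [e2, h.u_iv.2]; group

theorem exists_three {y : G} (hy : y ∈ TT φ w) (y1 : y ≠ 1) :
    ∃ x ∈ zpowers y, x * x * x = 1 ∧ x ≠ 1 := by
  haveI : Fact (Nat.Prime 3) := ⟨Nat.prime_three⟩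
  obtain ⟨⟨x, hx⟩, x3⟩ := exists_prime_orderOf_dvd_card' 3 (dvd_card_of_isPGroup_of_ne_bot
    (isPGroup_zpowers_of_mem h.T_pg hy) (by simpa using y1))
  rw [← Subgroup.orderOf_coe] at x3
  exact ⟨x, hx, by rw [← pow_three', ← x3, pow_orderOf_eq_one], by rintro rfl; simp at x3⟩

theorem T_two {x : G} (hx : x ∈ TT φ w) {j : ℕ} (hj : x ^ 2 ^ j = 1) : x = 1 := by
  have := mem_zp_odd (h.T_odd hx) j
  rwa [hj, zpowers_one_eq_bot, mem_bot] at this

theorem reg {n y : G} (hs : n * φ sg * n⁻¹ = φ sg ∨ n * φ sg * n⁻¹ = (φ sg)⁻¹) (hy : y ∈ h.W)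
    (y1 : y ≠ 1) (e : n * y = y * n) : n ∈ TT φ w := by
  rcases hs with e1 | e1
  · exact h.CT hy y1 (comm_of_conj e1).symm e
  exfalso
  obtain ⟨m, hm, m1, j, m2⟩ := two_part e1
  have m3 := comm_of_mem_zpowers hm e.symm
  obtain ⟨x, hx, x3, x1⟩ := h.exists_three hy.1 y1
  refine x1 (h.no_three ⟨1, by simp⟩ m1 ⟨by rintro rfl; exact h.s_inv_ne (by simpa using m1.symm),
    h.T_two (h.CT hy y1 (sq_comm_of_inv m1) (Commute.mul_left m3.symm m3.symm :)) (j := j)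
      (by rw [← pow_two, ← pow_mul, mul_comm, pow_mul, m2, one_pow])⟩
    (mem_TT.1 (zpowers_le.2 hy.1 hx)).1 (comm_of_mem_zpowers hx m3.symm).symm x3)

theorem exists_m : ∃ m ∈ normalizer (TT φ w : Set G), m * φ sg * m⁻¹ = (φ sg)⁻¹ := by
  haveI : Fact (Nat.Prime 3) := ⟨Nat.prime_three⟩
  obtain ⟨x, hx, m, hm, e⟩ := h.T_syl.frattini le_rfl (h := φ n0)
    (mem_normalizer_of_conj_mem fun _ => cent_inv h.n0s)
  refine ⟨m, hm, ?_⟩
  calc m * φ sg * m⁻¹ = x⁻¹ * (φ n0 * φ sg * (φ n0)⁻¹) * x⁻¹⁻¹ := by rw [e]; group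
    _ = _ := by rw [h.n0s, ← conj_inv, conj_comm' (mc.1 (inv_mem hx)).symm]

omit [Finite G] in
theorem normS {n : G} (hn : n ∈ normalizer (zpowers (φ sg) : Set G)) :
    n * φ sg * n⁻¹ = φ sg ∨ n * φ sg * n⁻¹ = (φ sg)⁻¹ :=
  ((mem_zp3 h.s3).1 (conj_mem_of_mem_normalizer hn (mem_zpowers _))).resolve_left
    (by simpa using h.s1)

theorem normS' {n : G} (hn : n * φ sg * n⁻¹ = φ sg ∨ n * φ sg * n⁻¹ = (φ sg)⁻¹) :
    n ∈ normalizer (zpowers (φ sg) : Set G) := mem_normalizer_of_conj_mem (by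
  rintro _ ⟨i, rfl⟩
  rw [← conj_zpow]
  rcases hn with e | e <;> rw [e]
  exacts [zpow_mem (mem_zpowers _) _, zpow_mem (inv_mem (mem_zpowers _)) _])

theorem trans {y : G} (hy : y ∈ h.W) (y1 : y ≠ 1) : ∃ n ∈ normalizer (TT φ w : Set G),
    (n * φ sg * n⁻¹ = φ sg ∨ n * φ sg * n⁻¹ = (φ sg)⁻¹) ∧ n * w * n⁻¹ = y := by
  set N := normalizer (TT φ w : Set G) ⊓ normalizer (zpowers (φ sg) : Set G)
  have c1 : Nat.card N = 216 := by
    obtain ⟨m, hm, m1⟩ := h.exists_m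
    rw [card_eq_orbit_mul N (φ sg), show N ⊓ centralizer {φ sg} = centralizer {φ sg} ⊓
      normalizer (TT φ w : Set G) from le_antisymm (fun x hx => ⟨hx.2, hx.1.1⟩) fun x hx =>
        ⟨⟨hx.2, h.normS' (.inl (conj_comm' (mc.1 hx.1).symm))⟩, hx.1⟩, h.card_NX,
      show {y | ∃ k ∈ N, k * φ sg * k⁻¹ = y} = {φ sg, (φ sg)⁻¹} from ?_,
      Set.ncard_pair h.s_inv_ne.symm]
    ext y
    constructor
    · rintro ⟨k, hk, rfl⟩; exact h.normS hk.2
    · rintro (rfl | rfl)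
      exacts [⟨1, one_mem _, by simp⟩, ⟨m, ⟨hm, h.normS' (.inr m1)⟩, m1⟩]
  have c2 := card_eq_orbit_mul N w
  rw [c1, show N ⊓ centralizer {w} = TT φ w from le_antisymm
    (fun x hx => h.reg (h.normS hx.1.2) h.wW h.w1 (mc.1 hx.2)) fun x hx =>
      ⟨⟨le_normalizer hx, h.normS' (.inl (conj_comm' (mc.1 hx.1).symm))⟩, hx.2⟩, h.card_T] at c2
  have c3 : {y | ∃ k ∈ N, k * w * k⁻¹ = y} = (h.W : Set G) \ {1} :=
    Set.eq_of_subset_of_ncard_le (by
      rintro _ ⟨k, hk, rfl⟩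
      exact ⟨h.normW1 hk.1 (h.normS hk.2) h.wW, by simpa using h.w1⟩) (by
      rw [Set.ncard_sdiff_singleton_of_mem (one_mem _), ← card_eq_ncard, h.card_W]; omega)
  obtain ⟨k, hk, e⟩ : y ∈ {y | ∃ k ∈ N, k * w * k⁻¹ = y} := c3 ▸ ⟨hy, y1⟩
  exact ⟨k, hk.1, h.normS hk.2, e⟩

theorem W3 {y : G} (hy : y ∈ h.W) : y * y * y = 1 := by
  by_cases y1 : y = 1
  · simp [y1]
  obtain ⟨n, -, -, rfl⟩ := h.trans hy y1
  rw [conj_mul, conj_mul, h.w3]; simp

theorem T3 {x : G} (hx : x ∈ TT φ w) : x * x * x = 1 := by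
  obtain ⟨z, hz, y, hy, rfl⟩ := h.T_dec hx
  have := (show Commute z y from h.T_comm (h.zT hz) hy.1).mul_pow 3
  rwa [pow_three', pow_three', pow_three', h.W3 hy, h.zs_cube hz, one_mul] at this

theorem zw_A {z : G} (hz : z ∈ zpowers (φ sg)) (z1 : z ≠ 1) : IsA φ (z * w) := by
  obtain ⟨c, hc, e⟩ := h.w_eq
  have c1 : c ≠ 1 := by rintro rfl; exact h.notA_w (by simpa [e] using h.r_A)
  have : z = c ∨ z = c⁻¹ := by
    rcases (mem_zp3 h.s3).1 hz with rfl | rfl | rfl <;>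
      rcases (mem_zp3 h.s3).1 hc with rfl | rfl | rfl <;> simp_all
  have e1 : c⁻¹ * w = r := by rw [← h.zs_comm (inv_mem hc) h.ws, e]; group
  rcases this with rfl | rfl
  · have := h.isA_inv (h.r_A.conj u)
    rwa [← e1, ← conj_mul, h.uw, conj_comm' (h.zs_comm (inv_mem hz) h.us).symm, mul_inv_rev, inv_inv,
      inv_inv, h.zs_comm hz h.ws] at this
  · exact e1 ▸ h.r_A

theorem isA_iff {x : G} (hx : x ∈ TT φ w) : IsA φ x ↔ x ∉ h.W := by
  constructor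
  · intro hA hW
    obtain ⟨n, -, -, rfl⟩ := h.trans hW (by rintro rfl; obtain ⟨g, e⟩ := hA; exact h.s1 (by simpa using e))
    exact h.notA_w hA.of_conj
  · intro hW
    obtain ⟨z, hz, y, hy, rfl⟩ := h.T_dec hx
    have z1 : z ≠ 1 := by rintro rfl; exact hW (by simpa using hy)
    by_cases y1 : y = 1
    · rcases (mem_zp3 h.s3).1 hz with rfl | rfl | rfl
      · exact absurd rfl z1
      · exact ⟨1, by simp [y1]⟩
      · exact ⟨φ n0, by simp [y1, h.n0s]⟩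
    obtain ⟨n, -, hn, rfl⟩ := h.trans hy y1
    have := (h.zw_A (conj_mem_of_mem_normalizer' (h.normS' hn) hz) (by
      simpa using (conj_inj (g := n⁻¹) (a := z) (b := 1)).not.2 z1)).conj n
    simpa [mul_assoc] using this

theorem normW {n y : G} (hn : n ∈ normalizer (TT φ w : Set G)) (hy : y ∈ h.W) :
    n * y * n⁻¹ ∈ h.W := by
  by_contra e
  exact (h.isA_iff hy.1).1 ((h.isA_iff (conj_mem_of_mem_normalizer hn hy.1)).2 e).of_conj hy

theorem transA {x : G} (hx : x ∈ TT φ w) (hW : x ∉ h.W) :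
    ∃ g ∈ normalizer (TT φ w : Set G), g * φ sg * g⁻¹ = x := by
  haveI : Fact (Nat.Prime 3) := ⟨Nat.prime_three⟩
  obtain ⟨g, rfl⟩ := (h.isA_iff hx).2 hW
  obtain ⟨c, hc, e⟩ := h.T_syl.exists_conj_le (Q := (TT φ w).map (MulAut.conj g⁻¹).toMonoidHom)
    (h.T_pg.map _) (by
      rintro _ ⟨x, hx', rfl⟩
      exact mc.2 (by simpa using back (h.T_comm hx' hx)))
  refine ⟨(c * g⁻¹)⁻¹, inv_mem (mem_normalizer_of_conj_mem fun x hx' => ?_), ?_⟩
  · simpa [mul_assoc] using e ⟨_, ⟨x, hx', rfl⟩, rfl⟩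
  · rw [mul_inv_rev, inv_inv, mul_assoc g, mc.1 (inv_mem hc)]; group

theorem s_notW : φ sg ∉ h.W := fun e => h.s1 (h.W_z e (mem_zpowers _))

theorem card_NT : Nat.card (normalizer (TT φ w : Set G)) = 1944 := by
  rw [card_eq_orbit_mul _ (φ sg), inf_comm, h.card_NX,
    show {y | ∃ k ∈ normalizer (TT φ w : Set G), k * φ sg * k⁻¹ = y} = (TT φ w : Set G) \ h.W from ?_,
    Set.ncard_sdiff h.W_le, ← card_eq_ncard, ← card_eq_ncard, h.card_T, h.card_W]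
  ext y
  constructor
  · rintro ⟨k, hk, rfl⟩
    have := conj_mem_of_mem_normalizer hk h.sT
    exact ⟨this, (h.isA_iff this).1 ⟨k, rfl⟩⟩
  · exact fun hy => h.transA hy.1 hy.2

end D3

end Cfsg.Agent.Lib.Jk
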