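import Cfsg.Agent.Lib.Jk.HA
import Cfsg.Agent.Lib.Jk.L360
import Cfsg.Agent.Lib.Invol.CoxeterA

set_option autoImplicit false
set_option maxRecDepth 100000

/-! # The centraliser of an element of class `3A` -/

namespace Cfsg.Agent.Lib.Jk

open Subgroup Cfsg.Agent.Lib.Core
open Cfsg.Agent.Lib.Root.J1 hiding Emb t0 v0 x0 T

variable {G : Type*} [Group G]

theorem mem_zp3 {s y : G} (h : s * s * s = 1) : y ∈ zpowers s ↔ y = 1 ∨ y = s ∨ y = s⁻¹ := by
  refine ⟨?_, by rintro (rfl | rfl | rfl) <;> simp⟩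
  have h2 : s * s = s⁻¹ := eq_inv_of_mul_eq_one_left h
  have h3 : s⁻¹ * s⁻¹ = s := by rw [← mul_inv_rev, h2, inv_inv]
  let K : Subgroup G :=
    { carrier := {y | y = 1 ∨ y = s ∨ y = s⁻¹}
      one_mem' := .inl rfl
      mul_mem' := by rintro _ _ (rfl | rfl | rfl) (rfl | rfl | rfl) <;> simp [h2, h3]
      inv_mem' := by rintro _ (rfl | rfl | rfl) <;> simp }
  exact fun hy => (zpowers_le.2 (show s ∈ K from .inr (.inl rfl))) hy

theorem mem_zp_odd [Finite G] {y : G} (h : Odd (orderOf y)) (k : ℕ) : y ∈ zpowers (y ^ 2 ^ k) :=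
  mem_zpowers_pow_iff.2 (by
    rw [Nat.gcd_comm]; exact Nat.Coprime.pow_right k (Nat.coprime_two_right.2 h))

theorem S4_ker : ∀ a : S4, a ≠ 1 → ∃ g h : S4, g * a * g⁻¹ * (h * a * h⁻¹) = t4 := by decide +kernel

theorem exists_S4 {a b c : G} (ha : a * a = 1) (hb : b * b = 1) (hc : c * c = 1)
    (hab : a * b * (a * b) * (a * b) = 1) (hbc : b * c * (b * c) * (b * c) = 1) (hac : Commute a c) :
    ∃ ψ : S4 →* G, ψ (Equiv.swap 0 1) = a ∧ ψ t4 = a * c ∧ ψ c3 = a * b := by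
  have br : ∀ {a b : G}, a * a = 1 → b * b = 1 → a * b * (a * b) * (a * b) = 1 →
      a * b * a = b * a * b := fun {a b} ha hb e => by
    calc a * b * a = a * b * (a * b) * (a * b) * (b * a * b)⁻¹ := by group
      _ = _ := by
        rw [e, one_mul, mul_inv_rev, mul_inv_rev, inv_eq_of_mul_eq_one_right ha,
          inv_eq_of_mul_eq_one_right hb, mul_assoc]
  obtain ⟨φ, hφ⟩ := Invol.exists_hom_perm_of_coxRel (s := fun n => [a, b, c].getD n 1) (n := 3)
    ⟨fun i hi => by interval_cases i <;> assumption,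
     fun i j hij hj => by
      have : i < 1 := by omega
      interval_cases j <;> interval_cases i <;> first | omega | assumption,
     fun i hi => by
      have : i < 2 := by omega
      interval_cases i
      exacts [br ha hb hab, br hb hc hbc]⟩
  exact ⟨φ, hφ 0, by rw [t4, map_mul]; exact congrArg₂ _ (hφ 0) (hφ 2),
    by rw [c3, map_mul]; exact congrArg₂ _ (hφ 0) (hφ 1)⟩

namespace Base
variable {t : G} {φ : M →* G} {r : G} (h : Base t φ r)
include h

theorem s3 : φ sg * φ sg * φ sg = 1 := by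
  rw [← map_mul, ← map_mul, h.emb.eq_one]; decide +kernel

theorem s1 : φ sg ≠ 1 := by rw [Ne, h.emb.eq_one]; decide +kernel

theorem s_ord : orderOf (φ sg) = 3 :=
  haveI : Fact (Nat.Prime 3) := ⟨Nat.prime_three⟩
  orderOf_eq_prime (by rw [pow_three', h.s3]) h.s1

theorem zs_comm {z y : G} (hz : z ∈ zpowers (φ sg)) (hy : y * φ sg = φ sg * y) : y * z = z * y :=
  comm_of_mem_zpowers hz hy

theorem zs_sq {z : G} (hz : z ∈ zpowers (φ sg)) (h2 : z * z = 1) : z = 1 := by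
  have := eq_inv_of_mul_eq_one_left h.s3
  rcases (mem_zp3 h.s3).1 hz with rfl | rfl | rfl
  · rfl
  · exact absurd (inv_eq_one.1 (this ▸ h2)) h.s1
  · rw [← mul_inv_rev, this, inv_inv] at h2; exact absurd h2 h.s1

theorem zs_cube {z : G} (hz : z ∈ zpowers (φ sg)) : z * z * z = 1 := by
  rcases (mem_zp3 h.s3).1 hz with rfl | rfl | rfl
  · simp
  · exact h.s3
  · rw [← mul_inv_rev, ← mul_inv_rev, ← mul_assoc, h.s3, inv_one]

end Base

/-- `u` inverts `w ∈ r ⟨σ⟩`. -/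
structure D3 (t : G) (φ : M →* G) (r u w : G) : Prop extends J3 t φ r where
  ua : u = φ x3 ∨ u = φ (t0 * x3)
  wr : r⁻¹ * w ∈ zpowers (φ sg)
  uw : u * w * u⁻¹ = w⁻¹

theorem J3.exists_D3 {t : G} {φ : M →* G} {r : G} (h : J3 t φ r) : ∃ u w, D3 t φ r u w := by
  have x3t := conj_comm' (h.emb.comm x3).symm
  have x3x : φ x3 * φ x4 * (φ x3)⁻¹ = φ tx := h.emb.conj_iff.2 (by decide +kernel)
  have x3y : φ x3 * φ tx * (φ x3)⁻¹ = φ x4 := h.emb.conj_iff.2 (by decide +kernel)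
  have x3s : φ x3 * φ sg = φ sg * φ x3 := h.emb.comm_iff.2 (by decide +kernel)
  have e1 : φ x3 * r * t * (φ x3 * r)⁻¹ = φ tx := by rw [← x3x, ← h.rt]; group
  have e2 : φ x3 * r * φ x4 * (φ x3 * r)⁻¹ = φ x4 := by
    conv_rhs => rw [← x3y, ← h.rx]
    group
  have e3 : φ x3 * r * φ tx * (φ x3 * r)⁻¹ = t := by
    conv_rhs => rw [← x3t, ← h.rtx]
    group
  have e4 : Commute (φ x3 * r) (φ sg) := Commute.mul_left x3s h.rs
  obtain ⟨b, hb, eb⟩ := h.emb.memS (y := φ x3 * r * (φ x3 * r)) (comm_of_conj (by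
    conv_rhs => rw [← e3, ← e1]
    group)).symm (e4.mul_left e4)
  have b1 : b * x4 = x4 * b := h.emb.comm_iff.1 (by
    rw [eb]; exact (Commute.mul_left (comm_of_conj e2).symm (comm_of_conj e2).symm :))
  obtain ⟨i, hi, c, hc, rfl⟩ := (by decide +kernel : ∀ b ∈ SL, b * x4 = x4 * b →
    ∃ i ∈ [1, sg, sg⁻¹], ∃ c ∈ UL, b = c * i) b hb b1
  have iz : φ i ∈ zpowers (φ sg) := (mem_zp3 h.s3).2 (by
    simp only [List.mem_cons, List.not_mem_nil, or_false] at hi
    rcases hi with rfl | rfl | rfl <;> simp)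
  have fin : ∀ u : G, (u = φ x3 ∨ u = φ (t0 * x3)) → u * r * (u * r) = φ i → ∃ u w, D3 t φ r u w :=
    fun u hu e => by
      have u2 : u * u = 1 := by
        rcases hu with rfl | rfl <;> rw [← map_mul, h.emb.eq_one] <;> decide +kernel
      have us : u * φ sg = φ sg * u := by
        rcases hu with rfl | rfl <;> rw [h.emb.comm_iff] <;> decide +kernel
      refine ⟨u, r * φ i, h, hu, by simpa using iz, ?_⟩
      rw [← conj_mul, conj_comm' (h.zs_comm iz us).symm, inv_eq_of_mul_eq_one_right u2,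
        eq_inv_iff_mul_eq_one, mul_assoc, ← mul_assoc (φ i), ← h.zs_comm iz h.rs, ← h.zs_cube iz]
      nth_rewrite 3 [← e]
      group
  have c1 : φ x3 * r * φ c * (φ x3 * r)⁻¹ = φ c := by
    have : φ c = φ x3 * r * (φ x3 * r) * (φ i)⁻¹ := by rw [← eb]; simp
    rw [this, ← conj_mul, ← conj_inv, conj_comm' (h.zs_comm iz e4).symm]; group
  rcases h.mem_UU.1 (h.mem_UU'.2 hc) with e | e | e | e
  · exact fin _ (.inl rfl) (by rw [← eb, map_mul, e, one_mul])
  · rw [e, e1, ← h.emb.map_t, h.emb.eq_iff] at c1; exact absurd c1 (by decide +kernel)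
  · refine fin _ (.inr rfl) ?_
    rw [map_mul, h.emb.map_t]
    calc _ = t * (φ x3 * r * t * (φ x3 * r)⁻¹) * (φ x3 * r * (φ x3 * r)) := by group
      _ = _ := by rw [e1, ← eb, map_mul, e, h.etx, h.emb.iv.cancel, ← mul_assoc, ← map_mul,
        show x4 * x4 = 1 by decide +kernel, map_one, one_mul]
  · rw [e, e3, ← h.emb.map_t, h.emb.eq_iff] at c1; exact absurd c1 (by decide +kernel)

theorem J3.odd_mem {t : G} {φ : M →* G} {r : G} (h : J3 t φ r) [Finite G] {s y : G} (hs : Iv s)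
    (h1 : s * φ sg = φ sg * s) (h2 : y * φ sg = φ sg * y) (h3 : y * s = s * y)
    (h4 : Odd (orderOf y)) : y ∈ zpowers (φ sg) := by
  obtain ⟨g, rfl, e⟩ := h.threeA hs h.s3 h.s1 h1.symm
  obtain ⟨a, ha, ea⟩ := h.emb.memS (back h3) (back (by rw [e]; exact h2))
  refine zpowers_le.2 ?_ (mem_zp_odd h4 2)
  have e2 : y ^ 2 ^ 2 = g * φ (a * a * a * a) * g⁻¹ := by
    simp only [map_mul, ea, show 2 ^ 2 = 3 + 1 from rfl, pow_succ y 3, pow_three']; group
  rw [e2, mem_zp3 h.s3]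
  rcases (by decide +kernel : ∀ a ∈ SL, a * a * a * a = 1 ∨ a * a * a * a = sg ∨
    a * a * a * a = sg⁻¹) a ha with e3 | e3 | e3 <;> rw [e3]
  · simp
  · simp [e]
  · rw [map_inv, ← conj_inv, e]; simp

namespace D3
variable {t : G} {φ : M →* G} {r u w : G} (h : D3 t φ r u w)
include h

theorem u_iv : Iv u := by
  rcases h.ua with rfl | rfl <;> rw [h.emb.iv_iff] <;> decide +kernel

theorem us : u * φ sg = φ sg * u := by
  rcases h.ua with rfl | rfl <;> rw [h.emb.comm_iff] <;> decide +kernel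

theorem ut : u * t = t * u := by rcases h.ua with rfl | rfl <;> exact h.emb.comm _

theorem w_eq : ∃ z ∈ zpowers (φ sg), w = r * z := ⟨_, h.wr, by group⟩

theorem ws : w * φ sg = φ sg * w := by
  obtain ⟨z, hz, rfl⟩ := h.w_eq
  exact (Commute.mul_left h.rs (h.zs_comm hz rfl).symm :)

theorem w3 : w * w * w = 1 := by
  obtain ⟨z, hz, rfl⟩ := h.w_eq
  have := (show Commute r z from h.zs_comm hz h.rs).mul_pow 3
  rwa [pow_three', pow_three', pow_three', h.r3, h.zs_cube hz, one_mul] at this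

theorem w_conj {a : M} (ha : a * sg = sg * a) : w * φ a * w⁻¹ = r * φ a * r⁻¹ := by
  obtain ⟨z, hz, rfl⟩ := h.w_eq
  rw [mul_assoc r, ← h.zs_comm hz (h.emb.comm_iff.2 ha)]; group

theorem wt : w * t * w⁻¹ = φ x4 := by
  rw [← h.rt, ← h.emb.map_t, h.w_conj (by decide +kernel)]

theorem wx : w * φ x4 * w⁻¹ = φ tx := by rw [← h.rx, h.w_conj (by decide +kernel)]

theorem w_notMem : w ∉ zpowers (φ sg) := fun e => by
  have := h.wt
  rw [conj_comm' (h.zs_comm e (h.emb.comm sg).symm), ← h.emb.map_t, h.emb.eq_iff] at this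
  exact absurd this (by decide +kernel)

theorem w1 : w ≠ 1 := fun e => h.w_notMem (e ▸ one_mem _)

theorem w_ord : orderOf w = 3 :=
  haveI : Fact (Nat.Prime 3) := ⟨Nat.prime_three⟩
  orderOf_eq_prime (by rw [pow_three', h.w3]) h.w1

theorem exists_psi : ∃ ψ : S4 →* G, ψ (Equiv.swap 0 1) = u ∧ ψ t4 = t ∧ ψ c3 = w := by
  have hu := h.u_iv
  obtain ⟨ψ, e1, e2, e3⟩ := exists_S4 (a := u) (b := u * w) (c := u * t) hu.2
    (by have := h.uw; rw [hu.inv] at this; rw [← mul_assoc, this, inv_mul_cancel])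
    (by rw [← mul_assoc, mul_assoc u, ← h.ut, ← mul_assoc, hu.2, one_mul, h.emb.iv.2])
    (by rw [hu.cancel, h.w3])
    (by
      have e : u * w * (u * t) = u * (w * t) * u⁻¹ := by rw [h.ut, hu.inv]; group
      have e2 : w * t * (w * t) * (w * t) =
          w * t * w⁻¹ * (w * (w * t * w⁻¹) * w⁻¹) * (w * w * w) * t := by group
      rw [e, conj_mul, conj_mul, e2, h.wt, h.wx, h.w3, mul_one, ← h.emb.map_t, ← map_mul, ← map_mul,
        show x4 * tx * t0 = 1 by decide +kernel, map_one, mul_one, mul_inv_cancel])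
    (Commute.mul_right (Commute.refl u) h.ut)
  exact ⟨ψ, e1, by rw [e2, hu.cancel], by rw [e3, hu.cancel]⟩

theorem card_X [Finite G] : Nat.card (centralizer ({φ sg} : Set G)) = 1080 ∧ ∃ T : Subgroup G,
    Nat.card T = 27 ∧ ∀ x, x ∈ T ↔ x * φ sg = φ sg * x ∧ x * w * x⁻¹ * w⁻¹ ∈ zpowers (φ sg) := by
  obtain ⟨ψ, p1, p2, p3⟩ := h.exists_psi
  set X := centralizer ({φ sg} : Set G)
  let Z := (zpowers (φ sg)).subgroupOf X
  haveI : Z.Normal := ⟨fun z hz g => by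
    show (g : G) * z * (g : G)⁻¹ ∈ zpowers (φ sg)
    rw [conj_comm' (h.zs_comm (z := z) hz (mc.1 g.2)).symm]; exact hz⟩
  have cZ : Nat.card Z = 3 := by
    rw [card_subgroupOf (zpowers_le.2 (mc.2 rfl)), Nat.card_zpowers, h.s_ord]
  have gen : ∀ K : Subgroup S4, Equiv.swap 0 1 ∈ K → t4 ∈ K → c3 ∈ K → ∀ a, a ∈ K := by
    intro K k1 k2 k3 a
    obtain ⟨i, j, k, l, rfl⟩ := (by decide +kernel : ∀ a : S4, ∃ i j k : Fin 2, ∃ l : Fin 3, a =
      Equiv.swap 0 1 ^ i.val * t4 ^ j.val * (c3 * t4 * c3⁻¹) ^ k.val * c3 ^ l.val) a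
    exact mul_mem (mul_mem (mul_mem (pow_mem k1 _) (pow_mem k2 _))
      (pow_mem (mul_mem (mul_mem k3 k2) (inv_mem k3)) _)) (pow_mem k3 _)
  have ψX : ∀ a, ψ a ∈ X := gen (X.comap ψ) (mc.2 (p1 ▸ h.us)) (mc.2 (p2 ▸ (h.emb.comm sg).symm))
    (mc.2 (p3 ▸ h.ws))
  let q := QuotientGroup.mk' Z
  let χ : S4 →* X ⧸ Z := q.comp (ψ.codRestrict X ψX)
  have χa : ∀ a, χ a = q ⟨ψ a, ψX a⟩ := fun _ => rfl
  have q1 : ∀ {x : X}, q x = 1 ↔ (x : G) ∈ zpowers (φ sg) := QuotientGroup.eq_one_iff _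
  have qc : ∀ {x y : X}, q x * q y = q y * q x ↔ (x : G) * y * (x : G)⁻¹ * (y : G)⁻¹ ∈ zpowers (φ sg) :=
    fun {x y} => by
      rw [← mul_inv_eq_one, mul_inv_rev, ← mul_assoc, ← map_inv, ← map_inv, ← map_mul, ← map_mul,
        ← map_mul, q1]; rfl
  have ivc : ∀ {s y : G}, Iv s → s * φ sg = φ sg * s → y * s * y⁻¹ * s⁻¹ ∈ zpowers (φ sg) →
      y * s = s * y := fun {s y} hs s1 hz => by
    have := h.zs_sq hz (by
      have e := h.zs_comm hz s1
      calc _ = y * s * y⁻¹ * s⁻¹ * s⁻¹ * (s * (y * s * y⁻¹ * s⁻¹)) := by group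
        _ = y * s * y⁻¹ * s⁻¹ * s⁻¹ * (y * s * y⁻¹) := by rw [e]; group
        _ = 1 := by rw [hs.inv, mul_assoc _ s s, hs.2, mul_one, (hs.conj y).2])
    rw [mul_inv_eq_one] at this
    exact (comm_of_conj this).symm
  have L := L360 χ ((injective_iff_map_eq_one χ).2 fun a ha => by
      by_contra a1
      obtain ⟨g, k, e⟩ := S4_ker a a1
      have : χ t4 = 1 := by rw [← e]; simp [ha]
      rw [χa, q1] at this
      exact h.emb.iv.1 (h.zs_sq (p2 ▸ this) h.emb.iv.2))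
    (fun y hy => by
      obtain ⟨y, rfl⟩ := QuotientGroup.mk'_surjective Z y
      rw [χa, qc] at hy
      obtain ⟨a, ha, ea⟩ := h.emb.memS (ivc h.emb.iv (h.emb.comm sg).symm (p2 ▸ hy)) (mc.1 y.2)
      have k1 : t0 ∈ ψ.range.comap φ := ⟨t4, by rw [p2, h.emb.map_t]⟩
      have k2 : x4 ∈ ψ.range.comap φ := ⟨c3 * t4 * c3⁻¹, by simp [p2, p3, h.wt]⟩
      have k3 : x3 ∈ ψ.range.comap φ := by
        rcases h.ua with e | e
        · exact ⟨_, p1.trans e⟩
        · exact (mul_mem_cancel_left k1).1 ⟨_, p1.trans e⟩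
      obtain ⟨i, j, k, l, rfl⟩ := (by decide +kernel : ∀ a ∈ SL, ∃ i j k : Fin 2, ∃ l : Fin 3, a =
        t0 ^ i.val * x4 ^ j.val * x3 ^ k.val * sg ^ l.val) a ha
      obtain ⟨b, hb⟩ := mul_mem (mul_mem (pow_mem k1 i.val) (pow_mem k2 j.val)) (pow_mem k3 k.val)
      refine ⟨b, ?_⟩
      rw [χa]
      refine QuotientGroup.eq.2 ?_
      show (ψ b)⁻¹ * y ∈ zpowers (φ sg)
      rw [hb, ← ea, map_mul _ _ (sg ^ _), inv_mul_cancel_left, map_pow]
      exact pow_mem (mem_zpowers _) _)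
    (fun y hy => by
      obtain ⟨y, rfl⟩ := QuotientGroup.mk'_surjective Z y
      have y2 : (y : G) * y ∈ zpowers (φ sg) := q1.1 (by rw [map_mul]; exact hy.2)
      have e : q (y * y * y) = q y := by rw [map_mul, map_mul, hy.2, one_mul]
      obtain ⟨g, g1, g2⟩ := h.threeA (s := y * y * y) ⟨fun e1 => hy.1 (by
        rw [← e, show y * y * y = 1 from Subtype.ext e1, map_one]), by
          rw [← h.zs_cube y2]; group⟩ h.s3 h.s1 (mc.1 (y * y * y).2).symm
      refine isConj_iff.2 ⟨q ⟨g, mc.2 (comm_of_conj g2).symm⟩, ?_⟩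
      rw [← e, χa, ← map_inv, ← map_mul, ← map_mul]
      exact congrArg q (Subtype.ext (by simp [p2, g1])))
  let T := ((centralizer ({χ c3} : Set (X ⧸ Z))).comap q).map X.subtype
  have mT : ∀ x, x ∈ T ↔ x * φ sg = φ sg * x ∧ x * w * x⁻¹ * w⁻¹ ∈ zpowers (φ sg) := fun x => by
    constructor
    · rintro ⟨x, hx, rfl⟩
      exact ⟨mc.1 x.2, p3 ▸ qc.1 (mc.1 hx)⟩
    · rintro ⟨h1, h2⟩
      exact ⟨⟨x, mc.2 h1⟩, mc.2 (qc.2 (by simpa [p3] using h2)), rfl⟩
  have cT : Nat.card T = 3 * Nat.card (centralizer ({χ c3} : Set (X ⧸ Z))) := by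
    rw [card_map_subtype, ← card_map_mul_card_inf_ker q, map_comap_eq_self_of_surjective
      (QuotientGroup.mk'_surjective Z), inf_eq_left.2 (ker_le_comap _ _), QuotientGroup.ker_mk', cZ,
      mul_comm]
  have oT : Odd (Nat.card T) := Invol.odd_card_iff_no_involution.2 fun s hs s2 => by
    have is : Iv s := ⟨by rintro rfl; simp at s2, by rw [← pow_two, ← s2, pow_orderOf_eq_one]⟩
    obtain ⟨s1, hz⟩ := (mT s).1 hs
    refine h.w_notMem (h.odd_mem is s1 h.ws (ivc is s1 ?_) (by rw [h.w_ord]; decide))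
    simpa [mul_assoc] using inv_mem hz
  have cX := card_eq_card_quotient_mul_card_subgroup Z
  have d1 := card_subgroup_dvd_card (centralizer ({χ c3} : Set (X ⧸ Z)))
  have d2 : 5 ∣ Nat.card X := h.five
  rw [cZ, L] at cX
  rw [L] at d1
  rw [cT] at oT
  generalize Nat.card (centralizer ({χ c3} : Set (X ⧸ Z))) = c at *
  have d3 : c ∣ 72 := (Nat.dvd_add_left (Dvd.intro_left 32 rfl)).1 d1
  have d4 := Nat.le_of_dvd (by decide) d3
  obtain ⟨m, hm⟩ := oT
  have : c = 9 := by interval_cases c <;> omega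
  exact ⟨by omega, T, by omega, mT⟩

end D3

end Cfsg.Agent.Lib.Jk
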